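import Mathlib
import Cfsg.Prelude.Def_LocalEven
import Cfsg.Prelude.Def_Transfer

/-!
# Glauberman's 2-factorization: base definitions
-/

set_option autoImplicit false

universe u

namespace H14.GF

open Subgroup Cfsg

variable {G : Type u} [Group G]

/-- the index of `C_W(A)` in `W` -/
noncomputable def io (W A : Subgroup G) : ℕ := (centralizer (A : Set G)).relIndex W

/-- the property of the subgroups `V` in the definition of an E-group, inside an ambient group -/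
structure Strong (T V : Subgroup G) : Prop where
  le : V ≤ T
  nrm : T ≤ normalizer (V : Set G)
  comm : ∀ a ∈ V, ∀ b ∈ V, a * b = b * a
  sq : ∀ a ∈ V, a * a = 1
  ineq : ∀ R : Subgroup G, R ≤ T → (∀ a ∈ R, ∀ b ∈ R, a * b * a⁻¹ * b⁻¹ ∈ centralizer (V : Set G)) →
    (∀ r ∈ R, r * r ∈ centralizer (V : Set G)) → ¬ R ≤ centralizer (V : Set G) →
      io R V ^ 3 < io V R ^ 2 ∧ io R V < Nat.card ↥⁅V, R⁆

/-- `T` is an E-group (ambient form) -/
def EG (T : Subgroup G) : Prop := ∀ V : Subgroup G, Strong T V → T ≤ centralizer (V : Set G)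

/-- the elementary abelian 2-subgroups of `S` of largest order -/
def AA (S : Subgroup G) : Set (Subgroup G) :=
  {A | A ≤ S ∧ (∀ a ∈ A, ∀ b ∈ A, a * b = b * a) ∧ (∀ a ∈ A, a * a = 1) ∧
    ∀ B : Subgroup G, B ≤ S → (∀ a ∈ B, ∀ b ∈ B, a * b = b * a) → (∀ a ∈ B, a * a = 1) →
      Nat.card B ≤ Nat.card A}

/-- `J_e(S)` -/
def JE (S : Subgroup G) : Subgroup G := sSup (AA S)

/-- `Ĵ(S)` -/
def JH (S : Subgroup G) : Subgroup G := (jHat ↥S).map S.subtype

/-- `Ω₁(Z(Ĵ(S)))` -/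
def Z1 (S : Subgroup G) : Subgroup G := omegaOne 2 (JH S ⊓ centralizer (JH S : Set G))

/-- facts on the simple groups in question -/
structure TFact (T : Type*) [Group T] (Q : ℕ) : Prop where
  four : 4 ≤ Q
  el : ∀ E : Subgroup T, (∀ a ∈ E, ∀ b ∈ E, a * b = b * a) → (∀ a ∈ E, a * a = 1) → Nat.card E ^ 2 ≤ Q
  inv : ∀ t : T, t ≠ 1 → t * t = 1 → ∃ x : T, (orderOf x).Prime ∧ orderOf x ≠ 2 ∧ t * x * t⁻¹ = x⁻¹ ∧
    Odd (Nat.card (centralizer ({x} : Set T))) ∧ ∀ d : ℕ, 0 < d → orderOf x ∣ 2 ^ (2 * d) - 1 → Q ≤ 2 ^ d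

end H14.GF
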