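import Cfsg.Agent.Lib.H1.Coprime2
import Cfsg.Agent.Lib.H27.GenSub
import Cfsg.Agent.Lib.H2.BGCop
import Cfsg.Agent.Lib.H30.FrobAct
import Cfsg.Agent.Lib.H65.HallHigman

/-!
# Coprime action of `C_q × C_q` with abelian fixed point subgroups: basic facts
-/

set_option autoImplicit false

namespace H14.AbCent

open Cfsg Subgroup
open scoped Pointwise commutatorElement

universe u

/-- `A ≅ C_q × C_q` acts coprimely on `K`, with trivial fixed points and with abelian `C_K(a)`, `a ≠ 1`. -/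
structure Setup {G : Type u} [Group G] (q : ℕ) (A K : Subgroup G) : Prop where
  hq : q.Prime
  el : Cfsg.IsElementaryAbelian q A
  card : Nat.card A = q ^ 2
  norm : A ≤ normalizer (K : Set G)
  cop : ¬ q ∣ Nat.card K
  fix : K ⊓ centralizer (A : Set G) = ⊥
  ab : ∀ a ∈ A, a ≠ 1 → ∀ x ∈ K, x * a = a * x → ∀ y ∈ K, y * a = a * y → x * y = y * x

variable {G : Type u} [Group G] {q : ℕ} {A K : Subgroup G}

theorem mem_cent {H : Subgroup G} {a x : G} : x ∈ H ⊓ centralizer ({a} : Set G) ↔ x ∈ H ∧ x * a = a * x := by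
  rw [Subgroup.mem_inf, mem_centralizer_singleton_iff]

namespace Setup

theorem sub [Finite G] (h : Setup q A K) {H : Subgroup G} (hH : H ≤ K) (hA : A ≤ normalizer (H : Set G)) : Setup q A H where
  hq := h.hq
  el := h.el
  card := h.card
  norm := hA
  cop := fun h1 => h.cop (h1.trans (Subgroup.card_dvd_of_le hH))
  fix := by
    rw [eq_bot_iff, ← h.fix]
    exact inf_le_inf_right _ hH
  ab := fun a ha ha1 x hx hxa y hy hya => h.ab a ha ha1 x (hH hx) hxa y (hH hy) hya

theorem comm (h : Setup q A K) {a b : G} (ha : a ∈ A) (hb : b ∈ A) : a * b = b * a :=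
  congrArg Subtype.val (h.el.1.is_comm.comm ⟨a, ha⟩ ⟨b, hb⟩)

theorem pow_q (h : Setup q A K) {a : G} (ha : a ∈ A) : a ^ q = 1 := h.el.2 a ha

theorem isPGroup (h : Setup q A K) : IsPGroup q A := IsPGroup.of_card h.card

theorem finite (h : Setup q A K) : Finite A := by
  apply Nat.finite_of_card_ne_zero
  rw [h.card]
  exact pow_ne_zero _ h.hq.ne_zero

theorem solv (h : Setup q A K) : Group.IsSolvable A :=
  Group.isSolvable_of_comm fun a b => h.el.1.is_comm.comm a b

theorem coprime [Finite G] (h : Setup q A K) : (Nat.card A).Coprime (Nat.card K) := by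
  rw [h.card]
  exact Nat.Coprime.pow_left _ ((Nat.Prime.coprime_iff_not_dvd h.hq).2 h.cop)

theorem order (h : Setup q A K) {a : G} (ha : a ∈ A) (ha1 : a ≠ 1) : orderOf a = q := by
  rcases (Nat.dvd_prime h.hq).1 (orderOf_dvd_of_pow_eq_one (h.pow_q ha)) with h1 | h1
  · exact absurd (orderOf_eq_one_iff.1 h1) ha1
  · exact h1

theorem zsolv (a : G) : Group.IsSolvable (zpowers a) := by
  haveI : IsMulCommutative (zpowers a) := inferInstance
  exact Group.isSolvable_of_comm fun x y => mul_comm' x y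

theorem zcoprime [Finite G] (h : Setup q A K) {a : G} (ha : a ∈ A) (ha1 : a ≠ 1) :
    (Nat.card (zpowers a)).Coprime (Nat.card K) := by
  rw [Nat.card_zpowers, h.order ha ha1]
  exact (Nat.Prime.coprime_iff_not_dvd h.hq).2 h.cop

theorem znorm (h : Setup q A K) {a : G} (ha : a ∈ A) {H : Subgroup G} (hH : A ≤ normalizer (H : Set G)) :
    zpowers a ≤ normalizer (H : Set G) := by
  rw [zpowers_le]
  exact hH ha

/-- generation -/
theorem gen [Finite G] (h : Setup q A K) {M : Subgroup G} (hM : ∀ a ∈ A, a ≠ 1 → K ⊓ centralizer {a} ≤ M) : K ≤ M := by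
  haveI := Fact.mk h.hq
  exact H27.GenSub.le_of_centralizers q A K M h.el h.card.ge h.norm h.cop hM

theorem inv_cent [Finite G] (h : Setup q A K) {a : G} (ha : a ∈ A) {H : Subgroup G} (hH : A ≤ normalizer (H : Set G)) :
    A ≤ normalizer ((H ⊓ centralizer {a} : Subgroup G) : Set G) := by
  apply H1.Coprime2.le_normalizer_inf hH
  have h1 : A ≤ normalizer ((zpowers a : Subgroup G) : Set G) := by
    apply H1.Coprime.le_normalizer_of_conj_mem
    rintro b hb _ ⟨k, rfl⟩
    have h2 := h.comm hb (A.zpow_mem ha k)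
    simp only at h2 ⊢
    rw [h2, mul_inv_cancel_right]
    exact zpow_mem (mem_zpowers a) k
  have h2 := H1.Coprime2.le_normalizer_centralizer h1
  rwa [H2.BGCop.centralizer_zpowers_eq] at h2

theorem zpowers_eq [Finite G] (h : Setup q A K) {a b : G} (ha : a ∈ A) (hb : b ≠ 1) (hba : b ∈ zpowers a) : zpowers b = zpowers a := by
  have hcard : Nat.card (zpowers a) = q := by
    rw [Nat.card_zpowers]
    apply h.order ha
    rintro rfl
    rw [zpowers_one_eq_bot, Subgroup.mem_bot] at hba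
    exact hb hba
  have hpr : (Nat.card (zpowers a)).Prime := by rw [hcard]; exact h.hq
  exact H2.BGCop.zpowers_eq_of_prime_card hpr hba hb

theorem not_mem_symm [Finite G] (h : Setup q A K) {a b : G} (hb : b ∈ A) (ha1 : a ≠ 1) (hba : b ∉ zpowers a) : a ∉ zpowers b := by
  intro h1
  apply hba
  rw [h.zpowers_eq hb ha1 h1]
  exact mem_zpowers b

theorem comm_of_mem [Finite G] (h : Setup q A K) {a b : G} (ha : a ∈ A) (hb : b ≠ 1) (hba : b ∈ zpowers a) {x : G} (hx : x * b = b * x) :
    x * a = a * x := by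
  have h1 : a ∈ zpowers b := by rw [h.zpowers_eq ha hb hba]; exact mem_zpowers a
  obtain ⟨k, rfl⟩ := h1
  exact (Commute.zpow_right (show Commute x b from hx) k).eq

theorem comm_of_mem' {a b : G} (hba : b ∈ zpowers a) {x : G} (hx : x * a = a * x) :
    x * b = b * x := by
  obtain ⟨k, rfl⟩ := hba
  exact (Commute.zpow_right (show Commute x a from hx) k).eq

/-- two different subgroups of order `q` have trivial common fixed points -/
theorem disj [Finite G] (h : Setup q A K) {a b x : G} (ha : a ∈ A) (ha1 : a ≠ 1) (hb : b ∈ A) (hba : b ∉ zpowers a)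
    (hx : x ∈ K) (hxa : x * a = a * x) (hxb : x * b = b * x) : x = 1 := by
  have hD : A ≤ centralizer ({x} : Set G) := by
    have h1 : zpowers a ≤ A ⊓ centralizer ({x} : Set G) := by
      rw [zpowers_le]
      exact ⟨ha, mem_centralizer_singleton_iff.2 hxa.symm⟩
    have h2 : b ∈ A ⊓ centralizer ({x} : Set G) := ⟨hb, mem_centralizer_singleton_iff.2 hxb.symm⟩
    have h3 : Nat.card (A ⊓ centralizer ({x} : Set G) : Subgroup G) ∣ q ^ 2 := by
      rw [← h.card]; exact Subgroup.card_dvd_of_le inf_le_left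
    obtain ⟨k, hk, hk2⟩ := (Nat.dvd_prime_pow h.hq).1 h3
    have h4 : Nat.card (zpowers a) = q := by rw [Nat.card_zpowers, h.order ha ha1]
    have h5 : zpowers a < A ⊓ centralizer ({x} : Set G) := lt_of_le_of_ne h1 (by
      intro h6
      rw [← h6] at h2
      exact hba h2)
    have h6 : q < q ^ k := by
      rw [← hk2]
      calc q = Nat.card (zpowers a) := h4.symm
        _ < _ := by
          apply lt_of_le_of_ne (Nat.card_le_card_of_injective _ (Subgroup.inclusion_injective h1))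
          intro h7
          exact h5.ne (Subgroup.eq_of_le_of_card_ge h1 h7.ge)
    have h7 : k = 2 := by
      have h8 : 1 < k := by
        by_contra h9
        have : q ^ k ≤ q ^ 1 := Nat.pow_le_pow_right h.hq.pos (by omega)
        rw [pow_one] at this
        omega
      omega
    have h8 : A ⊓ centralizer ({x} : Set G) = A := by
      haveI := h.finite
      apply Subgroup.eq_of_le_of_card_ge inf_le_left
      rw [hk2, h7, h.card]
    rw [← h8]
    exact inf_le_right
  have h9 : x ∈ K ⊓ centralizer (A : Set G) := by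
    rw [Subgroup.mem_inf, mem_centralizer_iff]
    refine ⟨hx, fun y hy => ?_⟩
    exact mem_centralizer_singleton_iff.1 (hD hy)
  rw [h.fix] at h9
  exact h9

/-- a fixed-point-free automorphism is a `Lang` map -/
theorem lang [Finite G] (h : Setup q A K) {a d x : G} {H : Subgroup G} (hHK : H ≤ K) (hH : A ≤ normalizer (H : Set G))
    (ha : a ∈ A) (ha1 : a ≠ 1) (hd : d ∈ A) (hda : d ∉ zpowers a) (hx : x ∈ H) (hxd : x * d = d * x) :
    ∃ y ∈ H, y * d = d * y ∧ x = y⁻¹ * (a * y * a⁻¹) := by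
  have hn : ∀ y : (H ⊓ centralizer {d} : Subgroup G), (y : G)⁻¹ * (a * y * a⁻¹) ∈ H ⊓ centralizer ({d} : Set G) := by
    intro y
    refine Subgroup.mul_mem _ (Subgroup.inv_mem _ y.2) ?_
    exact H1.Coprime.conj_mem_of_le_normalizer (h.inv_cent hd hH) ha y.2
  have hinj : Function.Injective (fun y : (H ⊓ centralizer {d} : Subgroup G) =>
      (⟨(y : G)⁻¹ * (a * y * a⁻¹), hn y⟩ : (H ⊓ centralizer {d} : Subgroup G))) := by
    intro y z hyz
    have h1 : (y : G)⁻¹ * (a * y * a⁻¹) = (z : G)⁻¹ * (a * z * a⁻¹) := congrArg Subtype.val hyz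
    have h2 : ((z : G) * (y : G)⁻¹) * a = a * ((z : G) * (y : G)⁻¹) := by
      have h3 : (z : G) * (y : G)⁻¹ * (a * y * a⁻¹) = a * z * a⁻¹ := by
        rw [mul_assoc, h1]; group
      calc ((z : G) * (y : G)⁻¹) * a = ((z : G) * (y : G)⁻¹ * (a * y * a⁻¹)) * a * (y : G)⁻¹ := by group
        _ = (a * z * a⁻¹) * a * (y : G)⁻¹ := by rw [h3]
        _ = _ := by group
    have hy := mem_cent.1 y.2
    have hz := mem_cent.1 z.2
    have h4 : ((z : G) * (y : G)⁻¹) * d = d * ((z : G) * (y : G)⁻¹) :=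
      (Commute.mul_left (show Commute (z : G) d from hz.2) (Commute.inv_left (show Commute (y : G) d from hy.2))).eq
    have h5 := h.disj ha ha1 hd hda (K.mul_mem (hHK hz.1) (K.inv_mem (hHK hy.1))) h2 h4
    exact Subtype.ext (mul_inv_eq_one.1 h5).symm
  obtain ⟨y, hy⟩ := (Finite.injective_iff_surjective.1 hinj) ⟨x, mem_cent.2 ⟨hx, hxd⟩⟩
  have hy' := mem_cent.1 y.2
  exact ⟨y, hy'.1, hy'.2, (congrArg Subtype.val hy).symm⟩

/-- an invariant subgroup `H` normalising a subgroup `T` of `C_K(c)` centralises it -/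
theorem normalizer_le_centralizer [Finite G] (h : Setup q A K) {H T : Subgroup G} (hHK : H ≤ K) (hH : A ≤ normalizer (H : Set G))
    {c : G} (hc : c ∈ A) (hc1 : c ≠ 1) (hTK : T ≤ K) (hTc : ∀ t ∈ T, t * c = c * t) (hHT : H ≤ normalizer (T : Set G)) :
    H ≤ centralizer (T : Set G) := by
  apply (h.sub hHK hH).gen
  intro d hd hd1 x hx
  obtain ⟨hxH, hxd⟩ := mem_cent.1 hx
  rw [mem_centralizer_iff]
  intro t ht
  by_cases hdc : d ∈ zpowers c
  · have h1 := h.comm_of_mem hc hd1 hdc hxd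
    exact h.ab c hc hc1 t (hTK ht) (hTc t ht) x (hHK hxH) h1
  · obtain ⟨y, hy, hyd, rfl⟩ := h.lang hHK hH hc hc1 hd hdc hxH hxd
    have h1 : y * t * y⁻¹ ∈ T := H1.Coprime.conj_mem_of_le_normalizer hHT hy ht
    have h2 := hTc _ h1
    have h3 := hTc t ht
    have h4 : c⁻¹ * t * c = t := by rw [mul_assoc, h3]; group
    have h5 : (y⁻¹ * (c * y * c⁻¹)) * t * (y⁻¹ * (c * y * c⁻¹))⁻¹ = t := by
      calc (y⁻¹ * (c * y * c⁻¹)) * t * (y⁻¹ * (c * y * c⁻¹))⁻¹
          = y⁻¹ * (c * (y * (c⁻¹ * t * c) * y⁻¹) * c⁻¹) * y := by group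
        _ = y⁻¹ * (c * (y * t * y⁻¹) * c⁻¹) * y := by rw [h4]
        _ = y⁻¹ * ((y * t * y⁻¹) * c * c⁻¹) * y := by rw [h2]
        _ = t := by group
    exact (mul_inv_eq_iff_eq_mul.1 h5).symm

end Setup

end H14.AbCent
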