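import Cfsg.Agent.Lib.H14.AbCentA
import Cfsg.Agent.Lib.H2.Residual

/-!
# Coprime action of `C_q × C_q` with abelian fixed point subgroups: Frobenius action and generation
-/

set_option autoImplicit false

namespace H14.AbCent

open Cfsg Subgroup
open scoped Pointwise commutatorElement

universe u

section frobQ

variable {G : Type u} [Group G] [Finite G]

theorem inf_centralizer_zpowers (K : Subgroup G) (d : G) :
    K ⊓ centralizer ((zpowers d : Subgroup G) : Set G) = K ⊓ centralizer ({d} : Set G) := by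
  rw [H2.BGCop.centralizer_zpowers_eq]

theorem frobQ_normal (V N T : Subgroup G) [N.Normal] (d : G) {q : ℕ} (hq : q.Prime) (hd : d ^ q = 1)
    (hNV : N ≤ V) (hTV : T ≤ normalizer (V : Set G)) (hdV : d ∈ normalizer (V : Set G))
    (hdT : d ∈ normalizer (T : Set G)) (hTs : Group.IsSolvable T) (hVV : ⁅V, V⁆ ≤ N)
    (hfpf : ∀ t ∈ T, t * d = d * t → t = 1) (hfix : ∀ v ∈ V, v * d = d * v → v ∈ N)
    (hTc : (Nat.card T).Coprime (Nat.card V)) (hqV : ¬ q ∣ Nat.card V) : ⁅V, T⁆ ≤ N := by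
  set π := QuotientGroup.mk' N with hπ
  have hzV : zpowers d ≤ normalizer (V : Set G) := by rwa [zpowers_le]
  have hzT : zpowers d ≤ normalizer (T : Set G) := by rwa [zpowers_le]
  have hzd : Nat.card (zpowers d) ∣ q := by
    rw [Nat.card_zpowers]; exact orderOf_dvd_of_pow_eq_one hd
  have hqc : q.Coprime (Nat.card V) := (Nat.Prime.coprime_iff_not_dvd hq).2 hqV
  have hzc : (Nat.card (zpowers d)).Coprime (Nat.card V) := Nat.Coprime.coprime_dvd_left hzd hqc
  have hmapn : ∀ X Y : Subgroup G, X ≤ normalizer (Y : Set G) → X.map π ≤ normalizer ((Y.map π : Subgroup _) : Set _) := by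
    intro X Y h
    exact (Subgroup.map_mono h).trans (Subgroup.le_normalizer_map π)
  have hVc : IsMulCommutative (V.map π) := by
    refine ⟨⟨?_⟩⟩
    rintro ⟨_, ⟨x, hx, rfl⟩⟩ ⟨_, ⟨y, hy, rfl⟩⟩
    apply Subtype.ext
    change π x * π y = π y * π x
    have h1 : π ⁅x, y⁆ = 1 := by
      have : ⁅x, y⁆ ∈ N := hVV (Subgroup.commutator_mem_commutator hx hy)
      exact (QuotientGroup.eq_one_iff _).2 this
    rw [map_commutatorElement, commutatorElement_eq_one_iff_mul_comm] at h1
    exact h1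
  have hTV' := hmapn _ _ hTV
  have hcop1 : (Nat.card (T.map π)).Coprime (Nat.card (V.map π)) :=
    Nat.Coprime.coprime_dvd_left (Subgroup.card_map_dvd _ π) (Nat.Coprime.coprime_dvd_right (Subgroup.card_map_dvd _ π) hTc)
  have hMV : ⁅V.map π, T.map π⁆ ≤ V.map π := H1.Coprime2.commutator_le_left hTV'
  have hRd : (zpowers d).map π = zpowers (π d) := MonoidHom.map_zpowers π d
  have hcard := H30.FrobAct.card_eq (T.map π) ((zpowers d).map π) ⁅V.map π, T.map π⁆ (hmapn _ _ hzT) ?_ ?_ ?_ ?_ ?_ ?_ ?_ ?_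
  · have h1 : ⁅V.map π, T.map π⁆ ⊓ centralizer (((zpowers d).map π : Subgroup _) : Set _) = ⊥ := by
      rw [eq_bot_iff]
      refine (inf_le_inf_right _ hMV).trans ?_
      rw [H1.Coprime.map_inf_centralizer (zpowers d) V N hzV (Nat.Coprime.coprime_dvd_right (Subgroup.card_dvd_of_le hNV) hzc)
        (Or.inl (Setup.zsolv d)) hNV]
      rw [Subgroup.map_le_iff_le_comap]
      intro x hx
      rw [inf_centralizer_zpowers, mem_cent] at hx
      exact (QuotientGroup.eq_one_iff _).2 (hfix x hx.1 hx.2)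
    rw [h1, Subgroup.card_bot, one_pow, Subgroup.card_eq_one, ← Subgroup.map_commutator, Subgroup.map_eq_bot_iff,
      QuotientGroup.ker_mk'] at hcard
    exact hcard
  · -- Frobenius action
    intro r hr hr1
    rw [eq_bot_iff]
    rintro x hx
    obtain ⟨⟨t, ht, rfl⟩, htr⟩ := mem_cent.1 hx
    rw [Subgroup.mem_bot]
    obtain ⟨s, hs, rfl⟩ := hr
    have hs1 : s ≠ 1 := by rintro rfl; exact hr1 (map_one π)
    have h1 : t * s * t⁻¹ * s⁻¹ ∈ T ⊓ N := by
      refine ⟨?_, ?_⟩
      · have h2 : t * s * t⁻¹ * s⁻¹ = t * (s * t⁻¹ * s⁻¹) := by group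
        rw [h2]
        exact T.mul_mem ht (H1.Coprime.conj_mem_of_le_normalizer hzT hs (T.inv_mem ht))
      · apply (QuotientGroup.eq_one_iff _).1
        change π (t * s * t⁻¹ * s⁻¹) = 1
        rw [map_mul, map_mul, map_mul, map_inv, map_inv, htr]
        group
    have h2 : T ⊓ N = ⊥ := by
      rw [eq_bot_iff]
      refine (inf_le_inf_left T hNV).trans ?_
      rw [H1.Coprime.inf_eq_bot_of_coprime_card hTc]
    rw [h2, Subgroup.mem_bot] at h1
    have h3 : t * s = s * t := by
      calc t * s = (t * s * t⁻¹ * s⁻¹) * (s * t) := by group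
        _ = _ := by rw [h1, one_mul]
    -- `d` is a power of `s`
    have hpr : (Nat.card (zpowers d)).Prime := by
      rcases (Nat.dvd_prime hq).1 hzd with h4 | h4
      · exfalso
        rw [Subgroup.card_eq_one] at h4
        rw [h4] at hs
        exact hs1 (Subgroup.mem_bot.1 hs)
      · rw [h4]; exact hq
    have h4 : zpowers s = zpowers d := H2.BGCop.zpowers_eq_of_prime_card hpr hs hs1
    have h5 : d ∈ zpowers s := by rw [h4]; exact mem_zpowers d
    have h6 := Setup.comm_of_mem' h5 h3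
    rw [hfpf t ht h6, map_one]
  · exact Group.isSolvable_of_surjective (π.subgroupMap_surjective T)
  · have h7 : Group.IsSolvable (V.map π) := Group.isSolvable_of_comm fun a b => hVc.is_comm.comm a b
    exact H1.Coprime.isSolvable_of_le hMV h7
  · exact H1.Coprime2.le_normalizer_commutator_right _ _
  · exact H1.Coprime2.le_normalizer_commutator (hmapn _ _ hzV) (hmapn _ _ hzT)
  · exact Nat.Coprime.coprime_dvd_right (Subgroup.card_dvd_of_le hMV) hcop1
  · exact Nat.Coprime.coprime_dvd_left (Subgroup.card_map_dvd _ π) (Nat.Coprime.coprime_dvd_right (Subgroup.card_dvd_of_le hMV)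
      (Nat.Coprime.coprime_dvd_right (Subgroup.card_map_dvd _ π) hzc))
  · exact H2.BGCop.commutator_inf_centralizer_eq_bot hVc hTV' hcop1

theorem frobQ (V N T : Subgroup G) (d : G) {q : ℕ} (hq : q.Prime) (hd : d ^ q = 1)
    (hNV : N ≤ V) (hVN : V ≤ normalizer (N : Set G)) (hTN : T ≤ normalizer (N : Set G)) (hdN : d ∈ normalizer (N : Set G))
    (hTV : T ≤ normalizer (V : Set G)) (hdV : d ∈ normalizer (V : Set G))
    (hdT : d ∈ normalizer (T : Set G)) (hTs : Group.IsSolvable T) (hVV : ⁅V, V⁆ ≤ N)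
    (hfpf : ∀ t ∈ T, t * d = d * t → t = 1) (hfix : ∀ v ∈ V, v * d = d * v → v ∈ N)
    (hTc : (Nat.card T).Coprime (Nat.card V)) (hqV : ¬ q ∣ Nat.card V) : ⁅V, T⁆ ≤ N := by
  set Y := normalizer (N : Set G) with hY
  have hNY : N ≤ Y := le_normalizer
  haveI hn : (N.subgroupOf Y).Normal := Subgroup.normal_in_normalizer
  have e : ∀ H : Subgroup G, H ≤ Y → Nat.card (H.subgroupOf Y) = Nat.card H := fun H hH => H28.RelSyl.card_subgroupOf hH
  have hc : ∀ X Z : Subgroup G, X ≤ Y → Z ≤ Y → (⁅X, Z⁆).subgroupOf Y = ⁅X.subgroupOf Y, Z.subgroupOf Y⁆ := by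
    intro X Z hX hZ
    apply Subgroup.map_injective Y.subtype_injective
    rw [Subgroup.map_commutator, Subgroup.map_subgroupOf_eq_of_le hX, Subgroup.map_subgroupOf_eq_of_le hZ,
      Subgroup.map_subgroupOf_eq_of_le ((Subgroup.commutator_mono hX hZ).trans (H1.Coprime2.commutator_le_left le_normalizer))]
  have key := frobQ_normal (V.subgroupOf Y) (N.subgroupOf Y) (T.subgroupOf Y) ⟨d, hdN⟩ hq (Subtype.ext hd)
    (fun x hx => hNV hx) (H30.FrobAct.normalizer_subgroupOf_le hTV) ?_ ?_ (H30.FrobAct.isSolvable_subgroupOf hTN hTs) ?_ ?_ ?_ ?_ ?_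
  · rw [← hc _ _ hVN hTN] at key
    have h2 := Subgroup.map_mono (f := Y.subtype) key
    rwa [Subgroup.map_subgroupOf_eq_of_le ((Subgroup.commutator_mono hVN hTN).trans
      (H1.Coprime2.commutator_le_left le_normalizer)), Subgroup.map_subgroupOf_eq_of_le hNY] at h2
  · have h1 := H30.FrobAct.normalizer_subgroupOf_le (Y := Y) (K := V) (R := zpowers d) (by rwa [zpowers_le])
    exact h1 (Subgroup.mem_subgroupOf.2 (mem_zpowers d))
  · have h1 := H30.FrobAct.normalizer_subgroupOf_le (Y := Y) (K := T) (R := zpowers d) (by rwa [zpowers_le])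
    exact h1 (Subgroup.mem_subgroupOf.2 (mem_zpowers d))
  · rw [← hc _ _ hVN hVN]
    exact fun x hx => hVV hx
  · intro t ht htd
    exact Subtype.ext (hfpf t ht (congrArg Subtype.val htd))
  · intro v hv hvd
    exact hfix v hv (congrArg Subtype.val hvd)
  · rw [e _ hTN, e _ hVN]; exact hTc
  · rw [e _ hVN]; exact hqV

/-- in a nilpotent group, supplements of the derived subgroup are everything -/
theorem le_of_le_sup_comm {V M : Subgroup G} (hV : Group.IsNilpotent V) (hMV : M ≤ V) (h : V ≤ M ⊔ ⁅V, V⁆) : V ≤ M := by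
  haveI := hV
  have h1 : M.subgroupOf V ⊔ commutator V = ⊤ := by
    apply Subgroup.map_injective V.subtype_injective
    rw [Subgroup.map_sup, Subgroup.map_subgroupOf_eq_of_le hMV, commutator_def, Subgroup.map_commutator,
      ← MonoidHom.range_eq_map, Subgroup.range_subtype]
    apply le_antisymm _ h
    exact sup_le hMV (H1.Coprime2.commutator_le_left le_normalizer)
  have h2 := H27.Gen.eq_top_of_sup_commutator _ h1
  exact Subgroup.subgroupOf_eq_top.1 h2

end frobQ

theorem solvable_of_comm {G : Type u} [Group G] {T : Subgroup G} (h : ∀ x ∈ T, ∀ y ∈ T, x * y = y * x) : Group.IsSolvable T :=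
  Group.isSolvable_of_comm fun x y => Subtype.ext (h x x.2 y y.2)

/-- the key generation lemma: if `T ≤ C_K(a)` acts coprimely on a nilpotent `V = [V, T]`, then `V` is generated
by the `T`-conjugates of `C_V(d)`, `d ∉ ⟨a⟩` -/
theorem Setup.gen_comm {G : Type u} [Group G] [Finite G] {q : ℕ} {A K : Subgroup G} (h : Setup q A K) {V T M : Subgroup G} {a d : G}
    (ha : a ∈ A) (ha1 : a ≠ 1) (hd : d ∈ A)
    (hda : d ∉ zpowers a) (hVK : V ≤ K) (hV : A ≤ normalizer (V : Set G)) (hVn : Group.IsNilpotent V)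
    (hT : A ≤ normalizer (T : Set G)) (hTK : T ≤ K) (hTa : ∀ t ∈ T, t * a = a * t) (hTV : T ≤ normalizer (V : Set G))
    (hcop : (Nat.card T).Coprime (Nat.card V)) (hVT : ⁅V, T⁆ = V) (hM : ∀ v ∈ V, v * d = d * v → v ∈ M)
    (hTM : T ≤ normalizer (M : Set G)) : V ≤ M := by
  set S : Set G := {x | ∃ t ∈ T, ∃ v ∈ V, v * d = d * v ∧ x = t * v * t⁻¹} with hS
  have hSV : closure S ≤ V := by
    rw [closure_le]
    rintro _ ⟨t, ht, v, hv, -, rfl⟩
    exact H1.Coprime.conj_mem_of_le_normalizer hTV ht hv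
  have hSM : closure S ≤ M := by
    rw [closure_le]
    rintro _ ⟨t, ht, v, hv, hvd, rfl⟩
    exact H1.Coprime.conj_mem_of_le_normalizer hTM ht (hM v hv hvd)
  have hnorm : ∀ X : Subgroup G, (∀ g ∈ X, ∀ x ∈ S, g * x * g⁻¹ ∈ closure S) → X ≤ normalizer ((closure S : Subgroup G) : Set G) := by
    intro X hX
    apply H1.Coprime.le_normalizer_of_conj_mem
    intro g hg x hx
    induction hx using Subgroup.closure_induction with
    | mem x hx => exact hX g hg x hx
    | one => simp
    | mul x y _ _ h1 h2 =>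
      have : g * (x * y) * g⁻¹ = (g * x * g⁻¹) * (g * y * g⁻¹) := by group
      rw [this]; exact Subgroup.mul_mem _ h1 h2
    | inv x _ h1 =>
      have : g * x⁻¹ * g⁻¹ = (g * x * g⁻¹)⁻¹ := by group
      rw [this]; exact Subgroup.inv_mem _ h1
  have hTS : T ≤ normalizer ((closure S : Subgroup G) : Set G) := by
    apply hnorm
    rintro g hg _ ⟨t, ht, v, hv, hvd, rfl⟩
    exact subset_closure ⟨g * t, T.mul_mem hg ht, v, hv, hvd, by group⟩
  have hdS : zpowers d ≤ normalizer ((closure S : Subgroup G) : Set G) := by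
    apply hnorm
    rintro g hg _ ⟨t, ht, v, hv, hvd, rfl⟩
    have h1 : v * g = g * v := Setup.comm_of_mem' hg hvd
    have hgA : g ∈ A := (by rwa [zpowers_le] : zpowers d ≤ A) hg
    refine subset_closure ⟨g * t * g⁻¹, H1.Coprime.conj_mem_of_le_normalizer hT hgA ht, v, hv, hvd, ?_⟩
    have h2 : g * v * g⁻¹ = v := by rw [← h1]; group
    calc g * (t * v * t⁻¹) * g⁻¹ = (g * t * g⁻¹) * (g * v * g⁻¹) * (g * t * g⁻¹)⁻¹ := by group
      _ = _ := by rw [h2]
  have hVV : V ≤ normalizer ((V : Subgroup G) : Set G) := le_normalizer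
  have hcn : ∀ X : Subgroup G, X ≤ normalizer (V : Set G) → X ≤ normalizer ((⁅V, V⁆ : Subgroup G) : Set G) := fun X hX =>
    H1.Coprime2.le_normalizer_commutator hX hX
  have hcV : ⁅V, V⁆ ≤ V := H1.Coprime2.commutator_le_left hVV
  have hVM : V ≤ normalizer ((closure S ⊔ ⁅V, V⁆ : Subgroup G) : Set G) := by
    apply H1.Coprime.le_normalizer_of_conj_mem
    intro v hv x hx
    have hxV : x ∈ V := (sup_le hSV hcV) hx
    have h1 : v * x * v⁻¹ = ⁅v, x⁆ * x := by rw [commutatorElement_def]; group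
    rw [h1]
    exact Subgroup.mul_mem _ ((le_sup_right : ⁅V, V⁆ ≤ _) (Subgroup.commutator_mem_commutator hv hxV)) hx
  have hfq := frobQ V (closure S ⊔ ⁅V, V⁆) T d h.hq (h.pow_q hd) (sup_le hSV hcV) hVM
    (H1.Coprime2.le_normalizer_sup hTS (hcn T hTV)) ?_ hTV (hV hd) (hT hd)
    (solvable_of_comm fun x hx y hy => h.ab a ha ha1 x (hTK hx) (hTa x hx) y (hTK hy) (hTa y hy)) le_sup_right ?_ ?_ hcop
    (fun h1 => h.cop (h1.trans (Subgroup.card_dvd_of_le hVK)))
  · rw [hVT] at hfq
    exact (le_of_le_sup_comm hVn hSV hfq).trans hSM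
  · exact H1.Coprime2.le_normalizer_sup hdS (hcn _ (by rw [zpowers_le]; exact hV hd)) (mem_zpowers d)
  · intro t ht htd
    exact h.disj ha ha1 hd hda (hTK ht) (hTa t ht) htd
  · intro v hv hvd
    apply (le_sup_left : closure S ≤ _)
    exact subset_closure ⟨1, T.one_mem, v, hv, hvd, by group⟩

end H14.AbCent
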