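import Cfsg.Agent.Lib.H14.AbCentS
import Cfsg.Agent.Lib.H12.Nil
import Cfsg.Agent.Lib.H65.PBasic
import Cfsg.Agent.Lib.H38.PPrime
import Cfsg.Agent.Lib.H1.ThompsonNPC

/-!
# Coprime action of `C_q × C_q` with abelian fixed point subgroups: the minimal configuration
-/

set_option autoImplicit false

namespace H14.AbCent

open Cfsg Subgroup
open scoped Pointwise commutatorElement
open H28.RelSyl (IsSyl)

universe u

variable {G : Type u} [Group G] [Finite G] {q : ℕ} {A K : Subgroup G}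

theorem isNilp_of_le {G : Type u} [Group G] {X Y : Subgroup G} (h : X ≤ Y) (hY : Group.IsNilpotent Y) : Group.IsNilpotent X := by
  haveI := hY
  exact Group.nilpotent_of_mulEquiv (Subgroup.subgroupOfEquivOfLe h)

namespace Setup

theorem syl_unique (h : Setup q A K) {p : ℕ} [Fact p.Prime] {H S T : Subgroup G} (hHK : H ≤ K) (hHA : A ≤ normalizer (H : Set G))
    (hS : IsSyl p S H) (hT : IsSyl p T H) (hSA : A ≤ normalizer (S : Set G)) (hTA : A ≤ normalizer (T : Set G)) : S = T := by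
  have hs := h.sub hHK hHA
  obtain ⟨c, hc, hcS⟩ := H1.Coprime2.conj_invariant_sylow A H hHA hs.coprime (Or.inl h.solv) p S T
    (H2.BGCop.isSylIn_iff.2 hS) (H2.BGCop.isSylIn_iff.2 hT) hSA hTA
  rw [hs.fix, Subgroup.mem_bot] at hc
  rw [← hcS, hc, map_one, one_smul]

theorem exists_syl (h : Setup q A K) (p : ℕ) [Fact p.Prime] {H : Subgroup G} (hHK : H ≤ K) (hHA : A ≤ normalizer (H : Set G)) :
    ∃ S, IsSyl p S H ∧ A ≤ normalizer (S : Set G) := by
  have hs := h.sub hHK hHA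
  exact H2.BGCop.exists_inv_syl hHA hs.coprime (Or.inl h.solv) p

theorem le_syl (h : Setup q A K) {p : ℕ} [Fact p.Prime] {H P U : Subgroup G} (hHK : H ≤ K) (hHA : A ≤ normalizer (H : Set G))
    (hP : IsSyl p P H) (hPA : A ≤ normalizer (P : Set G)) (hU : IsPGroup p U) (hUH : U ≤ H) (hUA : A ≤ normalizer (U : Set G)) :
    U ≤ P := by
  have hs := h.sub hHK hHA
  obtain ⟨S, hS, hUS, hSA⟩ := H2.BGCop.exists_inv_syl_ge hHA hs.coprime (Or.inl h.solv) p hUH hU hUA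
  rwa [h.syl_unique hHK hHA hS hP hSA hPA] at hUS

theorem inf_syl (h : Setup q A K) {p : ℕ} [Fact p.Prime] {H P : Subgroup G} (hP : IsSyl p P K) (hPA : A ≤ normalizer (P : Set G))
    (hHK : H ≤ K) (hHA : A ≤ normalizer (H : Set G)) : IsSyl p (P ⊓ H) H := by
  obtain ⟨S, hS, hSA⟩ := h.exists_syl p hHK hHA
  have h1 : S ≤ P := h.le_syl le_rfl h.norm hP hPA hS.isPGroup (hS.le.trans hHK) hSA
  have h2 : P ⊓ H = S := hS.eq_of_le (hP.isPGroup.to_le inf_le_left) (le_inf h1 hS.le) inf_le_right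
  rw [h2]; exact hS

theorem le_norm_zpowers (h : Setup q A K) {b : G} (hb : b ∈ A) : A ≤ normalizer ((zpowers b : Subgroup G) : Set G) := by
  apply H1.Coprime.le_normalizer_of_conj_mem
  rintro c hc _ ⟨k, rfl⟩
  have h2 := h.comm hc (A.zpow_mem hb k)
  simp only at h2 ⊢
  rw [h2, mul_inv_cancel_right]
  exact zpow_mem (mem_zpowers b) k

/-- `[P, b]` is generated by the `C_P(d)` with `d ∉ ⟨b⟩` -/
theorem comm_le (h : Setup q A K) {P Q : Subgroup G} {b : G} (hPK : P ≤ K) (hPA : A ≤ normalizer (P : Set G))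
    (hPn : Group.IsNilpotent P) (hb : b ∈ A) (hb1 : b ≠ 1)
    (h1 : ∀ d ∈ A, d ∉ zpowers b → P ⊓ centralizer ({d} : Set G) ≤ Q) : ⁅P, zpowers b⁆ ≤ Q := by
  have hbP : zpowers b ≤ normalizer (P : Set G) := h.znorm hb hPA
  have hbA : A ≤ normalizer ((zpowers b : Subgroup G) : Set G) := h.le_norm_zpowers hb
  have hs := h.sub hPK hPA
  have hc := hs.zcoprime hb hb1
  set P₁ := ⁅P, zpowers b⁆ with hP₁
  have hP₁P : P₁ ≤ P := H1.Coprime2.commutator_le_left hbP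
  have hP₁b : ⁅P₁, zpowers b⁆ = P₁ := H1.Coprime2.commutator_commutator_eq _ P hbP hc (Or.inl (zsolv b))
  have hP₁A : A ≤ normalizer (P₁ : Set G) := H1.Coprime2.le_normalizer_commutator hPA hbA
  have hP₁n : Group.IsNilpotent P₁ := by
    exact isNilp_of_le hP₁P hPn
  have hs₁ := h.sub (hP₁P.trans hPK) hP₁A
  have h2 : P₁ ≤ (P₁ ⊓ Q) ⊔ ⁅P₁, P₁⁆ := by
    apply hs₁.gen
    intro d hd hd1 x hx
    have hx' := mem_cent.1 hx
    by_cases hdb : d ∈ zpowers b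
    · apply (le_sup_right : ⁅P₁, P₁⁆ ≤ (P₁ ⊓ Q) ⊔ ⁅P₁, P₁⁆)
      apply H65.HallHigman.commutator_inf_centralizer_le (zpowers b) P₁ (h.znorm hb hP₁A)
        (Nat.Coprime.coprime_dvd_right (Subgroup.card_dvd_of_le hP₁P) hc)
      rw [hP₁b, inf_centralizer_zpowers]
      exact mem_cent.2 ⟨hx'.1, h.comm_of_mem hb hd1 hdb hx'.2⟩
    · exact (le_sup_left : P₁ ⊓ Q ≤ _) ⟨hx'.1, h1 d hd hdb (mem_cent.2 ⟨hP₁P hx'.1, hx'.2⟩)⟩
  exact (le_of_le_sup_comm hP₁n inf_le_left h2).trans inf_le_right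

end Setup

/-- elements acting trivially on `P / Q` -/
def triv (P Q : Subgroup G) : Subgroup G where
  carrier := {g | (g ∈ normalizer (P : Set G) ∧ g ∈ normalizer (Q : Set G)) ∧ ∀ x ∈ P, g * x * g⁻¹ * x⁻¹ ∈ Q}
  one_mem' := ⟨⟨one_mem _, one_mem _⟩, fun x _ => by simpa using Q.one_mem⟩
  mul_mem' := by
    rintro g k ⟨⟨hg1, hg2⟩, hg⟩ ⟨⟨hk1, hk2⟩, hk⟩
    refine ⟨⟨mul_mem hg1 hk1, mul_mem hg2 hk2⟩, fun x hx => ?_⟩
    have h1 : k * x * k⁻¹ ∈ P := (mem_normalizer_iff.1 hk1 x).1 hx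
    have h2 := Q.mul_mem (hg _ h1) (hk x hx)
    have h3 : g * k * x * (g * k)⁻¹ * x⁻¹ = (g * (k * x * k⁻¹) * g⁻¹ * (k * x * k⁻¹)⁻¹) * (k * x * k⁻¹ * x⁻¹) := by group
    rw [h3]; exact h2
  inv_mem' := by
    rintro g ⟨⟨hg1, hg2⟩, hg⟩
    refine ⟨⟨inv_mem hg1, inv_mem hg2⟩, fun x hx => ?_⟩
    have h1 : g⁻¹ * x * g ∈ P := by
      have := (mem_normalizer_iff.1 (inv_mem hg1) x).1 hx
      simpa using this
    have h2 := Q.inv_mem (hg _ h1)
    have h3 : g⁻¹ * x * g⁻¹⁻¹ * x⁻¹ = (g * (g⁻¹ * x * g) * g⁻¹ * (g⁻¹ * x * g)⁻¹)⁻¹ := by group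
    rw [h3]; exact h2

theorem mem_triv {P Q : Subgroup G} {g : G} : g ∈ triv P Q ↔ (g ∈ normalizer (P : Set G) ∧ g ∈ normalizer (Q : Set G)) ∧
    ∀ x ∈ P, g * x * g⁻¹ * x⁻¹ ∈ Q := Iff.rfl

theorem conj_mem_triv {P Q : Subgroup G} {g y : G} (hg : g ∈ triv P Q) (hy1 : y ∈ normalizer (P : Set G))
    (hy2 : y ∈ normalizer (Q : Set G)) : y * g * y⁻¹ ∈ triv P Q := by
  obtain ⟨⟨hg1, hg2⟩, hg⟩ := mem_triv.1 hg
  refine ⟨⟨mul_mem (mul_mem hy1 hg1) (inv_mem hy1), mul_mem (mul_mem hy2 hg2) (inv_mem hy2)⟩, fun x hx => ?_⟩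
  have h1 : y⁻¹ * x * y ∈ P := by
    have := (mem_normalizer_iff.1 (inv_mem hy1) x).1 hx
    simpa using this
  have h2 := (mem_normalizer_iff.1 hy2 _).1 (hg _ h1)
  have h3 : y * g * y⁻¹ * x * (y * g * y⁻¹)⁻¹ * x⁻¹ = y * (g * (y⁻¹ * x * y) * g⁻¹ * (y⁻¹ * x * y)⁻¹) * y⁻¹ := by group
  rw [h3]; exact h2

/-- Lemma Q -/
theorem Setup.lemQ (h : Setup q A K) {p : ℕ} [Fact p.Prime] {P M Q : Subgroup G} {b : G} (hPp : IsPGroup p P)
    (hPA : A ≤ normalizer (P : Set G)) (hMK : M ≤ K) (hMA : A ≤ normalizer (M : Set G)) (hMP : M ≤ normalizer (P : Set G))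
    (hPM : P ≤ M) (hQP : Q ≤ P) (hQA : A ≤ normalizer (Q : Set G)) (hb : b ∈ A) (hb1 : b ≠ 1)
    (h1 : ∀ d ∈ A, d ∉ zpowers b → P ⊓ centralizer ({d} : Set G) ≤ Q)
    (h2 : ∀ d ∈ A, d ∉ zpowers b → M ⊓ centralizer ({d} : Set G) ≤ normalizer (Q : Set G)) : ⁅P, M⁆ ≤ Q := by
  have hPK := hPM.trans hMK
  have hbP : zpowers b ≤ normalizer (P : Set G) := h.znorm hb hPA
  have hsP := h.sub hPK hPA
  have hc := hsP.zcoprime hb hb1
  have hsM := h.sub hMK hMA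
  have hP₁Q := h.comm_le hPK hPA hPp.isNilpotent hb hb1 h1
  have hMb : ∀ m ∈ M, m * b = b * m → ∀ x ∈ P, m * x * m⁻¹ * x⁻¹ ∈ Q := by
    intro m hm hmb x hx
    obtain ⟨y, hy, c, hc', rfl⟩ := H1.Coprime2.exists_mul_of_mem (zpowers b) P hbP hc (Or.inl (Setup.zsolv b)) hx
    rw [inf_centralizer_zpowers] at hc'
    have hc'' := mem_cent.1 hc'
    have h3 := h.ab b hb hb1 m (hMK hm) hmb c (hPK hc''.1) hc''.2
    have hmz : zpowers m ≤ normalizer ((zpowers b : Subgroup G) : Set G) := by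
      rw [zpowers_le]
      apply (centralizer_le_normalizer ((zpowers b : Subgroup G) : Set G) : _)
      rw [H2.BGCop.centralizer_zpowers_eq, mem_centralizer_singleton_iff]
      exact hmb
    have hmP : zpowers m ≤ normalizer (P : Set G) := by rw [zpowers_le]; exact hMP hm
    have h4 : m * y * m⁻¹ ∈ ⁅P, zpowers b⁆ :=
      H1.Coprime.conj_mem_of_le_normalizer (H1.Coprime2.le_normalizer_commutator hmP hmz) (mem_zpowers m) hy
    have h5 : m * (y * c) * m⁻¹ * (y * c)⁻¹ = (m * y * m⁻¹) * y⁻¹ := by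
      calc m * (y * c) * m⁻¹ * (y * c)⁻¹ = m * y * m⁻¹ * ((m * c) * m⁻¹ * c⁻¹) * y⁻¹ := by group
        _ = m * y * m⁻¹ * ((c * m) * m⁻¹ * c⁻¹) * y⁻¹ := by rw [h3]
        _ = _ := by group
    rw [h5]
    exact hP₁Q (Subgroup.mul_mem _ h4 (Subgroup.inv_mem _ hy))
  have hMQ : M ≤ normalizer (Q : Set G) := by
    apply hsM.gen
    intro d hd hd1
    by_cases hdb : d ∈ zpowers b
    · apply H1.Coprime.le_normalizer_of_conj_mem
      intro x hx y hy
      have hx' := mem_cent.1 hx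
      have h3 := hMb x hx'.1 (h.comm_of_mem hb hd1 hdb hx'.2) y (hQP hy)
      have h4 : x * y * x⁻¹ = (x * y * x⁻¹ * y⁻¹) * y := by group
      rw [h4]
      exact Q.mul_mem h3 hy
    · exact h2 d hd hdb
  have hbt : b ∈ triv P Q := by
    refine ⟨⟨hPA hb, hQA hb⟩, fun x hx => ?_⟩
    apply hP₁Q
    rw [Subgroup.commutator_comm]
    exact Subgroup.commutator_mem_commutator (mem_zpowers b) hx
  have hMt : M ≤ triv P Q := by
    apply hsM.gen
    intro d hd hd1 x hx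
    have hx' := mem_cent.1 hx
    by_cases hdb : d ∈ zpowers b
    · exact ⟨⟨hMP hx'.1, hMQ hx'.1⟩, hMb x hx'.1 (h.comm_of_mem hb hd1 hdb hx'.2)⟩
    · obtain ⟨y, hy, hyd, rfl⟩ := h.lang hMK hMA hb hb1 hd hdb hx'.1 hx'.2
      have h3 : y⁻¹ * (b * y * b⁻¹) = (y⁻¹ * b * y⁻¹⁻¹) * b⁻¹ := by group
      rw [h3]
      exact Subgroup.mul_mem _ (conj_mem_triv hbt (inv_mem (hMP hy)) (inv_mem (hMQ hy))) (Subgroup.inv_mem _ hbt)
  rw [Subgroup.commutator_comm, Subgroup.commutator_le]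
  intro m hm x hx
  exact (hMt hm).2 x hx

/-- a Sylow subgroup normalised by the other Sylow subgroups of a nilpotent derived group is normal -/
theorem Setup.normal_syl (h : Setup q A K) {p : ℕ} [Fact p.Prime] {L P : Subgroup G} (hLK : L ≤ K) (hLA : A ≤ normalizer (L : Set G))
    (hn : Group.IsNilpotent ↥⁅L, L⁆) (hP : IsSyl p P L) (hPA : A ≤ normalizer (P : Set G))
    (hY : ∀ r : ℕ, r.Prime → r ≠ p → H12.Nil.Sy ⁅L, L⁆ r ≤ normalizer (P : Set G)) : L ≤ normalizer (P : Set G) := by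
  have hLD : L ≤ normalizer ((⁅L, L⁆ : Subgroup G) : Set G) := H1.Coprime2.le_normalizer_commutator_left L L
  have hDL : ⁅L, L⁆ ≤ L := H1.Coprime2.commutator_le_left le_normalizer
  have hDA : A ≤ normalizer ((⁅L, L⁆ : Subgroup G) : Set G) := H1.Coprime2.le_normalizer_commutator hLA hLA
  have hD : ⁅L, L⁆ ≤ normalizer (P : Set G) := by
    apply H12.Nil.le_of_Sy_le hn
    intro r hr
    by_cases hrp : r = p
    · subst hrp
      refine le_trans ?_ le_normalizer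
      exact h.le_syl hLK hLA hP hPA (H12.Nil.isPGroup_Sy _ _) ((H12.Nil.Sy_le _ _).trans hDL)
        (hDA.trans (H12.Nil.normalizer_le_normalizer_Sy hn r))
    · exact hY r hr.out hrp
  have hPD : P ⊔ ⁅L, L⁆ ≤ normalizer (P : Set G) := sup_le le_normalizer hD
  have hle : P ⊔ ⁅L, L⁆ ≤ L := sup_le hP.le hDL
  have h1 : IsSyl p P (P ⊔ ⁅L, L⁆) := hP.of_le_of_le le_sup_left hle
  refine le_trans ?_ (h1.normalizer_le_of_normal hPD)
  apply H1.Coprime.le_normalizer_of_conj_mem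
  intro x hx y hy
  have h2 : x * y * x⁻¹ = ⁅x, y⁆ * y := by rw [commutatorElement_def]; group
  rw [h2]
  exact Subgroup.mul_mem _ ((le_sup_right : ⁅L, L⁆ ≤ _) (Subgroup.commutator_mem_commutator hx (hle hy))) hy

/-- generation lemma for `[Y, T]` -/
theorem Setup.gen_comm' (h : Setup q A K) {r : ℕ} [Fact r.Prime] {Y T M : Subgroup G} {a d : G}
    (ha : a ∈ A) (ha1 : a ≠ 1) (hd : d ∈ A) (hda : d ∉ zpowers a) (hYK : Y ≤ K) (hYA : A ≤ normalizer (Y : Set G))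
    (hYr : IsPGroup r Y) (hTA : A ≤ normalizer (T : Set G)) (hTK : T ≤ K) (hTa : ∀ t ∈ T, t * a = a * t)
    (hTY : T ≤ normalizer (Y : Set G)) (hcop : (Nat.card T).Coprime (Nat.card Y))
    (hM : ∀ v ∈ ⁅Y, T⁆, v * d = d * v → v ∈ M) (hTM : T ≤ normalizer (M : Set G)) : ⁅Y, T⁆ ≤ M := by
  have hle : ⁅Y, T⁆ ≤ Y := H1.Coprime2.commutator_le_left hTY
  have hTs : Group.IsSolvable T :=
    solvable_of_comm fun x hx y hy => h.ab a ha ha1 x (hTK hx) (hTa x hx) y (hTK hy) (hTa y hy)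
  exact h.gen_comm ha ha1 hd hda (hle.trans hYK) (H1.Coprime2.le_normalizer_commutator hYA hTA)
    (hYr.to_le hle).isNilpotent hTA hTK hTa (H1.Coprime2.le_normalizer_commutator_right _ _)
    (Nat.Coprime.coprime_dvd_right (Subgroup.card_dvd_of_le hle) hcop)
    (H1.Coprime2.commutator_commutator_eq T Y hTY hcop (Or.inl hTs)) hM hTM

/-- the minimal configuration -/
structure Min (q : ℕ) (A K : Subgroup G) : Prop extends Setup q A K where
  simple : ∀ N : Subgroup G, N ≤ K → A ≤ normalizer (N : Set G) → K ≤ normalizer (N : Set G) → N ≠ ⊥ → N = K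
  solvP : ∀ H : Subgroup G, H ≤ K → A ≤ normalizer (H : Set G) → H ≠ K → Group.IsSolvable H
  nsolv : ¬ Group.IsSolvable K

namespace Min

theorem nil (h : Min q A K) {H : Subgroup G} (hH : H ≤ K) (hHA : A ≤ normalizer (H : Set G)) (hne : H ≠ K) :
    Group.IsNilpotent ↥⁅H, H⁆ :=
  (h.toSetup.sub hH hHA).nil_comm (h.solvP H hH hHA hne)

theorem norm_ne (h : Min q A K) {D : Subgroup G} (hD : D ≤ K) (hDA : A ≤ normalizer (D : Set G)) (hDs : Group.IsSolvable D)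
    (hD1 : D ≠ ⊥) : K ⊓ normalizer (D : Set G) ≠ K := by
  intro h1
  have h2 := h.simple D hD hDA (inf_eq_left.1 h1) hD1
  rw [h2] at hDs
  exact h.nsolv hDs

theorem cent_ne (h : Min q A K) {D : Subgroup G} (hD : D ≤ K) (hDA : A ≤ normalizer (D : Set G)) (hDs : Group.IsSolvable D)
    (hD1 : D ≠ ⊥) : K ⊓ centralizer (D : Set G) ≠ K := by
  intro h1
  apply h.norm_ne hD hDA hDs hD1
  apply le_antisymm inf_le_left
  exact le_inf le_rfl ((inf_eq_left.1 h1).trans (centralizer_le_normalizer _))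

end Min

end H14.AbCent
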