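import Cfsg.Agent.Lib.H14.AbCentC

/-!
# Coprime action of `C_q × C_q` with abelian fixed point subgroups: contradiction from a good prime
-/

set_option autoImplicit false

namespace H14.AbCent

open Cfsg Subgroup
open scoped Pointwise commutatorElement
open H28.RelSyl (IsSyl)
open H12.Nil (Sy Sy_le isPGroup_Sy normalizer_le_normalizer_Sy)

universe u

variable {G : Type u} [Group G] [Finite G] {q : ℕ} {A K : Subgroup G}

/-- a good prime -/
structure Good (q : ℕ) (A K : Subgroup G) (p : ℕ) (P : Subgroup G) : Prop extends Min q A K where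
  hp : p.Prime
  syl : IsSyl p P K
  inv : A ≤ normalizer (P : Set G)
  ne : P ≠ ⊥
  pM : P ≤ ⁅P, K ⊓ normalizer (P : Set G)⁆

namespace Good

variable {p : ℕ} {P : Subgroup G}

theorem inv_X (h : Good q A K p P) {d : G} (hd : d ∈ A) {H : Subgroup G} (hH : A ≤ normalizer (H : Set G)) :
    A ≤ normalizer ((H ⊓ centralizer {d} : Subgroup G) : Set G) := h.toSetup.inv_cent hd hH

theorem isP (h : Good q A K p P) : IsPGroup p P := h.syl.isPGroup

theorem le (h : Good q A K p P) : P ≤ K := h.syl.le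

theorem solvP' (h : Good q A K p P) : Group.IsSolvable P := by
  haveI := Fact.mk h.hp
  haveI := h.isP.isNilpotent
  infer_instance

theorem Minv (h : Good q A K p P) : A ≤ normalizer ((K ⊓ normalizer (P : Set G) : Subgroup G) : Set G) :=
  H1.Coprime2.le_normalizer_inf h.norm (H1.Coprime2.le_normalizer_normalizer h.inv)

theorem leM (h : Good q A K p P) : P ≤ K ⊓ normalizer (P : Set G) := le_inf h.le le_normalizer

theorem not_le (h : Good q A K p P) : ¬ K ≤ normalizer (P : Set G) := by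
  intro h1
  exact h.norm_ne h.le h.inv h.solvP' h.ne (inf_eq_left.2 h1)

/-- coprimality of a `p`-group and an `r`-group -/
theorem cop' {p r : ℕ} (hp : p.Prime) (hr : r.Prime) (hrp : r ≠ p) {T Y : Subgroup G} (hT : IsPGroup p T)
    (hY : IsPGroup r Y) : (Nat.card T).Coprime (Nat.card Y) := by
  haveI := Fact.mk hp
  haveI := Fact.mk hr
  exact IsPGroup.coprime_card_of_ne p r (Ne.symm hrp) T Y hT hY

/-- uniqueness: `N_K(P)` is the unique maximal invariant proper subgroup containing `P` -/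
theorem uniq (h : Good q A K p P) {L : Subgroup G} (hLK : L ≤ K) (hLA : A ≤ normalizer (L : Set G)) (hne : L ≠ K)
    (hPL : P ≤ L) : L ≤ normalizer (P : Set G) := by
  haveI := Fact.mk h.hp
  have hn := h.nil hLK hLA hne
  set D := ⁅L, L⁆ with hD
  have hLD : L ≤ normalizer (D : Set G) := H1.Coprime2.le_normalizer_commutator_left L L
  have hDL : D ≤ L := H1.Coprime2.commutator_le_left le_normalizer
  have hDA : A ≤ normalizer (D : Set G) := H1.Coprime2.le_normalizer_commutator hLA hLA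
  apply h.toSetup.normal_syl hLK hLA hn (h.syl.of_le_of_le hPL hLK) h.inv
  intro r hr hrp
  haveI := Fact.mk hr
  set Y := Sy D r with hY
  have hYr : IsPGroup r Y := isPGroup_Sy D r
  have hYD : Y ≤ D := Sy_le D r
  have hYA : A ≤ normalizer (Y : Set G) := hDA.trans (normalizer_le_normalizer_Sy hn r)
  have hLY : L ≤ normalizer (Y : Set G) := hLD.trans (normalizer_le_normalizer_Sy hn r)
  have hYK : Y ≤ K := hYD.trans (hDL.trans hLK)
  suffices hsuff : P ≤ centralizer (Y : Set G) from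
    (le_centralizer_iff.1 hsuff).trans (centralizer_le_normalizer _)
  have hsP := h.toSetup.sub h.le h.inv
  apply hsP.gen
  intro b hb hb1
  by_contra hcon
  set T := P ⊓ centralizer ({b} : Set G) with hT
  have hTP : T ≤ P := inf_le_left
  have hTK := hTP.trans h.le
  have hTp : IsPGroup p T := h.isP.to_le hTP
  have hTA : A ≤ normalizer (T : Set G) := h.inv_X hb h.inv
  have hTb : ∀ t ∈ T, t * b = b * t := fun t ht => (mem_cent.1 ht).2
  have hTY : T ≤ normalizer (Y : Set G) := hTP.trans (hPL.trans hLY)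
  have hPY : P ≤ normalizer (Y : Set G) := hPL.trans hLY
  have hcop := cop' h.hp hr hrp hTp hYr
  have hTs : Group.IsSolvable T := H1.Coprime.isSolvable_of_le hTP h.solvP'
  set W := ⁅Y, T⁆ with hW
  have hWY : W ≤ Y := H1.Coprime2.commutator_le_left hTY
  have hWne : W ≠ ⊥ := by
    intro h1
    apply hcon
    rw [le_centralizer_iff]
    exact commutator_eq_bot_iff_le_centralizer.1 h1
  have hWT : ⁅W, T⁆ = W := H1.Coprime2.commutator_commutator_eq T Y hTY hcop (Or.inl hTs)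
  have hWA : A ≤ normalizer (W : Set G) := H1.Coprime2.le_normalizer_commutator hYA hTA
  have hTW : T ≤ normalizer (W : Set G) := H1.Coprime2.le_normalizer_commutator_right _ _
  have hgen : ∀ d ∈ A, d ∉ zpowers b → ∀ M : Subgroup G, (∀ v ∈ W, v * d = d * v → v ∈ M) → T ≤ normalizer (M : Set G) → W ≤ M :=
    fun d hd hda M hM hTM => h.toSetup.gen_comm' hb hb1 hd hda hYK hYA hYr hTA hTK hTb hTY hcop hM hTM
  -- `[P, P]` centralises `Y`
  have hPP : ∀ x ∈ P, ∀ y ∈ P, ∀ v ∈ Y, v * ⁅x, y⁆ = ⁅x, y⁆ * v := by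
    intro x hx y hy v hv
    have h1 : ⁅x, y⁆ ∈ D := Subgroup.commutator_mem_commutator (hPL hx) (hPL hy)
    have h2 : ⁅P, P⁆ ≤ P := H1.Coprime2.commutator_le_left le_normalizer
    have h3 : ⁅x, y⁆ ∈ Sy D p := by
      obtain ⟨k, hk⟩ := h.isP ⟨⁅x, y⁆, h2 (Subgroup.commutator_mem_commutator hx hy)⟩
      exact H12.Nil.mem_Sy hn h1 (congrArg Subtype.val hk)
    exact (H12.Nil.commute hn hrp hv h3)
  have hPW : P ≤ normalizer (W : Set G) := by
    apply H1.Coprime.le_normalizer_of_conj_mem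
    intro x hx w hw
    induction hw using Subgroup.closure_induction with
    | mem w hw =>
      obtain ⟨y, hy, t, ht, rfl⟩ := hw
      have h1 : x * y * x⁻¹ ∈ Y := H1.Coprime.conj_mem_of_le_normalizer hPY hx hy
      have h2 : ⁅x * y * x⁻¹, t⁆ ∈ W := Subgroup.commutator_mem_commutator h1 ht
      have hz := hPP x hx t (hTP ht)
      have h3 := hz _ (Y.inv_mem h1)
      have h4 := hz _ (hWY h2)
      have h5 : x * ⁅y, t⁆ * x⁻¹ = ⁅x * y * x⁻¹, t⁆ := by
        calc x * ⁅y, t⁆ * x⁻¹ = (x * y * x⁻¹) * (⁅x, t⁆ * t) * ((x * y * x⁻¹)⁻¹) * (⁅x, t⁆ * t)⁻¹ := by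
              simp only [commutatorElement_def]; group
          _ = (x * y * x⁻¹) * ⁅x, t⁆ * (t * (x * y * x⁻¹)⁻¹ * t⁻¹) * ⁅x, t⁆⁻¹ := by group
          _ = ⁅x, t⁆ * (x * y * x⁻¹) * (t * (x * y * x⁻¹)⁻¹ * t⁻¹) * ⁅x, t⁆⁻¹ := by rw [hz _ h1]
          _ = (⁅x, t⁆ * ⁅x * y * x⁻¹, t⁆) * ⁅x, t⁆⁻¹ := by
              rw [commutatorElement_def (x * y * x⁻¹) t]; group
          _ = (⁅x * y * x⁻¹, t⁆ * ⁅x, t⁆) * ⁅x, t⁆⁻¹ := by rw [h4]
          _ = _ := by group
      rw [h5]; exact h2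
    | one => simp
    | mul x' y' _ _ h1 h2 =>
      have : x * (x' * y') * x⁻¹ = (x * x' * x⁻¹) * (x * y' * x⁻¹) := by group
      rw [this]; exact Subgroup.mul_mem _ h1 h2
    | inv x' _ h1 =>
      have : x * x'⁻¹ * x⁻¹ = (x * x' * x⁻¹)⁻¹ := by group
      rw [this]; exact Subgroup.inv_mem _ h1
  have hne1 : ∀ d : G, d ∉ zpowers b → d ≠ 1 := by
    rintro d hd rfl
    exact hd (one_mem _)
  -- (ii)
  have hii : ∀ d ∈ A, d ∉ zpowers b → P ⊓ centralizer ({d} : Set G) ≤ centralizer (W : Set G) := by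
    intro d hd hdb
    rw [le_centralizer_iff]
    have h1 := hgen d hd hdb (Y ⊓ centralizer ((P ⊓ centralizer ({d} : Set G) : Subgroup G) : Set G)) ?_ ?_
    · exact h1.trans inf_le_right
    · intro v hv hvd
      rw [Subgroup.mem_inf, mem_centralizer_iff]
      refine ⟨hWY hv, fun s hs => ?_⟩
      have hs' := mem_cent.1 hs
      exact h.ab d hd (hne1 d hdb) s (h.le hs'.1) hs'.2 v (hYK (hWY hv)) hvd
    · apply H1.Coprime.le_normalizer_of_conj_mem
      intro t ht v hv
      rw [Subgroup.mem_inf, mem_centralizer_iff] at hv ⊢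
      refine ⟨H1.Coprime.conj_mem_of_le_normalizer hTY ht hv.1, fun s hs => ?_⟩
      have hs' := mem_cent.1 hs
      have h2 := hPP _ (P.inv_mem (hTP ht)) _ hs'.1 v hv.1
      have h4 := hv.2 s hs
      have h5 : s * t = t * (⁅t⁻¹, s⁆ * s) := by rw [commutatorElement_def]; group
      calc s * (t * v * t⁻¹) = (s * t) * v * t⁻¹ := by group
        _ = t * (⁅t⁻¹, s⁆ * (s * v)) * t⁻¹ := by rw [h5]; group
        _ = t * ((⁅t⁻¹, s⁆ * v) * s) * t⁻¹ := by rw [h4]; group
        _ = t * ((v * ⁅t⁻¹, s⁆) * s) * t⁻¹ := by rw [h2]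
        _ = t * v * (t⁻¹ * (t * (⁅t⁻¹, s⁆ * s))) * t⁻¹ := by group
        _ = t * v * (t⁻¹ * (s * t)) * t⁻¹ := by rw [h5]
        _ = t * v * t⁻¹ * s := by group
  -- (i)
  have hi : ∀ d ∈ A, d ∉ zpowers b → (K ⊓ normalizer (P : Set G)) ⊓ centralizer ({d} : Set G) ≤ normalizer (W : Set G) := by
    intro d hd hdb
    apply H1.Coprime.le_normalizer_of_conj_mem
    intro x₀ hx₀ w₀ hw₀
    obtain ⟨x, hx, hxx⟩ : ∃ x ∈ (K ⊓ normalizer (P : Set G)) ⊓ centralizer ({d} : Set G), x₀ = x⁻¹ :=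
      ⟨x₀⁻¹, Subgroup.inv_mem _ hx₀, by simp⟩
    rw [hxx, inv_inv]
    obtain ⟨⟨hxK, hxP⟩, hxd⟩ := mem_cent.1 hx
    -- `W ≤ x W x⁻¹`
    have h1 := hgen d hd hdb (W.map (MulAut.conj x).toMonoidHom) ?_ ?_
    · obtain ⟨w, hw, hww⟩ := h1 hw₀
      have : x⁻¹ * w₀ * x = w := by
        rw [← hww]
        change x⁻¹ * (x * w * x⁻¹) * x = w
        group
      rw [this]; exact hw
    · intro v hv hvd
      refine ⟨v, hv, ?_⟩
      change x * v * x⁻¹ = v
      rw [h.ab d hd (hne1 d hdb) x hxK hxd v (hYK (hWY hv)) hvd]; group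
    · apply H1.Coprime.le_normalizer_of_conj_mem
      rintro t ht _ ⟨w, hw, rfl⟩
      have h2 : x⁻¹ * t * x ∈ P := by
        have := (mem_normalizer_iff.1 (inv_mem hxP) t).1 (hTP ht)
        simpa using this
      refine ⟨(x⁻¹ * t * x) * w * (x⁻¹ * t * x)⁻¹, H1.Coprime.conj_mem_of_le_normalizer hPW h2 hw, ?_⟩
      change x * ((x⁻¹ * t * x) * w * (x⁻¹ * t * x)⁻¹) * x⁻¹ = t * (x * w * x⁻¹) * t⁻¹
      group
  have hQ := h.toSetup.lemQ (M := K ⊓ normalizer (P : Set G)) (Q := P ⊓ centralizer (W : Set G)) h.isP h.inv inf_le_left h.Minv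
    inf_le_right h.leM inf_le_left (H1.Coprime2.le_normalizer_inf h.inv (H1.Coprime2.le_normalizer_centralizer hWA)) hb hb1
    (fun d hd hdb => le_inf inf_le_left (hii d hd hdb))
    (fun d hd hdb => H1.Coprime2.le_normalizer_inf (inf_le_left.trans inf_le_right) (H1.Coprime2.le_normalizer_centralizer (hi d hd hdb)))
  have h6 : T ≤ centralizer (W : Set G) := hTP.trans (h.pM.trans (hQ.trans inf_le_right))
  apply hWne
  rw [← hWT, commutator_eq_bot_iff_le_centralizer, le_centralizer_iff]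
  exact h6

end Good

end H14.AbCent
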