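import Cfsg.Agent.Lib.H14.AbCentD

/-!
# Coprime action of `C_q × C_q` with abelian fixed point subgroups: end of the local analysis
-/

set_option autoImplicit false

namespace H14.AbCent

open Cfsg Subgroup
open scoped Pointwise commutatorElement
open H28.RelSyl (IsSyl)
open H12.Nil (Sy Sy_le isPGroup_Sy normalizer_le_normalizer_Sy)

universe u

variable {G : Type u} [Group G] [Finite G] {q : ℕ} {A K : Subgroup G}

namespace Good

variable {p : ℕ} {P : Subgroup G}

/-- `K` is perfect-like: a Sylow subgroup is never contained in `C_K(e)` -/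
theorem not_burnside (h : Good q A K p P) {s : ℕ} [Fact s.Prime] {S : Subgroup G} (hS : IsSyl s S K)
    (hSA : A ≤ normalizer (S : Set G)) (hS1 : S ≠ ⊥) {e : G} (he : e ∈ A) (he1 : e ≠ 1) (hSe : ∀ x ∈ S, x * e = e * x) : False := by
  have h1 := h.toSetup.normalizer_le_centralizer (H := K ⊓ normalizer (S : Set G)) inf_le_left
    (H1.Coprime2.le_normalizer_inf h.norm (H1.Coprime2.le_normalizer_normalizer hSA)) he he1 hS.le hSe inf_le_right
  obtain ⟨N, hN1, hN2, hN3⟩ := H38.PPrime.exists_complement_of_burnside (p := s) (T := S) (H := K) hS h1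
  have hNK : N ≤ K := fun x hx => ((hN1 x).1 hx).1
  have hconj : ∀ X : Subgroup G, X ≤ normalizer (K : Set G) → X ≤ normalizer (N : Set G) := by
    intro X hX
    apply H1.Coprime.le_normalizer_of_conj_mem
    intro g hg x hx
    rw [hN1] at hx ⊢
    refine ⟨H1.Coprime.conj_mem_of_le_normalizer hX hg hx.1, ?_⟩
    have : orderOf (g * x * g⁻¹) = orderOf x := by
      have := MulEquiv.orderOf_eq (MulAut.conj g) x
      simpa using this
    rw [this]; exact hx.2
  by_cases hNb : N = ⊥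
  · apply h.nsolv
    have h2 : K ≤ S := by
      intro x hx
      obtain ⟨t, ht, k, hk, rfl⟩ := hN3 x hx
      rw [hNb, Subgroup.mem_bot] at hk
      rw [hk, mul_one]; exact ht
    have h3 : K = S := le_antisymm h2 hS.le
    rw [h3]
    haveI := hS.isPGroup.isNilpotent
    infer_instance
  · have h2 := h.simple N hNK (hconj A h.norm) (hconj K le_normalizer) hNb
    rw [h2] at hN2
    obtain ⟨n, hn⟩ := IsPGroup.iff_card.1 hS.isPGroup
    have h3 : Nat.card S ∣ Nat.card K := Subgroup.card_dvd_of_le hS.le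
    apply hS1
    rw [← Subgroup.card_eq_one]
    have h4 : (Nat.card S).Coprime (Nat.card K) := by
      rw [hn]
      exact (Nat.Coprime.pow_right n hN2).symm
    exact Nat.Coprime.eq_one_of_dvd h4 h3

/-- Step 3 -/
theorem exists_b (h : Good q A K p P) : ∃ b ∈ A, b ≠ 1 ∧ P ⊓ centralizer ({b} : Set G) ≠ ⊥ ∧
    ¬ K ⊓ centralizer ({b} : Set G) ≤ normalizer (P : Set G) := by
  haveI := Fact.mk h.hp
  by_contra hcon
  push Not at hcon
  set M := K ⊓ normalizer (P : Set G) with hM
  have hMK : M ≤ K := inf_le_left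
  -- (3a)
  obtain ⟨r, hr, hrp, S, hS, hSA, hSP⟩ : ∃ r : ℕ, ∃ hr : r.Prime, r ≠ p ∧ ∃ S : Subgroup G, (haveI := Fact.mk hr; IsSyl r S M) ∧
      A ≤ normalizer (S : Set G) ∧ ¬ S ≤ centralizer (P : Set G) := by
    by_contra hc
    push Not at hc
    have h1 : M ≤ P ⊔ centralizer (P : Set G) := by
      apply H27.GenSub.le_of_forall_sylow
      intro r hr
      haveI := Fact.mk hr
      obtain ⟨S, hS, hSA⟩ := h.toSetup.exists_syl r hMK h.Minv
      refine ⟨S, H2.BGCop.isSylIn_iff.2 hS, ?_⟩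
      by_cases hrp : r = p
      · subst hrp
        exact (h.toSetup.le_syl le_rfl h.norm h.syl h.inv hS.isPGroup (hS.le.trans hMK) hSA).trans le_sup_left
      · exact (hc r hr hrp S hS hSA).trans le_sup_right
    have h2 : ⁅P, M⁆ ≤ ⁅P, P⁆ := by
      rw [Subgroup.commutator_le]
      intro x hx m hm
      have h3 : m ∈ ((P ⊔ centralizer (P : Set G) : Subgroup G) : Set G) := h1 hm
      rw [Subgroup.coe_mul_of_left_le_normalizer_right P _ (H1.Coprime2.le_normalizer_centralizer le_normalizer)] at h3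
      obtain ⟨y, hy, c, hc', hyc⟩ := h3
      have hyc' : m = y * c := hyc.symm
      have h4 : x⁻¹ * c = c * x⁻¹ := mem_centralizer_iff.1 hc' x⁻¹ (P.inv_mem hx)
      have h5 : ⁅x, m⁆ = ⁅x, y⁆ := by
        rw [hyc']
        calc ⁅x, y * c⁆ = x * y * (c * x⁻¹) * c⁻¹ * y⁻¹ := by rw [commutatorElement_def]; group
          _ = x * y * (x⁻¹ * c) * c⁻¹ * y⁻¹ := by rw [h4]
          _ = _ := by rw [commutatorElement_def]; group
      rw [h5]
      exact Subgroup.commutator_mem_commutator hx hy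
    have h3 := H1.Coprime2.commutator_lt_of_isPGroup h.isP h.isP le_normalizer h.ne
    exact absurd (h.pM.trans h2) (not_le_of_gt h3)
  haveI := Fact.mk hr
  have hSr : IsPGroup r S := hS.isPGroup
  have hSM : S ≤ M := hS.le
  have hsS := h.toSetup.sub (hSM.trans hMK) hSA
  obtain ⟨e, he, he1, heP⟩ : ∃ e ∈ A, e ≠ 1 ∧ ¬ S ⊓ centralizer ({e} : Set G) ≤ centralizer (P : Set G) := by
    by_contra hc
    push Not at hc
    exact hSP (hsS.gen hc)
  set T := S ⊓ centralizer ({e} : Set G) with hT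
  have hTS : T ≤ S := inf_le_left
  have hTA : A ≤ normalizer (T : Set G) := h.inv_X he hSA
  have hTe : ∀ t ∈ T, t * e = e * t := fun t ht => (mem_cent.1 ht).2
  have hTP : T ≤ normalizer (P : Set G) := hTS.trans (hSM.trans inf_le_right)
  have hTK : T ≤ K := hTS.trans (hSM.trans hMK)
  -- (3b)
  have h3b : ∀ d ∈ A, d ∉ zpowers e → P ⊓ centralizer ({d} : Set G) ≠ ⊥ := by
    intro d hd hde hbot
    apply heP
    rw [le_centralizer_iff]
    apply commutator_eq_bot_iff_le_centralizer.1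
    rw [eq_bot_iff]
    apply h.toSetup.gen_comm' he he1 hd hde h.le h.inv h.isP hTA hTK hTe hTP
      (cop' hr h.hp (Ne.symm hrp) (hSr.to_le hTS) h.isP)
    · intro v hv hvd
      have hvP : v ∈ P := H1.Coprime2.commutator_le_left hTP hv
      rw [← hbot]
      exact mem_cent.2 ⟨hvP, hvd⟩
    · rw [Subgroup.normalizer_eq_top]; exact le_top
  have hne1 : ∀ d : G, d ∉ zpowers e → d ≠ 1 := by
    rintro d hd rfl
    exact hd (one_mem _)
  have hXd : ∀ d ∈ A, d ∉ zpowers e → K ⊓ centralizer ({d} : Set G) ≤ normalizer (P : Set G) :=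
    fun d hd hde => hcon d hd (hne1 d hde) (h3b d hd hde)
  -- (3c)
  have hPe : P ⊓ centralizer ({e} : Set G) = ⊥ := by
    by_contra hc
    have h1 := hcon e he he1 hc
    apply h.not_le
    apply h.toSetup.gen
    intro d hd hd1 x hx
    have hx' := mem_cent.1 hx
    by_cases hde : d ∈ zpowers e
    · exact h1 (mem_cent.2 ⟨hx'.1, h.toSetup.comm_of_mem he hd1 hde hx'.2⟩)
    · exact hXd d hd hde hx
  -- (3d)
  obtain ⟨s, hs, S', hS', hS'A, hS'P⟩ : ∃ s : ℕ, ∃ hs : s.Prime, ∃ S' : Subgroup G, (haveI := Fact.mk hs; IsSyl s S' K) ∧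
      A ≤ normalizer (S' : Set G) ∧ ¬ S' ≤ normalizer (P : Set G) := by
    by_contra hc
    push Not at hc
    apply h.not_le
    apply H27.GenSub.le_of_forall_sylow
    intro r hr
    haveI := Fact.mk hr
    obtain ⟨S, hS, hSA⟩ := h.toSetup.exists_syl r le_rfl h.norm
    exact ⟨S, H2.BGCop.isSylIn_iff.2 hS, hc r hr S hS hSA⟩
  haveI := Fact.mk hs
  have hsp : s ≠ p := by
    rintro rfl
    apply hS'P
    rw [h.toSetup.syl_unique le_rfl h.norm hS' h.syl hS'A h.inv]
    exact le_normalizer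
  have hS's : IsPGroup s S' := hS'.isPGroup
  have hS'n : Group.IsNilpotent S' := hS's.isNilpotent
  have hE1 : ⁅S', zpowers e⁆ ≤ centralizer (P : Set G) := by
    apply h.toSetup.comm_le hS'.le hS'A hS'n he he1
    intro d hd hde
    have hT'A : A ≤ normalizer ((S' ⊓ centralizer ({d} : Set G) : Subgroup G) : Set G) := h.inv_X hd hS'A
    have hT'P : S' ⊓ centralizer ({d} : Set G) ≤ normalizer (P : Set G) :=
      (inf_le_inf_right _ hS'.le).trans (hXd d hd hde)
    rw [le_centralizer_iff]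
    apply commutator_eq_bot_iff_le_centralizer.1
    rw [eq_bot_iff]
    apply h.toSetup.gen_comm' hd (hne1 d hde) he (h.toSetup.not_mem_symm hd he1 hde) h.le h.inv h.isP hT'A
      (inf_le_left.trans hS'.le) (fun t ht => (mem_cent.1 ht).2) hT'P
      (cop' hs h.hp (Ne.symm hsp) (hS's.to_le inf_le_left) h.isP)
    · intro v hv hve
      have hvP : v ∈ P := H1.Coprime2.commutator_le_left hT'P hv
      rw [← hPe]
      exact mem_cent.2 ⟨hvP, hve⟩
    · rw [Subgroup.normalizer_eq_top]; exact le_top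
  by_cases hE : ⁅S', zpowers e⁆ = ⊥
  · apply h.not_burnside hS' hS'A _ he he1
    · intro x hx
      have h1 := commutator_eq_bot_iff_le_centralizer.1 hE hx
      rw [H2.BGCop.centralizer_zpowers_eq, mem_centralizer_singleton_iff] at h1
      exact h1
    · rintro rfl
      exact hS'P bot_le
  · have hEle : ⁅S', zpowers e⁆ ≤ S' := H1.Coprime2.commutator_le_left (h.toSetup.znorm he hS'A)
    have hEA : A ≤ normalizer ((⁅S', zpowers e⁆ : Subgroup G) : Set G) :=
      H1.Coprime2.le_normalizer_commutator hS'A (h.toSetup.le_norm_zpowers he)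
    have hEs : Group.IsSolvable ↥⁅S', zpowers e⁆ := by
      haveI := hS'n
      exact H1.Coprime.isSolvable_of_le hEle inferInstance
    have h1 := h.uniq (L := K ⊓ normalizer ((⁅S', zpowers e⁆ : Subgroup G) : Set G)) inf_le_left
      (H1.Coprime2.le_normalizer_inf h.norm (H1.Coprime2.le_normalizer_normalizer hEA))
      (h.norm_ne (hEle.trans hS'.le) hEA hEs hE)
      (le_inf h.le ((le_centralizer_iff.1 hE1).trans (centralizer_le_normalizer _)))
    apply hS'P
    exact (le_inf hS'.le (H1.Coprime2.le_normalizer_commutator_left _ _)).trans h1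

/-- the final contradiction -/
theorem false (h : Good q A K p P) : False := by
  haveI := Fact.mk h.hp
  obtain ⟨b, hb, hb1, hPb, hXb⟩ := h.exists_b
  set M := K ⊓ normalizer (P : Set G) with hM
  have hMK : M ≤ K := inf_le_left
  set Pb := P ⊓ centralizer ({b} : Set G) with hPbdef
  have hPbP : Pb ≤ P := inf_le_left
  have hPbA : A ≤ normalizer (Pb : Set G) := h.inv_X hb h.inv
  have hPbs : Group.IsSolvable Pb := H1.Coprime.isSolvable_of_le hPbP h.solvP'
  have hne1 : ∀ c d : G, d ∉ zpowers c → d ≠ 1 := by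
    rintro c d hd rfl
    exact hd (one_mem _)
  -- `L₀` and `L`
  set L₀ := K ⊓ centralizer (Pb : Set G) with hL₀
  have hL₀A : A ≤ normalizer (L₀ : Set G) := H1.Coprime2.le_normalizer_inf h.norm (H1.Coprime2.le_normalizer_centralizer hPbA)
  have hL₀ne : L₀ ≠ K := h.cent_ne (hPbP.trans h.le) hPbA hPbs hPb
  have hXbL : K ⊓ centralizer ({b} : Set G) ≤ L₀ := by
    intro x hx
    have hx' := mem_cent.1 hx
    rw [hL₀, Subgroup.mem_inf, mem_centralizer_iff]
    refine ⟨hx'.1, fun y hy => ?_⟩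
    have hy' := mem_cent.1 hy
    exact h.ab b hb hb1 y (h.le hy'.1) hy'.2 x hx'.1 hx'.2
  obtain ⟨L, ⟨hLK, hLA, hLne, hL₀L⟩, hLmax⟩ := (Set.toFinite {L : Subgroup G | L ≤ K ∧ A ≤ normalizer (L : Set G) ∧ L ≠ K ∧
    L₀ ≤ L}).exists_maximal ⟨L₀, inf_le_left, hL₀A, hL₀ne, le_rfl⟩
  -- `Z(P)`
  set Z := P ⊓ centralizer (P : Set G) with hZ
  have hZne : Z ≠ ⊥ := H1.ThompsonNPC.center_ne_bot h.isP h.ne
  have hZP : Z ≤ P := inf_le_left
  have hZK := hZP.trans h.le
  have hZA : A ≤ normalizer (Z : Set G) := H1.Coprime2.le_normalizer_inf h.inv (H1.Coprime2.le_normalizer_centralizer h.inv)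
  have hsZ := h.toSetup.sub hZK hZA
  have hZL : Z ≤ L := by
    refine le_trans (le_inf hZK ?_) hL₀L
    exact inf_le_right.trans (centralizer_le hPbP)
  set PL := P ⊓ L with hPL
  have hPLP : PL ≤ P := inf_le_left
  have hPLL : PL ≤ L := inf_le_right
  have hPLA : A ≤ normalizer (PL : Set G) := H1.Coprime2.le_normalizer_inf h.inv hLA
  have hPLsyl : IsSyl p PL L := h.toSetup.inf_syl h.syl h.inv hLK hLA
  have hPLp : IsPGroup p PL := h.isP.to_le hPLP
  have hPbPL : Pb ≤ PL := by
    refine le_inf hPbP (le_trans ?_ (hXbL.trans hL₀L))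
    exact inf_le_inf_right _ h.le
  have hPLne : PL ≠ ⊥ := by
    intro h1
    rw [h1, le_bot_iff] at hPbPL
    exact hPb hPbPL
  have hPLs : Group.IsSolvable PL := H1.Coprime.isSolvable_of_le hPLP h.solvP'
  have hn := h.nil hLK hLA hLne
  set D := ⁅L, L⁆ with hD
  have hLD : L ≤ normalizer (D : Set G) := H1.Coprime2.le_normalizer_commutator_left L L
  have hDL : D ≤ L := H1.Coprime2.commutator_le_left le_normalizer
  have hDA : A ≤ normalizer (D : Set G) := H1.Coprime2.le_normalizer_commutator hLA hLA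
  have hYA : ∀ r : ℕ, r.Prime → A ≤ normalizer (Sy D r : Set G) := fun r hr => by
    haveI := Fact.mk hr
    exact hDA.trans (normalizer_le_normalizer_Sy hn r)
  have hLY : ∀ r : ℕ, r.Prime → L ≤ normalizer (Sy D r : Set G) := fun r hr => by
    haveI := Fact.mk hr
    exact hLD.trans (normalizer_le_normalizer_Sy hn r)
  have hYK : ∀ r : ℕ, Sy D r ≤ K := fun r => (Sy_le D r).trans (hDL.trans hLK)
  have hYL : ∀ r : ℕ, Sy D r ≤ L := fun r => (Sy_le D r).trans hDL
  have hPY : ∀ r : ℕ, r.Prime → r ≠ p → P ⊓ Sy D r = ⊥ := fun r hr hrp => by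
    exact H1.Coprime.inf_eq_bot_of_coprime_card (cop' h.hp hr hrp h.isP (isPGroup_Sy D r))
  -- (4.3)
  have h43 : ¬ ∀ r : ℕ, r.Prime → r ≠ p → Sy D r ≤ normalizer (PL : Set G) := by
    intro hall
    have h1 := h.toSetup.normal_syl hLK hLA hn hPLsyl hPLA hall
    have h2 : K ⊓ normalizer (PL : Set G) ≤ L := hLmax ⟨inf_le_left,
      H1.Coprime2.le_normalizer_inf h.norm (H1.Coprime2.le_normalizer_normalizer hPLA),
      h.norm_ne (hPLP.trans h.le) hPLA hPLs hPLne, hL₀L.trans (le_inf hLK h1)⟩ (le_inf hLK h1)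
    have h3 : PL = P := by
      by_contra h4
      have h5 := H28.RelSyl.lt_inf_normalizer_of_isPGroup h.isP (lt_of_le_of_ne hPLP h4)
      exact absurd (le_inf inf_le_left ((inf_le_inf_right _ h.le).trans h2)) (not_le_of_gt h5)
    have h4 := h.uniq hLK hLA hLne (by rw [← h3]; exact hPLL)
    exact hXb ((hXbL.trans hL₀L).trans h4)
  -- Step 2
  have hstep2 : ∀ c ∈ A, c ≠ 1 → Z ⊓ centralizer ({c} : Set G) ≠ ⊥ → K ⊓ centralizer ({c} : Set G) ≤ normalizer (P : Set G) := by
    intro c hc hc1 hZc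
    set T := Z ⊓ centralizer ({c} : Set G) with hT
    have hTZ : T ≤ Z := inf_le_left
    have hTA : A ≤ normalizer (T : Set G) := h.inv_X hc hZA
    have hTs : Group.IsSolvable T := H1.Coprime.isSolvable_of_le (hTZ.trans hZP) h.solvP'
    have h1 := h.uniq (L := K ⊓ centralizer (T : Set G)) inf_le_left
      (H1.Coprime2.le_normalizer_inf h.norm (H1.Coprime2.le_normalizer_centralizer hTA))
      (h.cent_ne (hTZ.trans hZK) hTA hTs hZc)
      (le_inf h.le (le_centralizer_iff.1 (hTZ.trans inf_le_right)))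
    refine le_trans ?_ h1
    intro x hx
    have hx' := mem_cent.1 hx
    rw [Subgroup.mem_inf, mem_centralizer_iff]
    refine ⟨hx'.1, fun y hy => ?_⟩
    have hy' := mem_cent.1 hy
    exact h.ab c hc hc1 y (hZK hy'.1) hy'.2 x hx'.1 hx'.2
  -- (4.2)
  have h42 : ∀ c ∈ A, c ≠ 1 → Z ⊓ centralizer ({c} : Set G) ≠ ⊥ → ∀ d ∈ A, d ≠ 1 → d ∉ zpowers c → ∀ r : ℕ, r.Prime → r ≠ p →
      PL ⊓ centralizer ({d} : Set G) ≤ centralizer (Sy D r : Set G) := by
    intro c hc hc1 hZc d hd hd1 hdc r hr hrp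
    haveI := Fact.mk hr
    have hXc := hstep2 c hc hc1 hZc
    set T := PL ⊓ centralizer ({d} : Set G) with hT
    have hTPL : T ≤ PL := inf_le_left
    have hTA : A ≤ normalizer (T : Set G) := h.inv_X hd hPLA
    have hTY : T ≤ normalizer (Sy D r : Set G) := hTPL.trans (hPLL.trans (hLY r hr))
    have hTp : IsPGroup p T := hPLp.to_le hTPL
    have hcop := cop' h.hp hr hrp hTp (isPGroup_Sy D r)
    have hTs : Group.IsSolvable T := H1.Coprime.isSolvable_of_le (hTPL.trans hPLP) h.solvP'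
    have h1 : ⁅Sy D r, T⁆ ≤ centralizer (T : Set G) := by
      apply h.toSetup.gen_comm' hd hd1 hc (h.toSetup.not_mem_symm hd hc1 hdc) (hYK r) (hYA r hr) (isPGroup_Sy D r) hTA
        (hTPL.trans (hPLP.trans h.le)) (fun t ht => (mem_cent.1 ht).2) hTY hcop
      · intro v hv hvc
        have hvY : v ∈ Sy D r := H1.Coprime2.commutator_le_left hTY hv
        have hvN : v ∈ normalizer (P : Set G) := hXc (mem_cent.2 ⟨hYK r hvY, hvc⟩)
        rw [mem_centralizer_iff]
        intro t ht
        have htP : t ∈ P := hPLP (hTPL ht)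
        have h2 : ⁅v, t⁆ ∈ P ⊓ Sy D r := by
          rw [commutatorElement_def]
          refine ⟨P.mul_mem ((mem_normalizer_iff.1 hvN t).1 htP) (P.inv_mem htP), ?_⟩
          have h3 : v * t * v⁻¹ * t⁻¹ = v * (t * v⁻¹ * t⁻¹) := by group
          rw [h3]
          exact Subgroup.mul_mem _ hvY (H1.Coprime.conj_mem_of_le_normalizer hTY ht (Subgroup.inv_mem _ hvY))
        rw [hPY r hr hrp, Subgroup.mem_bot, commutatorElement_eq_one_iff_mul_comm] at h2
        exact h2.symm
      · exact H1.Coprime2.le_normalizer_centralizer le_normalizer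
    have h2 : ⁅⁅Sy D r, T⁆, T⁆ = ⊥ := commutator_eq_bot_iff_le_centralizer.2 h1
    have h3 := H1.Coprime2.commutator_eq_bot_of T (Sy D r) hTY hcop (Or.inl hTs) h2
    exact le_centralizer_iff.1 (commutator_eq_bot_iff_le_centralizer.1 h3)
  -- choose `c`
  obtain ⟨c, hc, hc1, hZc⟩ : ∃ c ∈ A, c ≠ 1 ∧ Z ⊓ centralizer ({c} : Set G) ≠ ⊥ := by
    by_contra hcon
    push Not at hcon
    apply hZne
    rw [eq_bot_iff]
    apply hsZ.gen
    intro a ha ha1
    exact (hcon a ha ha1).le
  -- (4.4)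
  have h44 : ∀ c' ∈ A, c' ∉ zpowers c → Z ⊓ centralizer ({c'} : Set G) = ⊥ := by
    intro c' hc' hcc'
    by_contra hcon
    apply h43
    intro r hr hrp
    refine le_trans ?_ (centralizer_le_normalizer (PL : Set G))
    rw [le_centralizer_iff]
    apply (h.toSetup.sub (hPLP.trans h.le) hPLA).gen
    intro d hd hd1
    by_cases hdc : d ∈ zpowers c
    · apply h42 c' hc' (hne1 _ _ hcc') hcon d hd hd1 _ r hr hrp
      intro hdc'
      apply hcc'
      have e1 := h.toSetup.zpowers_eq hc hd1 hdc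
      have e2 := h.toSetup.zpowers_eq hc' hd1 hdc'
      rw [← e1, e2]
      exact mem_zpowers c'
    · exact h42 c hc hc1 hZc d hd hd1 hdc r hr hrp
  have hZc' : ∀ z ∈ Z, z * c = c * z := by
    have h1 : Z ≤ centralizer ({c} : Set G) := by
      apply hsZ.gen
      intro d hd hd1 x hx
      have hx' := mem_cent.1 hx
      by_cases hdc : d ∈ zpowers c
      · rw [mem_centralizer_singleton_iff]
        exact h.toSetup.comm_of_mem hc hd1 hdc hx'.2
      · rw [h44 d hd hdc, Subgroup.mem_bot] at hx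
        rw [hx]; exact one_mem _
    exact fun z hz => mem_centralizer_singleton_iff.1 (h1 hz)
  -- (4.5)
  have hMZ : M ≤ centralizer (Z : Set G) :=
    h.toSetup.normalizer_le_centralizer hMK h.Minv hc hc1 hZK hZc'
      (H1.Coprime2.le_normalizer_inf inf_le_right (H1.Coprime2.le_normalizer_centralizer inf_le_right))
  have hZs : Group.IsSolvable Z := H1.Coprime.isSolvable_of_le hZP h.solvP'
  -- (4.6)
  obtain ⟨r, hr, hrp, hZY⟩ : ∃ r : ℕ, r.Prime ∧ r ≠ p ∧ ¬ Z ≤ centralizer (Sy D r : Set G) := by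
    by_contra hcon
    push Not at hcon
    apply h43
    intro r hr hrp
    have h1 := h.uniq (L := K ⊓ centralizer (Z : Set G)) inf_le_left
      (H1.Coprime2.le_normalizer_inf h.norm (H1.Coprime2.le_normalizer_centralizer hZA))
      (h.cent_ne hZK hZA hZs hZne) (le_inf h.le (le_centralizer_iff.1 inf_le_right))
    have h2 : Sy D r ≤ normalizer (P : Set G) :=
      (le_inf (hYK r) (le_centralizer_iff.1 (hcon r hr hrp))).trans h1
    exact H1.Coprime2.le_normalizer_inf h2 ((hYL r).trans le_normalizer)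
  haveI := Fact.mk hr
  have hZYn : Z ≤ normalizer (Sy D r : Set G) := hZL.trans (hLY r hr)
  have hcop := cop' h.hp hr hrp (h.isP.to_le hZP) (isPGroup_Sy D r)
  set W := ⁅Sy D r, Z⁆ with hW
  have hWA : A ≤ normalizer (W : Set G) := H1.Coprime2.le_normalizer_commutator (hYA r hr) hZA
  have hWY : W ≤ Sy D r := H1.Coprime2.commutator_le_left hZYn
  -- (4.7)
  have h47 : ∀ d ∈ A, d ∉ zpowers c → M ⊓ centralizer ({d} : Set G) ≤ centralizer (W : Set G) := by
    intro d hd hdc
    rw [le_centralizer_iff]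
    apply h.toSetup.gen_comm' hc hc1 hd hdc (hYK r) (hYA r hr) (isPGroup_Sy D r) hZA hZK hZc' hZYn hcop
    · intro v hv hvd
      rw [mem_centralizer_iff]
      intro x hx
      have hx' := mem_cent.1 hx
      exact h.ab d hd (hne1 c d hdc) x (hMK hx'.1) hx'.2 v (hYK r (hWY hv)) hvd
    · refine le_trans ?_ le_normalizer
      exact (le_centralizer_iff.1 hMZ).trans (centralizer_le inf_le_left)
  have hQ := h.toSetup.lemQ (M := K ⊓ normalizer (P : Set G)) (Q := P ⊓ centralizer (W : Set G)) h.isP h.inv inf_le_left h.Minv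
    inf_le_right h.leM inf_le_left (H1.Coprime2.le_normalizer_inf h.inv (H1.Coprime2.le_normalizer_centralizer hWA)) hc hc1
    (fun d hd hdc => le_inf inf_le_left ((inf_le_inf_right _ h.leM).trans (h47 d hd hdc)))
    (fun d hd hdc => H1.Coprime2.le_normalizer_inf (inf_le_left.trans inf_le_right)
      ((h47 d hd hdc).trans le_normalizer))
  · have h6 : Z ≤ centralizer (W : Set G) := hZP.trans (h.pM.trans (hQ.trans inf_le_right))
    apply hZY
    have h2 : ⁅⁅Sy D r, Z⁆, Z⁆ = ⊥ := commutator_eq_bot_iff_le_centralizer.2 (le_centralizer_iff.1 h6)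
    have h3 := H1.Coprime2.commutator_eq_bot_of Z (Sy D r) hZYn hcop (Or.inl hZs) h2
    exact le_centralizer_iff.1 (commutator_eq_bot_iff_le_centralizer.1 h3)

end Good

end H14.AbCent
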