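import Cfsg.Agent.Lib.H14.AbCentE
import Cfsg.Agent.Lib.H88.Eng
import Cfsg.Agent.Lib.H39.KTrans
import Cfsg.Agent.Lib.H4.Burnside
import Mathlib.GroupTheory.Focal

/-!
# Coprime action of `C_q × C_q` with abelian fixed point subgroups: primes `p ≥ 5` are good
-/

set_option autoImplicit false

namespace H14.AbCent

open Cfsg Subgroup
open scoped Pointwise commutatorElement
open H28.RelSyl (IsSyl)
open H12.Nil (Sy Sy_le isPGroup_Sy normalizer_le_normalizer_Sy)

universe u

variable {G : Type u} [Group G] [Finite G] {q : ℕ} {A K : Subgroup G}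

theorem le_comm_of_normal_syl {p : ℕ} [Fact p.Prime] {M P : Subgroup G} (hP : IsSyl p P M) (hMP : M ≤ normalizer (P : Set G))
    (h : P ≤ ⁅M, M⁆) : P ≤ ⁅P, M⁆ := by
  have h1 := Subgroup.commutator_inf_eq_focalSubgroup (P := hP.toSylow)
  have h2 : ((hP.toSylow : Subgroup ↥M)) ≤ ⁅(hP.toSylow : Subgroup ↥M), ⊤⁆ := by
    have h3 : ((hP.toSylow : Subgroup ↥M)) ≤ _root_.commutator ↥M ⊓ (hP.toSylow : Subgroup ↥M) := by
      refine le_inf ?_ le_rfl
      intro x hx
      have hxP : (x : G) ∈ P := by
        rw [hP.coe_toSylow] at hx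
        exact hx
      have h4 := h hxP
      have h5 : ((⁅(⊤ : Subgroup ↥M), (⊤ : Subgroup ↥M)⁆ : Subgroup ↥M)).map M.subtype = ⁅M, M⁆ := by
        rw [Subgroup.map_commutator, ← MonoidHom.range_eq_map, Subgroup.range_subtype]
      rw [← h5] at h4
      obtain ⟨y, hy, hyx⟩ := h4
      have : y = x := Subtype.ext hyx
      rw [commutator_def, ← this]
      exact hy
    refine h3.trans ?_
    rw [h1, Subgroup.focalSubgroup_def, closure_le]
    rintro g ⟨hg, x, hx, u, rfl⟩
    exact Subgroup.commutator_mem_commutator hx (mem_top u)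
  have h3 := Subgroup.map_mono (f := M.subtype) h2
  rw [Subgroup.map_commutator, hP.map_toSylow, ← MonoidHom.range_eq_map, Subgroup.range_subtype] at h3
  exact h3

theorem Min.perfect (h : Min q A K) : ⁅K, K⁆ = K := by
  apply h.simple _ (H1.Coprime2.commutator_le_left le_normalizer) (H1.Coprime2.le_normalizer_commutator h.norm h.norm)
    (H1.Coprime2.le_normalizer_commutator_left _ _)
  intro h1
  apply h.nsolv
  apply solvable_of_comm
  intro x hx y hy
  have h2 : ⁅x, y⁆ ∈ ⁅K, K⁆ := Subgroup.commutator_mem_commutator hx hy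
  rw [h1, Subgroup.mem_bot, commutatorElement_eq_one_iff_mul_comm] at h2
  exact h2

theorem Min.good (h : Min q A K) {p : ℕ} (hp : p.Prime) (h5 : 5 ≤ p) (hpd : p ∣ Nat.card K) : ∃ P, Good q A K p P := by
  haveI := Fact.mk hp
  obtain ⟨P, hP, hPA⟩ := h.toSetup.exists_syl p le_rfl h.norm
  have hPne : P ≠ ⊥ := hP.ne_bot hpd
  have hPs : Group.IsSolvable P := by
    haveI := hP.isPGroup.isNilpotent
    infer_instance
  have hW : H88.Eng.IsFun.{u} p kInfLower := by
    have := H39.KInf.kInfLower_isCharPFunctor.{u} p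
    exact ⟨this.1, this.2⟩
  set W := inducedFunctor kInfLower P with hWdef
  have hWle : W ≤ P := H88.Eng.sub_le kInfLower P
  have hWne : W ≠ ⊥ := H88.Eng.sub_ne hW hP.isPGroup hPne
  have hWn : ∀ g ∈ normalizer (P : Set G), g ∈ normalizer (W : Set G) := fun g hg => H88.Eng.sub_norm hW hP.isPGroup hg
  have hWs : Group.IsSolvable W := H1.Coprime.isSolvable_of_le hWle hPs
  have hWA : A ≤ normalizer (W : Set G) := fun a ha => hWn a (hPA ha)
  set N := K ⊓ normalizer (W : Set G) with hN
  have hNK : N ≤ K := inf_le_left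
  have hNA : A ≤ normalizer (N : Set G) := H1.Coprime2.le_normalizer_inf h.norm (H1.Coprime2.le_normalizer_normalizer hWA)
  have hNne : N ≠ K := h.norm_ne (hWle.trans hP.le) hWA hWs hWne
  have hNn := h.nil hNK hNA hNne
  have hPN : P ≤ N := le_inf hP.le fun x hx => hWn x (le_normalizer hx)
  -- transfer
  have hPN' : P ≤ ⁅N, N⁆ := by
    have h1 := H39.KTrans.kInf_inf_commutator h5 (W := kInfLower) (Or.inl rfl) hP.toSylow
    have hc : _root_.commutator ↥K = ⊤ := by
      apply Subgroup.map_injective K.subtype_injective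
      rw [commutator_def, Subgroup.map_commutator, ← MonoidHom.range_eq_map, Subgroup.range_subtype, h.perfect]
    rw [hc, inf_top_eq] at h1
    have h2 := Subgroup.map_mono (f := K.subtype) (h1.le.trans inf_le_right)
    rw [hP.map_toSylow, Subgroup.map_commutator] at h2
    have h3 : (Subgroup.normalizer ((inducedFunctor kInfLower (hP.toSylow : Subgroup ↥K) : Subgroup ↥K) : Set ↥K)).map K.subtype
        = N := by
      have h4 := H39.Sect.map_inf_normalizer K.subtype_injective ⊤ (inducedFunctor kInfLower (hP.toSylow : Subgroup ↥K))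
      rw [top_inf_eq, ← MonoidHom.range_eq_map, Subgroup.range_subtype,
        ← H39.Sect.ind_map (H39.KInf.kInfLower_isCharPFunctor p) K.subtype_injective hP.toSylow.2, hP.map_toSylow] at h4
      exact h4
    rw [h3] at h2
    exact h2
  -- `P` is normal in `N`
  have hPS : Sy ⁅N, N⁆ p = P := by
    have h1 : P ≤ Sy ⁅N, N⁆ p := H12.Nil.le_Sy hNn hPN' hP.isPGroup
    exact hP.eq_of_le (isPGroup_Sy _ _) h1
      ((Sy_le _ _).trans ((H1.Coprime2.commutator_le_left le_normalizer).trans hNK))
  have hNP : N ≤ normalizer (P : Set G) := by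
    have h1 := (H1.Coprime2.le_normalizer_commutator_left N N).trans (normalizer_le_normalizer_Sy hNn p)
    rwa [hPS] at h1
  have hNM : N = K ⊓ normalizer (P : Set G) :=
    le_antisymm (le_inf hNK hNP) (inf_le_inf_left _ fun x hx => hWn x hx)
  refine ⟨P, ⟨h, hp, hP, hPA, hPne, ?_⟩⟩
  rw [← hNM]
  exact le_comm_of_normal_syl (hP.of_le_of_le hPN hNK) hNP hPN'

/-- the minimal configuration does not exist -/
theorem Min.false (h : Min q A K) : False := by
  -- some prime at least `5` divides `|K|`
  obtain ⟨p, hp, h5, hpd⟩ : ∃ p : ℕ, p.Prime ∧ 5 ≤ p ∧ p ∣ Nat.card K := by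
    by_contra hcon
    push Not at hcon
    apply h.nsolv
    have h1 : ∀ r : ℕ, r.Prime → r ∣ Nat.card K → r = 2 ∨ r = 3 := by
      intro r hr hrd
      have h2 : r < 5 := by
        by_contra h3
        exact hcon r hr (by omega) hrd
      interval_cases r
      · exact absurd hr (by norm_num)
      · exact absurd hr (by norm_num)
      · exact Or.inl rfl
      · exact Or.inr rfl
      · exact absurd hr (by norm_num)
    obtain ⟨a, m, hm2, hm⟩ := Nat.exists_eq_pow_mul_and_not_dvd (Nat.card_pos (α := K)).ne' 2 (by norm_num)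
    have hm0 : m ≠ 0 := by
      rintro rfl
      exact hm2 (dvd_zero _)
    have hm3 : m = 3 ^ m.primeFactorsList.length := by
      apply Nat.eq_prime_pow_of_unique_prime_dvd hm0
      intro d hd hdm
      rcases h1 d hd (by rw [hm]; exact Dvd.dvd.mul_left hdm _) with h2 | h2
      · rw [h2] at hdm
        exact absurd hdm hm2
      · exact h2
    exact H4.Burnside.isSolvable_of_card_eq 2 3 Nat.prime_two Nat.prime_three _ ↥K rfl
      ⟨a, m.primeFactorsList.length, by rw [← hm3]; exact hm⟩
  obtain ⟨P, hP⟩ := h.good hp h5 hpd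
  exact hP.false

end H14.AbCent
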