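import Cfsg.Agent.Lib.H14.AbCentF

/-!
# Coprime action of `C_q × C_q` with abelian fixed point subgroups: the group is soluble
-/

set_option autoImplicit false

namespace H14.AbCent

open Cfsg Subgroup
open scoped Pointwise commutatorElement

universe u

/-- `A ≅ C_q × C_q` acts coprimely on `K`, with abelian `C_K(a)`, `a ≠ 1`. -/
structure SetupW {G : Type u} [Group G] (q : ℕ) (A K : Subgroup G) : Prop where
  hq : q.Prime
  el : Cfsg.IsElementaryAbelian q A
  card : Nat.card A = q ^ 2
  norm : A ≤ normalizer (K : Set G)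
  cop : ¬ q ∣ Nat.card K
  ab : ∀ a ∈ A, a ≠ 1 → ∀ x ∈ K, x * a = a * x → ∀ y ∈ K, y * a = a * y → x * y = y * x

namespace SetupW

variable {G : Type u} [Group G] [Finite G] {q : ℕ} {A K : Subgroup G}

theorem sub (h : SetupW q A K) {H : Subgroup G} (hH : H ≤ K) (hA : A ≤ normalizer (H : Set G)) : SetupW q A H where
  hq := h.hq
  el := h.el
  card := h.card
  norm := hA
  cop := fun h1 => h.cop (h1.trans (Subgroup.card_dvd_of_le hH))
  ab := fun a ha ha1 x hx hxa y hy hya => h.ab a ha ha1 x (hH hx) hxa y (hH hy) hya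

omit [Finite G] in
theorem comm (h : SetupW q A K) {a b : G} (ha : a ∈ A) (hb : b ∈ A) : a * b = b * a :=
  congrArg Subtype.val (h.el.1.is_comm.comm ⟨a, ha⟩ ⟨b, hb⟩)

theorem coprime (h : SetupW q A K) : (Nat.card A).Coprime (Nat.card K) := by
  rw [h.card]
  exact Nat.Coprime.pow_left _ ((Nat.Prime.coprime_iff_not_dvd h.hq).2 h.cop)

theorem order (h : SetupW q A K) {a : G} (ha : a ∈ A) (ha1 : a ≠ 1) : orderOf a = q := by
  rcases (Nat.dvd_prime h.hq).1 (orderOf_dvd_of_pow_eq_one (h.el.2 a ha)) with h1 | h1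
  · exact absurd (orderOf_eq_one_iff.1 h1) ha1
  · exact h1

theorem zcoprime (h : SetupW q A K) {a : G} (ha : a ∈ A) (ha1 : a ≠ 1) :
    (Nat.card (zpowers a)).Coprime (Nat.card K) := by
  rw [Nat.card_zpowers, h.order ha ha1]
  exact (Nat.Prime.coprime_iff_not_dvd h.hq).2 h.cop

theorem gen (h : SetupW q A K) {M : Subgroup G} (hM : ∀ a ∈ A, a ≠ 1 → K ⊓ centralizer {a} ≤ M) : K ≤ M := by
  haveI := Fact.mk h.hq
  exact H27.GenSub.le_of_centralizers q A K M h.el h.card.ge h.norm h.cop hM

theorem subgroupOf (h : SetupW q A K) {Y : Subgroup G} (hAY : A ≤ Y) (hKY : K ≤ Y) :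
    SetupW q (A.subgroupOf Y) (K.subgroupOf Y) := by
  refine ⟨h.hq, ⟨⟨⟨?_⟩⟩, ?_⟩, ?_, ?_, ?_, ?_⟩
  · rintro ⟨x, hx⟩ ⟨y, hy⟩
    apply Subtype.ext
    apply Subtype.ext
    exact h.comm hx hy
  · intro x hx
    exact Subtype.ext (h.el.2 x hx)
  · rw [H28.RelSyl.card_subgroupOf hAY, h.card]
  · exact H30.FrobAct.normalizer_subgroupOf_le h.norm
  · rw [H28.RelSyl.card_subgroupOf hKY]; exact h.cop
  · intro a ha ha1 x hx hxa y hy hya
    exact Subtype.ext (h.ab a ha (fun h1 => ha1 (Subtype.ext h1)) x hx (congrArg Subtype.val hxa) y hy (congrArg Subtype.val hya))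

theorem quot (h : SetupW q A K) (N : Subgroup G) [N.Normal] (hNK : N ≤ K) :
    SetupW q (A.map (QuotientGroup.mk' N)) (K.map (QuotientGroup.mk' N)) := by
  have hcN : (Nat.card A).Coprime (Nat.card N) := Nat.Coprime.coprime_dvd_right (Subgroup.card_dvd_of_le hNK) h.coprime
  refine ⟨h.hq, ⟨⟨⟨?_⟩⟩, ?_⟩, ?_, ?_, ?_, ?_⟩
  · rintro ⟨_, ⟨x, hx, rfl⟩⟩ ⟨_, ⟨y, hy, rfl⟩⟩
    apply Subtype.ext
    change QuotientGroup.mk' N x * QuotientGroup.mk' N y = QuotientGroup.mk' N y * QuotientGroup.mk' N x
    rw [← map_mul, ← map_mul, h.comm hx hy]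
  · rintro _ ⟨x, hx, rfl⟩
    rw [← map_pow, h.el.2 x hx, map_one]
  · rw [H30.FrobAct.card_map_of_disjoint N A (H1.Coprime.inf_eq_bot_of_coprime_card hcN), h.card]
  · exact (Subgroup.map_mono h.norm).trans (Subgroup.le_normalizer_map _)
  · exact fun h1 => h.cop (h1.trans (Subgroup.card_map_dvd _ _))
  · rintro _ ⟨a, ha, rfl⟩ ha1 x hx hxa y hy hya
    have ha1' : a ≠ 1 := by rintro rfl; exact ha1 (map_one _)
    have hc : (Nat.card (zpowers a)).Coprime (Nat.card N) :=
      Nat.Coprime.coprime_dvd_right (Subgroup.card_dvd_of_le hNK) (h.zcoprime ha ha1')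
    obtain ⟨x', hx', hxa', rfl⟩ := lift_cent hNK (h.norm ha) hc hx hxa
    obtain ⟨y', hy', hya', rfl⟩ := lift_cent hNK (h.norm ha) hc hy hya
    rw [← map_mul, ← map_mul, h.ab a ha ha1' x' hx' hxa' y' hy' hya']

end SetupW

theorem solvable_main (n : ℕ) : ∀ {G : Type u} [Group G] [Finite G] {q : ℕ} {A K : Subgroup G}, SetupW q A K →
    Nat.card K ≤ n → Group.IsSolvable K := by
  induction n with
  | zero =>
    intro G _ _ q A K h hn
    have := Nat.card_pos (α := K)
    omega
  | succ n ih =>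
    intro G _ _ q A K h hn
    by_contra hns
    have hT1 : ∀ H : Subgroup G, H ≤ K → A ≤ normalizer (H : Set G) → H ≠ K → Group.IsSolvable H := by
      intro H hH hHA hne
      apply ih (h.sub hH hHA)
      have h1 : Nat.card H < Nat.card K := by
        apply lt_of_le_of_ne (Nat.card_le_card_of_injective _ (Subgroup.inclusion_injective hH))
        intro h2
        exact hne (Subgroup.eq_of_le_of_card_ge hH h2.ge)
      omega
    have hT2 : ∀ N : Subgroup G, N ≤ K → A ≤ normalizer (N : Set G) → K ≤ normalizer (N : Set G) → N ≠ ⊥ → N = K := by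
      intro N hNK hNA hKN hN1
      by_contra hne
      have hNs := hT1 N hNK hNA hne
      apply hns
      set Y := normalizer (N : Set G) with hY
      have hNY : N ≤ Y := le_normalizer
      haveI hNn : (N.subgroupOf Y).Normal := Subgroup.normal_in_normalizer
      have h1 := (h.subgroupOf hNA hKN).quot (N.subgroupOf Y) (fun x hx => hNK hx)
      set π := QuotientGroup.mk' (N.subgroupOf Y) with hπ
      have hcard : Nat.card ((K.subgroupOf Y).map π) ≤ n := by
        have h2 : Nat.card (N.subgroupOf Y) * Nat.card ((K.subgroupOf Y).map π) = Nat.card (K.subgroupOf Y) :=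
          H1.Cores.card_map_mk' _ _ (fun x hx => hNK hx)
        rw [H28.RelSyl.card_subgroupOf hNY, H28.RelSyl.card_subgroupOf hKN] at h2
        have h3 : 1 < Nat.card N := (Subgroup.one_lt_card_iff_ne_bot N).2 hN1
        have h4 : 0 < Nat.card ((K.subgroupOf Y).map π) := Nat.card_pos
        nlinarith
      have h2 := ih h1 hcard
      haveI := hNs
      haveI := h2
      let g : ↥K →* ↥((K.subgroupOf Y).map π) := (π.subgroupMap (K.subgroupOf Y)).comp
        (Subgroup.subgroupOfEquivOfLe hKN).symm.toMonoidHom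
      refine Group.isSolvable_of_ker_le_range (Subgroup.inclusion hNK) g ?_
      intro x hx
      rw [MonoidHom.mem_ker] at hx
      have h3 : π ⟨(x : G), hKN x.2⟩ = 1 := congrArg Subtype.val hx
      have h4 : (x : G) ∈ N := (QuotientGroup.eq_one_iff (N := N.subgroupOf Y) _).1 h3
      exact ⟨⟨x, h4⟩, Subtype.ext rfl⟩
    have hT3 : K ⊓ centralizer (A : Set G) = ⊥ := by
      by_contra hne
      have hA : A ≤ normalizer ((K ⊓ centralizer (A : Set G) : Subgroup G) : Set G) :=
        H1.Coprime2.le_normalizer_inf h.norm (H1.Coprime2.le_normalizer_centralizer le_normalizer)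
      have hK : K ≤ centralizer ((K ⊓ centralizer (A : Set G) : Subgroup G) : Set G) := by
        apply h.gen
        intro a ha ha1 x hx
        have hx' := mem_cent.1 hx
        rw [mem_centralizer_iff]
        intro z hz
        have hz' : z ∈ K ⊓ centralizer (A : Set G) := hz
        rw [Subgroup.mem_inf, mem_centralizer_iff] at hz'
        exact h.ab a ha ha1 z hz'.1 (hz'.2 a ha).symm x hx'.1 hx'.2
      have h1 := hT2 _ inf_le_left hA (hK.trans (centralizer_le_normalizer _)) hne
      apply hns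
      apply solvable_of_comm
      intro x hx y hy
      rw [h1] at hK
      exact mem_centralizer_iff.1 (hK hy) x hx
    have hS : Setup q A K := ⟨h.hq, h.el, h.card, h.norm, h.cop, hT3, h.ab⟩
    exact (Min.mk hS hT2 hT1 hns).false

theorem result {A G : Type*} [Group A] [Finite A] [Group G] [Finite G] [MulDistribMulAction A G] (q : ℕ) (hq : q.Prime)
    (hA : Nat.card A = q ^ 2) (hnc : ¬ IsCyclic A) (hcop : ¬ q ∣ Nat.card G)
    (h : ∀ a : A, a ≠ 1 → IsMulCommutative ↥(FixedPoints.subgroup (Subgroup.zpowers a) G)) : Group.IsSolvable G := by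
  haveI := Fact.mk hq
  have hcomm : ∀ a b : A, a * b = b * a := by
    letI := IsPGroup.commGroupOfCardEqPrimeSq hA
    exact fun a b => mul_comm a b
  have hexp : ∀ a : A, a ^ q = 1 := by
    intro a
    have h1 : orderOf a ∣ q ^ 2 := by rw [← hA]; exact orderOf_dvd_natCard a
    obtain ⟨k, hk, hk2⟩ := (Nat.dvd_prime_pow hq).1 h1
    have h2 : k ≠ 2 := by
      rintro rfl
      exact hnc (isCyclic_of_orderOf_eq_card a (by rw [hk2, hA]))
    have h3 : orderOf a ∣ q := by
      rw [hk2]
      exact (pow_dvd_pow q (by omega : k ≤ 1)).trans (by rw [pow_one])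
    exact orderOf_dvd_iff_pow_eq_one.1 h3
  let φ : A →* MulAut G := MulDistribMulAction.toMulAut A G
  let Γ := G ⋊[φ] A
  haveI : Finite Γ := Finite.of_equiv _ (SemidirectProduct.equivProd (φ := φ)).symm
  let i : G →* Γ := SemidirectProduct.inl
  let j : A →* Γ := SemidirectProduct.inr
  have hi : Function.Injective i := SemidirectProduct.inl_injective
  have hj : Function.Injective j := SemidirectProduct.inr_injective
  have hij : ∀ (a : A) (g : G), j a * i g * (j a)⁻¹ = i (a • g) := by
    intro a g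
    rw [← map_inv]
    exact (SemidirectProduct.inl_aut (φ := φ) a g).symm
  have hS : SetupW q j.range i.range := by
    refine ⟨hq, ⟨⟨⟨?_⟩⟩, ?_⟩, ?_, ?_, ?_, ?_⟩
    · rintro ⟨_, ⟨a, rfl⟩⟩ ⟨_, ⟨b, rfl⟩⟩
      apply Subtype.ext
      change j a * j b = j b * j a
      rw [← map_mul, hcomm, map_mul]
    · rintro _ ⟨a, rfl⟩
      rw [← map_pow, hexp, map_one]
    · rw [← hA]
      exact Nat.card_congr (MonoidHom.ofInjective hj).symm.toEquiv
    · apply H1.Coprime.le_normalizer_of_conj_mem
      rintro _ ⟨a, rfl⟩ _ ⟨g, rfl⟩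
      exact ⟨a • g, (hij a g).symm⟩
    · have : Nat.card i.range = Nat.card G := Nat.card_congr (MonoidHom.ofInjective hi).symm.toEquiv
      rw [this]; exact hcop
    · rintro _ ⟨a, rfl⟩ ha1 _ ⟨g, rfl⟩ hg _ ⟨k, rfl⟩ hk
      have ha1' : a ≠ 1 := by rintro rfl; exact ha1 (map_one j)
      have hfix : ∀ x : G, i x * j a = j a * i x → x ∈ FixedPoints.subgroup (Subgroup.zpowers a) G := by
        intro x hx
        have h1 : a • x = x := by
          apply hi
          rw [← hij, ← hx, mul_inv_cancel_right]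
        rintro ⟨m, n, rfl⟩
        have h2 : a ∈ MulAction.stabilizer A x := h1
        exact (Subgroup.zpow_mem _ h2 n : a ^ n ∈ MulAction.stabilizer A x)
      have h1 := (h a ha1').is_comm.comm ⟨g, hfix g hg⟩ ⟨k, hfix k hk⟩
      have h2 : g * k = k * g := congrArg Subtype.val h1
      rw [← map_mul, ← map_mul, h2]
  have h1 := solvable_main _ hS le_rfl
  exact Group.isSolvable_of_surjective (f := (MonoidHom.ofInjective hi).symm.toMonoidHom) (MonoidHom.ofInjective hi).symm.surjective

end H14.AbCent
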