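import Cfsg.Agent.Lib.H14.AbCentB
import Cfsg.Agent.Lib.H1.Tower
import Cfsg.Agent.Lib.H39.NPS

/-!
# Coprime action of `C_q × C_q` with abelian fixed point subgroups: soluble groups have nilpotent derived subgroup
-/

set_option autoImplicit false

namespace H14.AbCent

open Cfsg Subgroup
open scoped Pointwise commutatorElement

universe u

theorem normal_of {G : Type u} [Group G] {A K W : Subgroup G} (hKA : K ⊔ A = ⊤) (hK : K ≤ normalizer (W : Set G))
    (hA : A ≤ normalizer (W : Set G)) : W.Normal := by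
  rw [← Subgroup.normalizer_eq_top_iff, eq_top_iff, ← hKA]
  exact sup_le hK hA

theorem exists_minimal_normal {G : Type u} [Group G] [Finite G] {N : Subgroup G} (hN : N.Normal) (hne : N ≠ ⊥) :
    ∃ U : Subgroup G, U.Normal ∧ U ≤ N ∧ U ≠ ⊥ ∧ ∀ M : Subgroup G, M.Normal → M ≤ U → M = ⊥ ∨ M = U := by
  obtain ⟨U, ⟨hU1, hU2, hU3⟩, hmin⟩ := (Set.toFinite {U : Subgroup G | U.Normal ∧ U ≤ N ∧ U ≠ ⊥}).exists_minimal
    ⟨N, hN, le_rfl, hne⟩
  refine ⟨U, hU1, hU2, hU3, fun M hM hMU => ?_⟩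
  by_cases h : M = ⊥
  · exact Or.inl h
  · exact Or.inr (le_antisymm hMU (hmin ⟨hM, hMU.trans hU2, h⟩ hMU))

theorem score {G : Type u} [Group G] [Finite G] {q : ℕ} {A K : Subgroup G} (h : Setup q A K) [K.Normal]
    (hKA : K ⊔ A = ⊤) (hKs : Group.IsSolvable K) (U : Subgroup G) [hUn : U.Normal] (hUK : U ≤ K) (hU : U ≠ ⊥)
    (hmin : ∀ M : Subgroup G, M.Normal → M ≤ U → M = ⊥ ∨ M = U) : ⁅K, K⁆ ≤ centralizer (U : Set G) := by
  classical
  obtain ⟨p, hp, hUel⟩ := H30.FrobAct.min_elem U (H1.Coprime.isSolvable_of_le hUK hKs) hU hmin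
  haveI := Fact.mk hp
  have hUp : IsPGroup p U := fun x => ⟨1, by
    apply Subtype.ext
    rw [pow_one]
    exact hUel.2 x x.2⟩
  have hUc : ∀ x ∈ U, ∀ y ∈ U, x * y = y * x := fun x hx y hy =>
    congrArg Subtype.val (hUel.1.is_comm.comm ⟨x, hx⟩ ⟨y, hy⟩)
  have hUNil : Group.IsNilpotent U := hUp.isNilpotent
  set C := K ⊓ centralizer (U : Set G) with hC
  have hCn : C.Normal := by
    rw [hC]; infer_instance
  by_cases hCK : K ≤ C
  · exact (H1.Coprime2.commutator_le_left le_normalizer).trans (hCK.trans inf_le_right)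
  have hCK' : C ≤ K := inf_le_left
  have hCU : ∀ c ∈ C, ∀ u ∈ U, u * c = c * u := fun c hc u hu => mem_centralizer_iff.1 (Subgroup.mem_inf.1 hc).2 u hu
  set π := QuotientGroup.mk' C with hπ
  have hKbar : K.map π ≠ ⊥ := by
    rw [Ne, Subgroup.map_eq_bot_iff, QuotientGroup.ker_mk']
    exact hCK
  obtain ⟨Zb, hZb1, hZb2, hZb3, hZbmin⟩ := exists_minimal_normal
    (Subgroup.Normal.map (inferInstance : K.Normal) π (QuotientGroup.mk'_surjective C)) hKbar
  haveI := hZb1
  have hKbs : Group.IsSolvable (K.map π) := Group.isSolvable_of_surjective (π.subgroupMap_surjective K)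
  obtain ⟨r, hr, hZel⟩ := H30.FrobAct.min_elem Zb (H1.Coprime.isSolvable_of_le hZb2 hKbs) hZb3 hZbmin
  haveI := Fact.mk hr
  set Z := Zb.comap π with hZ
  haveI hZn : Z.Normal := Subgroup.Normal.comap hZb1 π
  have hCZ : C ≤ Z := by
    intro x hx
    rw [hZ, mem_comap]
    have : π x = 1 := (QuotientGroup.eq_one_iff _).2 hx
    rw [this]; exact Zb.one_mem
  have hZK : Z ≤ K := by
    intro x hx
    have h1 : π x ∈ K.map π := hZb2 hx
    obtain ⟨y, hy, hyx⟩ := h1
    have h2 : y⁻¹ * x ∈ C := by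
      apply (QuotientGroup.eq_one_iff _).1
      change π (y⁻¹ * x) = 1
      rw [map_mul, map_inv, hyx, inv_mul_cancel]
    have h3 : x = y * (y⁻¹ * x) := by group
    rw [h3]
    exact K.mul_mem hy (hCK' h2)
  have hZC : ¬ Z ≤ C := by
    intro h1
    apply hZb3
    rw [eq_bot_iff]
    intro z hz
    obtain ⟨x, rfl⟩ := QuotientGroup.mk'_surjective C z
    rw [Subgroup.mem_bot]
    exact (QuotientGroup.eq_one_iff _).2 (h1 hz)
  have hZcomm : ∀ x ∈ Z, ∀ y ∈ Z, ⁅x, y⁆ ∈ C := by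
    intro x hx y hy
    apply (QuotientGroup.eq_one_iff _).1
    change π ⁅x, y⁆ = 1
    rw [map_commutatorElement, commutatorElement_eq_one_iff_mul_comm]
    exact congrArg Subtype.val (hZel.1.is_comm.comm ⟨π x, hx⟩ ⟨π y, hy⟩)
  have hZpow : ∀ x ∈ Z, x ^ r ∈ C := by
    intro x hx
    apply (QuotientGroup.eq_one_iff _).1
    change π (x ^ r) = 1
    rw [map_pow]
    exact hZel.2 (π x) hx
  have hUZ : U ⊓ centralizer (Z : Set G) = ⊥ := by
    rcases hmin (U ⊓ centralizer (Z : Set G)) inferInstance inf_le_left with h1 | h1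
    · exact h1
    · exfalso
      apply hZC
      refine le_inf hZK ?_
      rw [le_centralizer_iff]
      exact inf_eq_left.1 h1
  have hrp : r ≠ p := by
    rintro rfl
    apply H39.NPS.inf_centralizer_ne_bot hUp hU (K := Z) _ hUZ
    intro k hk
    exact ⟨1, by rw [pow_one]; exact (Subgroup.mem_inf.1 (hZpow k hk)).2⟩
  have hAZ : A ≤ normalizer (Z : Set G) := by rw [Subgroup.normalizer_eq_top]; exact le_top
  have hAC : A ≤ normalizer (C : Set G) := by rw [Subgroup.normalizer_eq_top]; exact le_top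
  have hAU : A ≤ normalizer (U : Set G) := by rw [Subgroup.normalizer_eq_top]; exact le_top
  have hsZ := h.sub hZK hAZ
  obtain ⟨R, hRsyl, hRA⟩ := H1.Coprime2.exists_invariant_sylow A Z hAZ hsZ.coprime (Or.inl h.solv) r
  have hRZ : R ≤ Z := hRsyl.1
  have hRK := hRZ.trans hZK
  have hRr : IsPGroup r R := hRsyl.isPGroup
  have hZR : Z ≤ R ⊔ C := by
    refine (H1.Tower.cover hRsyl (N := C) fun x hx => ⟨1, by rw [pow_one]; exact hZpow x hx⟩).trans ?_
    exact sup_le_sup_left inf_le_left _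
  have hsR := h.sub hRK hRA
  obtain ⟨a, ha, ha1, haC⟩ : ∃ a ∈ A, a ≠ 1 ∧ ¬ R ⊓ centralizer ({a} : Set G) ≤ C := by
    by_contra hcon
    push Not at hcon
    exact hZC (hZR.trans (sup_le (hsR.gen hcon) le_rfl))
  set T := R ⊓ centralizer ({a} : Set G) with hT
  have hTR : T ≤ R := inf_le_left
  have hTr : IsPGroup r T := hRr.to_le hTR
  have hTa : ∀ t ∈ T, t * a = a * t := fun t ht => (mem_cent.1 ht).2
  have hTK := hTR.trans hRK
  have hTZ := hTR.trans hRZ
  have hTA : A ≤ normalizer (T : Set G) := h.inv_cent ha hRA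
  have hnU : ∀ X : Subgroup G, X ≤ normalizer (U : Set G) := fun X => by rw [Subgroup.normalizer_eq_top]; exact le_top
  have hTs : Group.IsSolvable T := H1.Coprime.isSolvable_of_le hTK hKs
  have hcopTU : (Nat.card T).Coprime (Nat.card U) := IsPGroup.coprime_card_of_ne r p hrp T U hTr hUp
  set W := ⁅U, T⁆ with hW
  have hWT : ⁅W, T⁆ = W := H1.Coprime2.commutator_commutator_eq T U (hnU T) hcopTU (Or.inl hTs)
  have hWU : W ≤ U := H1.Coprime2.commutator_le_left (hnU T)
  have hWK := hWU.trans hUK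
  have hWne : W ≠ ⊥ := by
    intro h1
    apply haC
    refine le_inf hTK ?_
    rw [le_centralizer_iff]
    exact commutator_eq_bot_iff_le_centralizer.1 h1
  have hWA : A ≤ normalizer (W : Set G) := H1.Coprime2.le_normalizer_commutator hAU hTA
  have hTW : T ≤ normalizer (W : Set G) := H1.Coprime2.le_normalizer_commutator_right _ _
  have hWNil : Group.IsNilpotent W := (hUp.to_le hWU).isNilpotent
  have hcopTW : (Nat.card T).Coprime (Nat.card W) := Nat.Coprime.coprime_dvd_right (Subgroup.card_dvd_of_le hWU) hcopTU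
  have hgen : ∀ d ∈ A, d ∉ zpowers a → ∀ M : Subgroup G, (∀ v ∈ W, v * d = d * v → v ∈ M) → T ≤ normalizer (M : Set G) → W ≤ M :=
    fun d hd hda M hM hTM => h.gen_comm ha ha1 hd hda hWK hWA hWNil hTA hTK hTa hTW hcopTW hWT hM hTM
  have hne1 : ∀ d : G, d ∉ zpowers a → d ≠ 1 := by
    rintro d hd rfl
    exact hd (one_mem _)
  -- `T_b` centralises `W`
  have hTb : ∀ b ∈ A, b ∉ zpowers a → R ⊓ centralizer ({b} : Set G) ≤ centralizer (W : Set G) := by
    intro b hb hba
    rw [le_centralizer_iff]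
    have h1 := hgen b hb hba (U ⊓ centralizer ((R ⊓ centralizer ({b} : Set G) : Subgroup G) : Set G)) ?_ ?_
    · exact h1.trans inf_le_right
    · intro v hv hvb
      rw [Subgroup.mem_inf, mem_centralizer_iff]
      refine ⟨hWU hv, fun s hs => ?_⟩
      have hs' := mem_cent.1 hs
      exact h.ab b hb (hne1 b hba) s (hRK hs'.1) hs'.2 v (hWK hv) hvb
    · apply H1.Coprime.le_normalizer_of_conj_mem
      intro t ht u hu
      rw [Subgroup.mem_inf, mem_centralizer_iff] at hu ⊢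
      refine ⟨hUn.conj_mem u hu.1 t, fun s hs => ?_⟩
      have hs' := mem_cent.1 hs
      have h2 : ⁅t⁻¹, s⁆ ∈ C := hZcomm _ (Z.inv_mem (hTZ ht)) _ (hRZ hs'.1)
      have h3 := hCU _ h2 u hu.1
      have h4 := hu.2 s hs
      have h5 : s * t = t * (⁅t⁻¹, s⁆ * s) := by rw [commutatorElement_def]; group
      calc s * (t * u * t⁻¹) = (s * t) * u * t⁻¹ := by group
        _ = t * (⁅t⁻¹, s⁆ * (s * u)) * t⁻¹ := by rw [h5]; group
        _ = t * ((⁅t⁻¹, s⁆ * u) * s) * t⁻¹ := by rw [h4]; group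
        _ = t * ((u * ⁅t⁻¹, s⁆) * s) * t⁻¹ := by rw [h3]
        _ = t * u * (t⁻¹ * (t * (⁅t⁻¹, s⁆ * s))) * t⁻¹ := by group
        _ = t * u * (t⁻¹ * (s * t)) * t⁻¹ := by rw [h5]
        _ = t * u * t⁻¹ * s := by group
  set Zc := Z ⊓ centralizer (W : Set G) with hZc
  have hCZc : C ≤ Zc := by
    refine le_inf hCZ (inf_le_right.trans (centralizer_le ?_))
    exact hWU
  have hZcZ : ∀ z ∈ Z, ∀ y ∈ Zc, z⁻¹ * y * z ∈ Zc := by
    intro z hz y hy
    have h1 : z⁻¹ * y * z = ⁅z⁻¹, y⁆ * y := by rw [commutatorElement_def]; group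
    rw [h1]
    exact Zc.mul_mem (hCZc (hZcomm _ (Z.inv_mem hz) _ (Subgroup.mem_inf.1 hy).1)) hy
  have hUZc : ∀ u ∈ U, (∀ z ∈ Zc, z * u = u * z) → u ∈ W := by
    intro u hu huz
    obtain ⟨w, hw, c, hc, rfl⟩ := H1.Coprime2.exists_mul_of_mem T U (hnU T) hcopTU (Or.inl hTs) hu
    have hcU : c ∈ U := (Subgroup.mem_inf.1 hc).1
    have hcT := mem_centralizer_iff.1 (Subgroup.mem_inf.1 hc).2
    have hcz : ∀ z ∈ Zc, z * c = c * z := by
      intro z hz
      have h1 := huz z hz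
      have h2 : w * z = z * w := mem_centralizer_iff.1 (Subgroup.mem_inf.1 hz).2 w hw
      calc z * c = w⁻¹ * (w * z) * c := by group
        _ = w⁻¹ * (z * (w * c)) := by rw [h2]; group
        _ = w⁻¹ * ((w * c) * z) := by rw [h1]
        _ = c * z := by group
    have hR : R ≤ centralizer ({c} : Set G) := by
      apply hsR.gen
      intro b hb hb1 x hx
      have hx' := mem_cent.1 hx
      rw [mem_centralizer_singleton_iff]
      by_cases hba : b ∈ zpowers a
      · have h1 : x ∈ T := mem_cent.2 ⟨hx'.1, h.comm_of_mem ha hb1 hba hx'.2⟩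
        exact hcT x h1
      · exact hcz x ⟨hRZ hx'.1, hTb b hb hba hx⟩
    have hCc : C ≤ centralizer ({c} : Set G) := by
      intro x hx
      rw [mem_centralizer_singleton_iff]
      exact (hCU x hx c hcU).symm
    have h3 : c ∈ U ⊓ centralizer (Z : Set G) := by
      rw [Subgroup.mem_inf, mem_centralizer_iff]
      refine ⟨hcU, fun z hz => ?_⟩
      exact mem_centralizer_singleton_iff.1 ((sup_le hR hCc) (hZR hz))
    rw [hUZ, Subgroup.mem_bot] at h3
    rw [h3, mul_one]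
    exact hw
  -- `W` is normal
  have hWK' : K ≤ normalizer (W : Set G) := by
    apply h.gen
    intro d hd hd1
    by_cases hda : d ∈ zpowers a
    · intro x hx
      have hx' := mem_cent.1 hx
      have hxa := h.comm_of_mem ha hd1 hda hx'.2
      have h1 : zpowers x ≤ normalizer (T : Set G) := by
        rw [zpowers_le]
        apply (centralizer_le_normalizer (T : Set G) : _)
        rw [mem_centralizer_iff]
        intro t ht
        exact h.ab a ha ha1 t (hTK ht) (hTa t ht) x hx'.1 hxa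
      exact H1.Coprime2.le_normalizer_commutator (hnU _) h1 (mem_zpowers x)
    · apply H1.Coprime.le_normalizer_of_conj_mem
      intro x₀ hx₀ w₀ hw₀
      -- use `x = x₀⁻¹`
      obtain ⟨x, hx, hxx⟩ : ∃ x ∈ K ⊓ centralizer ({d} : Set G), x₀ = x⁻¹ := ⟨x₀⁻¹, Subgroup.inv_mem _ hx₀, by simp⟩
      rw [hxx, inv_inv]
      have hx' := mem_cent.1 hx
      have h1 := hgen d hd hda (U ⊓ centralizer ({g | x⁻¹ * g * x ∈ Zc} : Set G)) ?_ ?_
      · apply hUZc
        · have := hUn.conj_mem _ (hWU hw₀) x⁻¹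
          simpa using this
        · intro z hz
          have h2 := h1 hw₀
          rw [Subgroup.mem_inf, mem_centralizer_iff] at h2
          have h3 := h2.2 (x * z * x⁻¹) (by
            change x⁻¹ * (x * z * x⁻¹) * x ∈ Zc
            have : x⁻¹ * (x * z * x⁻¹) * x = z := by group
            rw [this]; exact hz)
          calc z * (x⁻¹ * w₀ * x) = x⁻¹ * ((x * z * x⁻¹) * w₀) * x := by group
            _ = x⁻¹ * (w₀ * (x * z * x⁻¹)) * x := by rw [h3]
            _ = _ := by group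
      · intro v hv hvd
        rw [Subgroup.mem_inf, mem_centralizer_iff]
        refine ⟨hWU hv, fun g hg => ?_⟩
        have h2 : v * (x⁻¹ * g * x) = (x⁻¹ * g * x) * v := mem_centralizer_iff.1 (Subgroup.mem_inf.1 (show x⁻¹ * g * x ∈ Zc from hg)).2 v hv
        have h3 : x * v = v * x := h.ab d hd hd1 x hx'.1 hx'.2 v (hWK hv) hvd
        calc g * v = x * ((x⁻¹ * g * x) * (x⁻¹ * (v * x))) * x⁻¹ := by group
          _ = x * ((x⁻¹ * g * x) * (x⁻¹ * (x * v))) * x⁻¹ := by rw [h3]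
          _ = x * ((x⁻¹ * g * x) * v) * x⁻¹ := by group
          _ = x * (v * (x⁻¹ * g * x)) * x⁻¹ := by rw [h2]
          _ = (x * v) * (x⁻¹ * g) := by group
          _ = (v * x) * (x⁻¹ * g) := by rw [h3]
          _ = v * g := by group
      · apply H1.Coprime.le_normalizer_of_conj_mem
        intro t ht u hu
        rw [Subgroup.mem_inf, mem_centralizer_iff] at hu ⊢
        refine ⟨hUn.conj_mem u hu.1 t, fun g hg => ?_⟩
        have h2 : x⁻¹ * (t⁻¹ * g * t) * x ∈ Zc := by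
          have h3 : x⁻¹ * (t⁻¹ * g * t) * x = (x⁻¹ * t * x)⁻¹ * (x⁻¹ * g * x) * (x⁻¹ * t * x) := by group
          rw [h3]
          apply hZcZ _ _ _ hg
          have := hZn.conj_mem _ (hTZ ht) x⁻¹
          simpa using this
        have h3 := hu.2 (t⁻¹ * g * t) h2
        calc g * (t * u * t⁻¹) = t * ((t⁻¹ * g * t) * u) * t⁻¹ := by group
          _ = t * (u * (t⁻¹ * g * t)) * t⁻¹ := by rw [h3]
          _ = _ := by group
  have hWn := normal_of hKA hWK' hWA
  have hWeq : W = U := by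
    rcases hmin W hWn hWU with h1 | h1
    · exact absurd h1 hWne
    · exact h1
  -- now `U = [U, T]`
  have hZT : Z ≤ T ⊔ C := by
    refine hZR.trans (sup_le ?_ le_sup_right)
    apply hsR.gen
    intro b hb hb1 x hx
    have hx' := mem_cent.1 hx
    by_cases hba : b ∈ zpowers a
    · exact (le_sup_left : T ≤ _) (mem_cent.2 ⟨hx'.1, h.comm_of_mem ha hb1 hba hx'.2⟩)
    · apply (le_sup_right : C ≤ T ⊔ C)
      rw [hC]
      have := hTb b hb hba hx
      rw [hWeq] at this
      exact ⟨hRK hx'.1, this⟩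
  have hZT' : ∀ z ∈ Z, ∃ t ∈ T, ∃ c ∈ C, z = t * c := by
    intro z hz
    have h1 : z ∈ ((T ⊔ C : Subgroup G) : Set G) := hZT hz
    rw [Subgroup.mul_normal] at h1
    obtain ⟨t, ht, c, hc, hh⟩ := h1
    exact ⟨t, ht, c, hc, hh.symm⟩
  have hKC : ∀ d ∈ A, d ∉ zpowers a → ∀ x ∈ K, x * d = d * x → x ∈ C := by
    intro d hd hda x hx hxd
    -- `x` centralises `Z / C`
    have hxt : ∀ t ∈ T, t⁻¹ * (x * t * x⁻¹) ∈ C := by
      intro t ht
      obtain ⟨y, hy, hyd, hxy⟩ := h.lang le_rfl h.norm ha ha1 hd hda hx hxd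
      have h1 : y * t * y⁻¹ ∈ Z := hZn.conj_mem _ (hTZ ht) y
      obtain ⟨s, hs, c, hc, hsc⟩ := hZT' _ h1
      have h2 : a⁻¹ * t * a = t := by rw [mul_assoc, hTa t ht]; group
      have h3 : a * s * a⁻¹ = s := by rw [← hTa s hs]; group
      have h4 : x * t * x⁻¹ = t * (y⁻¹ * (c⁻¹ * (a * c * a⁻¹)) * y) := by
        calc x * t * x⁻¹ = y⁻¹ * (a * (y * (a⁻¹ * t * a) * y⁻¹) * a⁻¹) * y := by rw [hxy]; group
          _ = y⁻¹ * (a * (s * c) * a⁻¹) * y := by rw [h2, hsc]
          _ = y⁻¹ * ((a * s * a⁻¹) * (a * c * a⁻¹)) * y := by group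
          _ = y⁻¹ * (s * (a * c * a⁻¹)) * y := by rw [h3]
          _ = y⁻¹ * ((s * c) * (c⁻¹ * (a * c * a⁻¹))) * y := by group
          _ = y⁻¹ * ((y * t * y⁻¹) * (c⁻¹ * (a * c * a⁻¹))) * y := by rw [hsc]
          _ = t * (y⁻¹ * (c⁻¹ * (a * c * a⁻¹)) * y) := by group
      have h5 : t⁻¹ * (x * t * x⁻¹) = y⁻¹ * (c⁻¹ * (a * c * a⁻¹)) * y := by rw [h4]; group
      rw [h5]
      have h6 : c⁻¹ * (a * c * a⁻¹) ∈ C := C.mul_mem (C.inv_mem hc) (hCn.conj_mem _ hc a)
      have := hCn.conj_mem _ h6 y⁻¹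
      simpa using this
    rw [hC]
    refine ⟨hx, ?_⟩
    have h7 := hgen d hd hda (U ⊓ centralizer ({x} : Set G)) ?_ ?_
    · rw [hWeq] at h7
      change x ∈ centralizer (U : Set G)
      rw [mem_centralizer_iff]
      intro u hu
      exact mem_centralizer_singleton_iff.1 (Subgroup.mem_inf.1 (h7 hu)).2
    · intro v hv hvd
      rw [Subgroup.mem_inf, mem_centralizer_singleton_iff]
      exact ⟨hWU hv, h.ab d hd (hne1 d hda) v (hWK hv) hvd x hx hxd⟩
    · apply H1.Coprime.le_normalizer_of_conj_mem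
      intro t ht u hu
      rw [Subgroup.mem_inf, mem_centralizer_singleton_iff] at hu ⊢
      refine ⟨hUn.conj_mem u hu.1 t, ?_⟩
      set c := t⁻¹ * (x * t * x⁻¹) with hc
      have hc1 : x * t = t * c * x := by rw [hc]; group
      have h3 := hCU c (hxt t ht) u hu.1
      have h8 : x * (t * u * t⁻¹) * x⁻¹ = t * u * t⁻¹ := by
        calc x * (t * u * t⁻¹) * x⁻¹ = (x * t) * u * (x * t)⁻¹ := by group
          _ = (t * c * x) * u * (t * c * x)⁻¹ := by rw [hc1]
          _ = t * (c * (x * u) * x⁻¹ * c⁻¹) * t⁻¹ := by group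
          _ = t * (c * (u * x) * x⁻¹ * c⁻¹) * t⁻¹ := by rw [hu.2]
          _ = t * ((c * u) * c⁻¹) * t⁻¹ := by group
          _ = t * ((u * c) * c⁻¹) * t⁻¹ := by rw [h3]
          _ = _ := by group
      exact (mul_inv_eq_iff_eq_mul.1 h8).symm
  -- conclusion
  have hKX : K ≤ (K ⊓ centralizer ({a} : Set G)) ⊔ C := by
    apply h.gen
    intro d hd hd1 x hx
    have hx' := mem_cent.1 hx
    by_cases hda : d ∈ zpowers a
    · exact (le_sup_left : K ⊓ centralizer ({a} : Set G) ≤ _) (mem_cent.2 ⟨hx'.1, h.comm_of_mem ha hd1 hda hx'.2⟩)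
    · exact (le_sup_right : C ≤ (K ⊓ centralizer ({a} : Set G)) ⊔ C) (hKC d hd hda x hx'.1 hx'.2)
  have hKX' : ∀ k ∈ K, ∃ x ∈ K ⊓ centralizer ({a} : Set G), ∃ c ∈ C, k = x * c := by
    intro z hz
    have h1 : z ∈ ((K ⊓ centralizer ({a} : Set G) ⊔ C : Subgroup G) : Set G) := hKX hz
    rw [Subgroup.mul_normal] at h1
    obtain ⟨t, ht, c, hc, hh⟩ := h1
    exact ⟨t, ht, c, hc, hh.symm⟩
  refine le_trans ?_ (inf_le_right : C ≤ centralizer (U : Set G))
  rw [Subgroup.commutator_le]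
  intro k₁ hk₁ k₂ hk₂
  obtain ⟨x₁, hx₁, c₁, hc₁, rfl⟩ := hKX' k₁ hk₁
  obtain ⟨x₂, hx₂, c₂, hc₂, rfl⟩ := hKX' k₂ hk₂
  have hx₁' := mem_cent.1 hx₁
  have hx₂' := mem_cent.1 hx₂
  have h1 := h.ab a ha ha1 x₁ hx₁'.1 hx₁'.2 x₂ hx₂'.1 hx₂'.2
  apply (QuotientGroup.eq_one_iff _).1
  change π ⁅x₁ * c₁, x₂ * c₂⁆ = 1
  have h2 : π c₁ = 1 := (QuotientGroup.eq_one_iff _).2 hc₁
  have h3 : π c₂ = 1 := (QuotientGroup.eq_one_iff _).2 hc₂
  rw [map_commutatorElement, map_mul, map_mul, h2, h3, mul_one, mul_one, commutatorElement_eq_one_iff_mul_comm,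
    ← map_mul, ← map_mul, h1]

/-- lifting fixed points of an element of coprime order -/
theorem lift_cent {G : Type u} [Group G] [Finite G] {K N : Subgroup G} [N.Normal] (hNK : N ≤ K) {a : G}
    (ha : a ∈ normalizer (K : Set G)) (hc : (Nat.card (zpowers a)).Coprime (Nat.card N)) {x : G ⧸ N}
    (hx : x ∈ K.map (QuotientGroup.mk' N)) (hxa : x * QuotientGroup.mk' N a = QuotientGroup.mk' N a * x) :
    ∃ y ∈ K, y * a = a * y ∧ QuotientGroup.mk' N y = x := by
  have h1 := H1.Coprime.map_inf_centralizer (zpowers a) K N (by rwa [zpowers_le]) hc (Or.inl (Setup.zsolv a)) hNK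
  have h2 : x ∈ K.map (QuotientGroup.mk' N) ⊓ centralizer (((zpowers a).map (QuotientGroup.mk' N) : Subgroup _) : Set _) := by
    rw [MonoidHom.map_zpowers, inf_centralizer_zpowers]
    exact mem_cent.2 ⟨hx, hxa⟩
  rw [h1] at h2
  obtain ⟨y, hy, rfl⟩ := h2
  rw [inf_centralizer_zpowers] at hy
  have hy' := mem_cent.1 hy
  exact ⟨y, hy'.1, hy'.2, rfl⟩

theorem Setup.quot {G : Type u} [Group G] [Finite G] {q : ℕ} {A K : Subgroup G} (h : Setup q A K) (N : Subgroup G) [N.Normal]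
    (hNK : N ≤ K) : Setup q (A.map (QuotientGroup.mk' N)) (K.map (QuotientGroup.mk' N)) := by
  have hcN : (Nat.card A).Coprime (Nat.card N) := Nat.Coprime.coprime_dvd_right (Subgroup.card_dvd_of_le hNK) h.coprime
  refine ⟨h.hq, ⟨⟨⟨?_⟩⟩, ?_⟩, ?_, ?_, ?_, ?_, ?_⟩
  · rintro ⟨_, ⟨x, hx, rfl⟩⟩ ⟨_, ⟨y, hy, rfl⟩⟩
    apply Subtype.ext
    change QuotientGroup.mk' N x * QuotientGroup.mk' N y = QuotientGroup.mk' N y * QuotientGroup.mk' N x
    rw [← map_mul, ← map_mul, h.comm hx hy]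
  · rintro _ ⟨x, hx, rfl⟩
    rw [← map_pow, h.pow_q hx, map_one]
  · rw [H30.FrobAct.card_map_of_disjoint N A (H1.Coprime.inf_eq_bot_of_coprime_card hcN), h.card]
  · exact (Subgroup.map_mono h.norm).trans (Subgroup.le_normalizer_map _)
  · exact fun h1 => h.cop (h1.trans (Subgroup.card_map_dvd _ _))
  · rw [H1.Coprime.map_inf_centralizer A K N h.norm hcN (Or.inl h.solv) hNK, h.fix, Subgroup.map_bot]
  · rintro _ ⟨a, ha, rfl⟩ ha1 x hx hxa y hy hya
    have ha1' : a ≠ 1 := by rintro rfl; exact ha1 (map_one _)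
    have hc : (Nat.card (zpowers a)).Coprime (Nat.card N) :=
      Nat.Coprime.coprime_dvd_right (Subgroup.card_dvd_of_le hNK) (h.zcoprime ha ha1')
    obtain ⟨x', hx', hxa', rfl⟩ := lift_cent hNK (h.norm ha) hc hx hxa
    obtain ⟨y', hy', hya', rfl⟩ := lift_cent hNK (h.norm ha) hc hy hya
    rw [← map_mul, ← map_mul, h.ab a ha ha1' x' hx' hxa' y' hy' hya']

theorem nil_comm_normal (n : ℕ) : ∀ {G : Type u} [Group G] [Finite G] {q : ℕ} {A K : Subgroup G}, Setup q A K → K.Normal →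
    K ⊔ A = ⊤ → Group.IsSolvable K → Nat.card K ≤ n → Group.IsNilpotent ↥⁅K, K⁆ := by
  induction n with
  | zero =>
    intro G _ _ q A K h _ _ _ hn
    have := Nat.card_pos (α := K)
    omega
  | succ n ih =>
    intro G _ _ q A K h hK hKA hKs hn
    by_cases hK1 : K = ⊥
    · rw [hK1, Subgroup.commutator_bot_left]
      infer_instance
    obtain ⟨U, hUn, hUK, hU, hmin⟩ := exists_minimal_normal hK hK1
    have h1 := score h hKA hKs U hUK hU hmin
    set π := QuotientGroup.mk' U with hπ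
    have h2 := h.quot U hUK
    have hKn : (K.map π).Normal := Subgroup.Normal.map hK π (QuotientGroup.mk'_surjective U)
    have hcard : Nat.card (K.map π) ≤ n := by
      have h3 : Nat.card (K.map π) < Nat.card K := by
        have h4 : Nat.card (K.map π) * Nat.card U = Nat.card K := by
          rw [mul_comm]
          exact H1.Cores.card_map_mk' U K hUK
        have h6 : 1 < Nat.card U := (Subgroup.one_lt_card_iff_ne_bot U).2 hU
        have h7 : 0 < Nat.card (K.map π) := Nat.card_pos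
        nlinarith
      omega
    have h3 := ih h2 hKn (by
      rw [← Subgroup.map_sup, hKA, ← MonoidHom.range_eq_map, MonoidHom.range_eq_top]
      exact QuotientGroup.mk'_surjective U) (Group.isSolvable_of_surjective (π.subgroupMap_surjective K)) hcard
    rw [← Subgroup.map_commutator] at h3
    haveI := h3
    refine _root_.isNilpotent_of_ker_le_center (π.subgroupMap ⁅K, K⁆) ?_
    intro x hx
    rw [MonoidHom.mem_ker] at hx
    have hxU : (x : G) ∈ U := (QuotientGroup.eq_one_iff _).1 (congrArg Subtype.val hx)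
    rw [Subgroup.mem_center_iff]
    intro y
    apply Subtype.ext
    exact (mem_centralizer_iff.1 (h1 y.2) _ hxU).symm

theorem Setup.subgroupOf {G : Type u} [Group G] [Finite G] {q : ℕ} {A K : Subgroup G} (h : Setup q A K) {Y : Subgroup G}
    (hAY : A ≤ Y) (hKY : K ≤ Y) : Setup q (A.subgroupOf Y) (K.subgroupOf Y) := by
  refine ⟨h.hq, ⟨⟨⟨?_⟩⟩, ?_⟩, ?_, ?_, ?_, ?_, ?_⟩
  · rintro ⟨x, hx⟩ ⟨y, hy⟩
    apply Subtype.ext
    apply Subtype.ext
    exact h.comm hx hy
  · intro x hx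
    exact Subtype.ext (h.pow_q hx)
  · rw [H28.RelSyl.card_subgroupOf hAY, h.card]
  · exact H30.FrobAct.normalizer_subgroupOf_le h.norm
  · rw [H28.RelSyl.card_subgroupOf hKY]; exact h.cop
  · rw [eq_bot_iff]
    rintro x ⟨hx, hxA⟩
    have hxA' := mem_centralizer_iff.1 hxA
    have h1 : (x : G) ∈ K ⊓ centralizer (A : Set G) := by
      rw [Subgroup.mem_inf, mem_centralizer_iff]
      exact ⟨hx, fun y hy => congrArg Subtype.val (hxA' ⟨y, hAY hy⟩ hy)⟩
    rw [h.fix] at h1
    exact Subtype.ext h1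
  · intro a ha ha1 x hx hxa y hy hya
    exact Subtype.ext (h.ab a ha (fun h1 => ha1 (Subtype.ext h1)) x hx (congrArg Subtype.val hxa) y hy (congrArg Subtype.val hya))

/-- a soluble invariant subgroup has nilpotent derived subgroup -/
theorem Setup.nil_comm {G : Type u} [Group G] [Finite G] {q : ℕ} {A K : Subgroup G} (h : Setup q A K)
    (hKs : Group.IsSolvable K) : Group.IsNilpotent ↥⁅K, K⁆ := by
  set Y := K ⊔ A with hY
  have hKY : K ≤ Y := le_sup_left
  have hAY : A ≤ Y := le_sup_right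
  have h1 := nil_comm_normal _ (h.subgroupOf hAY hKY)
    (Subgroup.normal_subgroupOf_of_le_normalizer (sup_le le_normalizer h.norm))
    (by
      apply Subgroup.map_injective Y.subtype_injective
      rw [Subgroup.map_sup, Subgroup.map_subgroupOf_eq_of_le hKY, Subgroup.map_subgroupOf_eq_of_le hAY,
        ← MonoidHom.range_eq_map, Subgroup.range_subtype])
    (H30.FrobAct.isSolvable_subgroupOf hKY hKs) le_rfl
  have h2 : (⁅K.subgroupOf Y, K.subgroupOf Y⁆).map Y.subtype = ⁅K, K⁆ := by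
    rw [Subgroup.map_commutator, Subgroup.map_subgroupOf_eq_of_le hKY]
  rw [← h2]
  haveI := h1
  exact nilpotent_of_surjective (Y.subtype.subgroupMap _) (Y.subtype.subgroupMap_surjective _)

end H14.AbCent
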