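import Cfsg.Agent.Lib.H14.Repl2
import Mathlib.GroupTheory.SpecificGroups.Cyclic
import Mathlib.GroupTheory.PGroup
import Mathlib.RingTheory.ZMod.UnitsCyclic

/-!
# p-groups with a cyclic maximal subgroup
-/

set_option autoImplicit false

namespace H14.CycMax

open Subgroup
open scoped commutatorElement

theorem eq_top_of_lt {G : Type*} [Group G] [Finite G] {p : ℕ} (hp : p.Prime) {C M : Subgroup G}
    (hC : C.index = p) (h : C < M) : M = ⊤ := by
  have h1 : C.relIndex M * M.index = p := by rw [relIndex_mul_index h.le, hC]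
  have h2 : C.relIndex M ≠ 1 := fun h3 => h.not_ge (relIndex_eq_one.mp h3)
  rcases (Nat.Prime.eq_one_or_self_of_dvd hp _ (Dvd.intro _ h1)) with h3 | h3
  · exact absurd h3 h2
  · rw [h3] at h1
    have h4 : M.index = 1 := by
      have := hp.pos
      nlinarith
    exact index_eq_one.mp h4

theorem setup {G : Type*} [Group G] [Finite G] {p : ℕ} [Fact p.Prime] (n : ℕ) (hn : 1 ≤ n)
    (hG : Nat.card G = p ^ n) (C : Subgroup G) (hC : IsCyclic C) (hCi : C.index = p)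
    (hna : ∃ x y : G, x * y ≠ y * x) :
    ∃ (a y : G) (r s : ℤ), orderOf a = p ^ (n - 1) ∧ zpowers a = C ∧ y ∉ zpowers a ∧ y * a * y⁻¹ = a ^ r ∧
      y ^ p = a ^ s ∧ a ^ r ≠ a := by
  have hp : p.Prime := Fact.out
  have hCn : C.Normal := by
    apply normal_of_index_eq_minFac_card
    rw [hCi, hG, hp.pow_minFac (by omega)]
  obtain ⟨⟨a, haC⟩, ha⟩ := hC
  have hCa : zpowers a = C := by
    apply le_antisymm
    · rwa [zpowers_le]
    · intro x hx
      obtain ⟨k, hk⟩ := ha ⟨x, hx⟩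
      exact ⟨k, congrArg Subtype.val hk⟩
  have hcard : Nat.card C = p ^ (n - 1) := by
    have h1 := C.card_mul_index
    rw [hCi, hG] at h1
    have h2 : p ^ n = p ^ (n - 1) * p := by rw [← pow_succ]; congr 1; omega
    rw [h2] at h1
    exact Nat.eq_of_mul_eq_mul_right hp.pos h1
  have hCt : C ≠ ⊤ := by
    intro h
    rw [h, index_top] at hCi
    exact hp.one_lt.ne hCi
  obtain ⟨y, hy⟩ : ∃ y, y ∉ C := by
    by_contra h
    push Not at h
    exact hCt (eq_top_iff.mpr fun x _ => h x)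
  have h1 : y * a * y⁻¹ ∈ zpowers a := by rw [hCa]; exact hCn.conj_mem a haC y
  obtain ⟨r, hr⟩ := mem_zpowers_iff.mp h1
  have h2 : y ^ p ∈ zpowers a := by
    rw [hCa, ← hCi]; exact pow_index_mem C y
  obtain ⟨s, hs⟩ := mem_zpowers_iff.mp h2
  refine ⟨a, y, r, s, by rw [← Nat.card_zpowers, hCa, hcard], hCa, by rwa [hCa], hr.symm, hs.symm, ?_⟩
  intro hra
  rw [hra] at hr
  -- y commutes with a
  have hya : a * y = y * a := by
    calc a * y = (y * a * y⁻¹) * y := by rw [← hr]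
      _ = y * a := by group
  have key : ∀ M : Subgroup G, a ∈ M → y ∈ M → M = ⊤ := by
    intro M haM hyM
    apply eq_top_of_lt hp hCi
    refine lt_of_le_of_ne (by rwa [← hCa, zpowers_le]) ?_
    rintro rfl
    exact hy hyM
  have h3 : centralizer {a} = ⊤ := key _ (by rw [mem_centralizer_singleton_iff]) (by
    rw [mem_centralizer_singleton_iff]; exact hya.symm)
  have h4 : ∀ g : G, g * a = a * g := fun g => by
    have : g ∈ centralizer {a} := by rw [h3]; trivial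
    rwa [mem_centralizer_singleton_iff] at this
  have h5 : centralizer {y} = ⊤ := key _ (by rw [mem_centralizer_singleton_iff]; exact hya)
    (by rw [mem_centralizer_singleton_iff])
  have h6 : ∀ g : G, g * y = y * g := fun g => by
    have : g ∈ centralizer {y} := by rw [h5]; trivial
    rwa [mem_centralizer_singleton_iff] at this
  have h7 : center G = ⊤ := key _ (mem_center_iff.mpr fun g => h4 g) (mem_center_iff.mpr fun g => h6 g)
  obtain ⟨u, v, huv⟩ := hna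
  apply huv
  have : v ∈ center G := by rw [h7]; trivial
  exact mem_center_iff.mp this u

theorem conj_zpow_of {G : Type*} [Group G] {a y : G} {r : ℤ} (h : y * a * y⁻¹ = a ^ r) (k : ℤ) :
    y * a ^ k * y⁻¹ = a ^ (r * k) := by
  rw [← conj_zpow, h, zpow_mul]

theorem conj_pow_of {G : Type*} [Group G] {a y : G} {r : ℤ} (h : y * a * y⁻¹ = a ^ r) (k : ℕ) :
    y ^ k * a * (y ^ k)⁻¹ = a ^ (r ^ k) := by
  induction k with
  | zero => simp
  | succ k ih =>
    have h1 : y ^ (k + 1) * a * (y ^ (k + 1))⁻¹ = y * (y ^ k * a * (y ^ k)⁻¹) * y⁻¹ := by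
      rw [pow_succ']; group
    rw [h1, ih, conj_zpow_of h, pow_succ']

theorem zpow_eq_iff_dvd {G : Type*} [Group G] {a : G} {i j : ℤ} :
    a ^ i = a ^ j ↔ (orderOf a : ℤ) ∣ j - i := by
  rw [zpow_eq_zpow_iff_modEq, Int.modEq_iff_dvd]

/-- in the units of `ZMod (p^m)`, `p` odd: the elements of order `p` -/
theorem exists_pow_eq {p : ℕ} [Fact p.Prime] (hp2 : p ≠ 2) (m : ℕ) (u v : (ZMod (p ^ m))ˣ)
    (hu : u ^ p = 1) (hu1 : u ≠ 1) (hv : v ^ p = 1) : ∃ k : ℕ, u ^ k = v := by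
  classical
  have hp : p.Prime := Fact.out
  haveI : NeZero (p ^ m) := ⟨pow_ne_zero _ hp.ne_zero⟩
  haveI := ZMod.isCyclic_units_of_prime_pow p hp hp2 m
  have hou : orderOf u = p := orderOf_eq_prime hu hu1
  have h1 : (Finset.univ.filter fun x : (ZMod (p ^ m))ˣ => x ^ p = 1).card ≤ p :=
    IsCyclic.card_pow_eq_one_le hp.pos
  have h2 : Finset.image (fun k => u ^ k) (Finset.range p) ⊆
      Finset.univ.filter fun x : (ZMod (p ^ m))ˣ => x ^ p = 1 := by
    intro x hx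
    obtain ⟨k, _, rfl⟩ := Finset.mem_image.mp hx
    rw [Finset.mem_filter]
    refine ⟨Finset.mem_univ _, ?_⟩
    rw [← pow_mul, mul_comm, pow_mul, hu, one_pow]
  have h3 : (Finset.image (fun k => u ^ k) (Finset.range p)).card = p := by
    rw [Finset.card_image_of_injOn, Finset.card_range]
    intro i hi j hj hij
    rw [← hou] at hi hj
    exact pow_injOn_Iio_orderOf (by simpa using hi) (by simpa using hj) hij
  have h4 := Finset.eq_of_subset_of_card_le h2 (by rw [h3]; exact h1)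
  have h5 : v ∈ Finset.univ.filter fun x : (ZMod (p ^ m))ˣ => x ^ p = 1 := by
    rw [Finset.mem_filter]; exact ⟨Finset.mem_univ _, hv⟩
  rw [← h4] at h5
  obtain ⟨k, _, hk⟩ := Finset.mem_image.mp h5
  exact ⟨k, hk⟩

theorem odd_case {G : Type*} [Group G] [Finite G] {p : ℕ} [Fact p.Prime] (hp2 : p ≠ 2) (n : ℕ) (hn : 3 ≤ n)
    (hG : Nat.card G = p ^ n) (C : Subgroup G) (hC : IsCyclic C) (hCi : C.index = p)
    (hna : ∃ x y : G, x * y ≠ y * x) :
    ∃ a b : G, orderOf a = p ^ (n - 1) ∧ orderOf b = p ∧ b ∉ Subgroup.zpowers a ∧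
      b * a * b⁻¹ = a ^ (1 + p ^ (n - 2)) := by
  have hp : p.Prime := Fact.out
  obtain ⟨a, y, r, s, hoa, hCa, hy, hr, hs, hra⟩ := setup n (by omega) hG C hC hCi hna
  set m := n - 1 with hm
  have hz0 : (p : ℤ) ^ m ∣ (p : ℤ) ^ (n - 2) * (p : ℤ) ^ (n - 2) := by
    rw [← pow_add]; exact pow_dvd_pow _ (by omega)
  have hpz : (p : ℤ) * (p : ℤ) ^ (n - 2) = (p : ℤ) ^ m := by
    rw [← pow_succ']; congr 1; omega
  -- units
  haveI : NeZero (p ^ m) := ⟨pow_ne_zero _ hp.ne_zero⟩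
  have hrp : ((r : ZMod (p ^ m))) ^ p = 1 := by
    have h1 := conj_pow_of hr p
    have h2 : y ^ p * a * (y ^ p)⁻¹ = a := by
      rw [hs]; group
    rw [h2] at h1
    have h3 : a ^ (1 : ℤ) = a ^ (r ^ p) := by rw [zpow_one]; exact h1
    rw [zpow_eq_iff_dvd, hoa] at h3
    have h4 : ((r ^ p - 1 : ℤ) : ZMod (p ^ m)) = 0 := by
      rw [ZMod.intCast_zmod_eq_zero_iff_dvd]
      exact_mod_cast h3
    push_cast at h4
    exact sub_eq_zero.mp h4
  have hr1 : ((r : ZMod (p ^ m))) ≠ 1 := by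
    intro h
    apply hra
    have h3 : ((1 - r : ℤ) : ZMod (p ^ m)) = 0 := by
      push_cast; rw [h, sub_self]
    rw [ZMod.intCast_zmod_eq_zero_iff_dvd] at h3
    have h4 : a ^ r = a ^ (1 : ℤ) := by
      rw [zpow_eq_iff_dvd, hoa]; exact_mod_cast h3
    rw [h4, zpow_one]
  have hzz : ((p : ZMod (p ^ m)) ^ (n - 2)) * ((p : ZMod (p ^ m)) ^ (n - 2)) = 0 := by
    have h3 : (((p : ℤ) ^ (n - 2) * (p : ℤ) ^ (n - 2) : ℤ) : ZMod (p ^ m)) = 0 := by
      rw [ZMod.intCast_zmod_eq_zero_iff_dvd]; exact_mod_cast hz0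
    push_cast at h3
    exact h3
  have hz1 : ∀ k : ℕ, (1 + (p : ZMod (p ^ m)) ^ (n - 2)) ^ k = 1 + k * (p : ZMod (p ^ m)) ^ (n - 2) := by
    intro k
    induction k with
    | zero => simp
    | succ k ih =>
      rw [pow_succ, ih]
      push_cast
      calc (1 + (k : ZMod (p ^ m)) * (p : ZMod (p ^ m)) ^ (n - 2)) * (1 + (p : ZMod (p ^ m)) ^ (n - 2))
          = 1 + ((k : ZMod (p ^ m)) + 1) * (p : ZMod (p ^ m)) ^ (n - 2) +
            k * ((p : ZMod (p ^ m)) ^ (n - 2) * (p : ZMod (p ^ m)) ^ (n - 2)) := by ring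
        _ = _ := by rw [hzz]; ring
  have hz2 : (1 + (p : ZMod (p ^ m)) ^ (n - 2)) ^ p = 1 := by
    rw [hz1]
    have h3 : ((((p : ℤ) * (p : ℤ) ^ (n - 2) : ℤ)) : ZMod (p ^ m)) = 0 := by
      rw [hpz, ZMod.intCast_zmod_eq_zero_iff_dvd]; exact_mod_cast dvd_rfl
    push_cast at h3
    rw [h3, add_zero]
  obtain ⟨k, hk⟩ := exists_pow_eq hp2 m (Units.ofPowEqOne (r : ZMod (p ^ m)) p hrp hp.ne_zero)
    (Units.ofPowEqOne _ p hz2 hp.ne_zero) (Units.ext (by simpa using hrp))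
    (fun h => hr1 (by simpa using congrArg Units.val h)) (Units.ext (by simpa using hz2))
  have hk' : ((r : ZMod (p ^ m))) ^ k = 1 + (p : ZMod (p ^ m)) ^ (n - 2) := by
    simpa using congrArg Units.val hk
  have hk2 : (p ^ m : ℤ) ∣ (1 + p ^ (n - 2)) - r ^ k := by
    have h3 : (((1 + (p : ℤ) ^ (n - 2)) - r ^ k : ℤ) : ZMod (p ^ m)) = 0 := by
      push_cast; rw [hk', sub_self]
    rw [ZMod.intCast_zmod_eq_zero_iff_dvd] at h3
    exact_mod_cast h3
  have hoa' : (orderOf a : ℤ) = (p : ℤ) ^ m := by rw [hoa]; push_cast; rfl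
  set y' := y ^ k with hy'
  have hy'a : y' * a * y'⁻¹ = a ^ (1 + (p : ℤ) ^ (n - 2)) := by
    rw [hy', conj_pow_of hr, zpow_eq_iff_dvd, hoa']; exact hk2
  have hy'C : y' ∉ zpowers a := by
    intro h
    obtain ⟨i, hi⟩ := mem_zpowers_iff.mp h
    rw [← hi] at hy'a
    have h1 : a ^ (1 : ℤ) = a ^ (1 + (p : ℤ) ^ (n - 2)) := by
      rw [← hy'a]; group
    rw [zpow_eq_iff_dvd, hoa'] at h1
    have h2 : (p : ℤ) ^ m ∣ (p : ℤ) ^ (n - 2) := by
      have h3 : (1 + (p : ℤ) ^ (n - 2)) - 1 = (p : ℤ) ^ (n - 2) := by ring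
      rwa [h3] at h1
    have h3 : p ^ m ∣ p ^ (n - 2) := by exact_mod_cast h2
    have h4 := (Nat.pow_dvd_pow_iff_le_right hp.one_lt).mp h3
    omega
  have hy'p : y' ^ p = a ^ (s * k) := by
    rw [hy', ← pow_mul, mul_comm k p, pow_mul, hs, ← zpow_natCast (a ^ s) k, ← zpow_mul]
  -- p ∣ s k
  have h1 : a ^ ((1 + (p : ℤ) ^ (n - 2)) * (s * k)) = a ^ (s * k) := by
    rw [← conj_zpow_of hy'a, ← hy'p]; group
  rw [zpow_eq_iff_dvd, hoa'] at h1
  have h2 : (p : ℤ) ∣ s * k := by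
    have h3 : (s * k) - (1 + (p : ℤ) ^ (n - 2)) * (s * k) = -((p : ℤ) ^ (n - 2) * (s * k)) := by ring
    rw [h3, dvd_neg, ← hpz, mul_comm (p : ℤ)] at h1
    exact Int.dvd_of_mul_dvd_mul_left (pow_ne_zero _ (by exact_mod_cast hp.ne_zero)) h1
  obtain ⟨t, ht⟩ := h2
  refine ⟨a, y' * a ^ (-t), hoa, ?_, ?_, ?_⟩
  · apply orderOf_eq_prime
    · have hcomm : ⁅a ^ (-t), y'⁆ = a ^ (t * (p : ℤ) ^ (n - 2)) := by
        have h3 : ⁅a ^ (-t), y'⁆ = a ^ (-t) * (y' * a ^ (-t) * y'⁻¹)⁻¹ := by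
          simp only [commutatorElement_def]; group
        rw [h3, conj_zpow_of hy'a, ← zpow_neg, ← zpow_add]
        congr 1; ring
      have hcy : y' * a ^ (t * (p : ℤ) ^ (n - 2)) * y'⁻¹ = a ^ (t * (p : ℤ) ^ (n - 2)) := by
        rw [conj_zpow_of hy'a, zpow_eq_iff_dvd, hoa']
        have h3 : t * (p : ℤ) ^ (n - 2) - (1 + (p : ℤ) ^ (n - 2)) * (t * (p : ℤ) ^ (n - 2)) =
          -(t * ((p : ℤ) ^ (n - 2) * (p : ℤ) ^ (n - 2))) := by ring
        rw [h3, dvd_neg]
        exact dvd_mul_of_dvd_right hz0 _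
      have hc1 : Commute y' ⁅a ^ (-t), y'⁆ := by
        rw [hcomm]
        exact (mul_inv_eq_iff_eq_mul.mp hcy)
      have hc2 : Commute (a ^ (-t)) ⁅a ^ (-t), y'⁆ := by
        rw [hcomm]
        exact (Commute.refl a).zpow_zpow _ _
      rw [H14.Repl2.mul_pow_of hc1 hc2, hy'p, hcomm]
      have h4 : p ∣ p.choose 2 := by
        apply hp.dvd_choose_self two_ne_zero
        have := hp.two_le
        omega
      obtain ⟨w, hw⟩ := h4
      have h5 : (a ^ (t * (p : ℤ) ^ (n - 2))) ^ (p.choose 2) = 1 := by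
        rw [← zpow_natCast, ← zpow_mul, hw]
        have h6 : t * (p : ℤ) ^ (n - 2) * ((p * w : ℕ) : ℤ) = (p : ℤ) ^ m * (t * w) := by
          push_cast; rw [← hpz]; ring
        rw [h6, zpow_mul, ← hoa', zpow_natCast, pow_orderOf_eq_one, one_zpow]
      rw [h5, mul_one, ht, ← zpow_natCast, ← zpow_mul, ← zpow_add]
      have h6 : (p : ℤ) * t + -t * p = 0 := by ring
      rw [h6, zpow_zero]
    · intro h
      apply hy'C
      have h3 : y' = a ^ t := by
        have := mul_eq_one_iff_eq_inv.mp h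
        rw [this, ← zpow_neg, neg_neg]
      rw [h3]
      exact zpow_mem (mem_zpowers a) t
  · intro h
    apply hy'C
    have h3 := mul_mem h (zpow_mem (mem_zpowers a) t)
    have h4 : y' * a ^ (-t) * a ^ t = y' := by group
    rwa [h4] at h3
  · have h3 : y' * a ^ (-t) * a * (y' * a ^ (-t))⁻¹ = y' * a * y'⁻¹ := by group
    rw [h3, hy'a]
    exact_mod_cast zpow_natCast a (1 + p ^ (n - 2))

end H14.CycMax
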