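import Cfsg.Agent.Lib.H14.CycMax

/-!
# 2-groups with a cyclic maximal subgroup
-/

set_option autoImplicit false

namespace H14.CycMax2

open Subgroup H14.CycMax
open scoped commutatorElement

/-- square roots of one modulo `2^m` -/
theorem sqrt_one {m : ℕ} (hm : 2 ≤ m) {r : ℤ} (h : (2 : ℤ) ^ m ∣ r ^ 2 - 1) :
    (2 : ℤ) ^ (m - 1) ∣ r - 1 ∨ (2 : ℤ) ^ (m - 1) ∣ r + 1 := by
  have h2 : (2 : ℤ) ∣ r ^ 2 - 1 := (dvd_pow_self 2 (by omega)).trans h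
  have hodd : Odd r := by
    rcases Int.even_or_odd r with he | ho
    · exfalso
      obtain ⟨k, hk⟩ := he
      obtain ⟨l, hl⟩ := h2
      have : r ^ 2 = 2 * (2 * k * k) := by rw [hk]; ring
      omega
    · exact ho
  obtain ⟨u, hu⟩ := hodd
  have h3 : r ^ 2 - 1 = 4 * (u * (u + 1)) := by rw [hu]; ring
  obtain ⟨l, rfl⟩ : ∃ l, m = l + 2 := ⟨m - 2, by omega⟩
  have h4 : (2 : ℤ) ^ l ∣ u * (u + 1) := by
    rw [h3] at h
    have h5 : (2 : ℤ) ^ (l + 2) = 4 * 2 ^ l := by rw [pow_add]; ring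
    rw [h5] at h
    exact Int.dvd_of_mul_dvd_mul_left (by norm_num) h
  have hl : l + 2 - 1 = l + 1 := by omega
  rw [hl]
  have hp : Prime (2 : ℤ) := Int.prime_two
  rcases Int.even_or_odd u with he | ho
  · left
    have h5 : IsCoprime ((2 : ℤ) ^ l) (u + 1) := by
      apply IsCoprime.pow_left
      obtain ⟨k, hk⟩ := he
      exact ⟨-k, 1, by rw [hk]; ring⟩
    have h6 : (2 : ℤ) ^ l ∣ u := h5.dvd_of_dvd_mul_right h4
    obtain ⟨w, hw⟩ := h6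
    exact ⟨w, by rw [hu, pow_succ]; nth_rw 1 [hw]; ring⟩
  · right
    have h5 : IsCoprime ((2 : ℤ) ^ l) u := by
      apply IsCoprime.pow_left
      obtain ⟨k, hk⟩ := ho
      exact ⟨-k, 1, by rw [hk]; ring⟩
    have h6 : (2 : ℤ) ^ l ∣ u + 1 := h5.dvd_of_dvd_mul_left h4
    obtain ⟨w, hw⟩ := h6
    exact ⟨w, by
      have : r + 1 = 2 * (u + 1) := by rw [hu]; ring
      rw [this, hw, pow_succ]; ring⟩

theorem two_case {G : Type*} [Group G] [Finite G] (n : ℕ) (hn : 3 ≤ n)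
    (hG : Nat.card G = 2 ^ n) (C : Subgroup G) (hC : IsCyclic C) (hCi : C.index = 2)
    (hna : ∃ x y : G, x * y ≠ y * x) :
    ∃ a b : G, orderOf a = 2 ^ (n - 1) ∧ b ∉ Subgroup.zpowers a ∧
      ((b ^ 2 = 1 ∧ b * a * b⁻¹ = a⁻¹) ∨ (b ^ 2 = a ^ (2 ^ (n - 2)) ∧ b * a * b⁻¹ = a⁻¹) ∨
      (4 ≤ n ∧ b ^ 2 = 1 ∧ b * a * b⁻¹ = a ^ (1 + 2 ^ (n - 2))) ∨
      (4 ≤ n ∧ b ^ 2 = 1 ∧ b * a * b⁻¹ = a ^ (2 ^ (n - 2) - 1))) := by
  haveI : Fact (Nat.Prime 2) := ⟨Nat.prime_two⟩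
  obtain ⟨a, y, r, s, hoa, hCa, hy, hr, hs, hra⟩ := setup n (by omega) hG C hC hCi hna
  obtain ⟨l, rfl⟩ : ∃ l, n = l + 3 := ⟨n - 3, by omega⟩
  have e1 : l + 3 - 1 = l + 2 := by omega
  have e2 : l + 3 - 2 = l + 1 := by omega
  rw [e1] at hoa ⊢
  rw [e2]
  have hoa' : (orderOf a : ℤ) = 2 ^ (l + 2) := by rw [hoa]; push_cast; rfl
  have hr2 : (2 : ℤ) ^ (l + 2) ∣ r ^ 2 - 1 := by
    have h1 := conj_pow_of hr 2
    have h2 : y ^ 2 * a * (y ^ 2)⁻¹ = a := by rw [hs]; group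
    rw [h2] at h1
    have h3 : a ^ (1 : ℤ) = a ^ (r ^ 2) := by rw [zpow_one]; exact h1
    rwa [zpow_eq_iff_dvd, hoa'] at h3
  have hr1 : ¬ (2 : ℤ) ^ (l + 2) ∣ r - 1 := by
    intro h
    apply hra
    have h3 : a ^ (1 : ℤ) = a ^ r := by rw [zpow_eq_iff_dvd, hoa']; exact h
    rw [← h3, zpow_one]
  have hsr : (2 : ℤ) ^ (l + 2) ∣ s * (r - 1) := by
    have h1 : a ^ (r * s) = a ^ s := by
      rw [← conj_zpow_of hr, ← hs]; group
    rw [zpow_eq_iff_dvd, hoa'] at h1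
    have h2 : s - r * s = -(s * (r - 1)) := by ring
    rwa [h2, dvd_neg] at h1
  have hp2 : (2 : ℤ) ^ (l + 2) = 2 ^ (l + 1) * 2 := pow_succ _ _
  have hpos : (2 : ℤ) ^ (l + 1) ≠ 0 := by positivity
  -- the squares of `y a^j`
  have hyinv : y⁻¹ * a * y = a ^ r := by
    have h1 : y * (y * a * y⁻¹) * y⁻¹ = a := by
      have h2 : y * (y * a * y⁻¹) * y⁻¹ = y ^ 2 * a * (y ^ 2)⁻¹ := by rw [pow_two]; group
      rw [h2, hs]; group
    rw [← hr]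
    calc y⁻¹ * a * y = y⁻¹ * (y * (y * a * y⁻¹) * y⁻¹) * y := by rw [h1]
      _ = y * a * y⁻¹ := by group
  have hsq : ∀ j : ℤ, (y * a ^ j) ^ 2 = a ^ (s + (r + 1) * j) := by
    intro j
    have h1 : (y * a ^ j) ^ 2 = y ^ 2 * (y⁻¹ * a ^ j * y) * a ^ j := by rw [pow_two, pow_two]; group
    have h2 : y⁻¹ * a ^ j * y = a ^ (r * j) := by
      have h3 : y⁻¹ * a ^ j * y⁻¹⁻¹ = a ^ (r * j) := conj_zpow_of (by rwa [inv_inv]) j
      rwa [inv_inv] at h3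
    rw [h1, h2, hs, ← zpow_add, ← zpow_add]
    congr 1; ring
  have hnot : ∀ j : ℤ, y * a ^ j ∉ zpowers a := by
    intro j h
    apply hy
    have h3 := mul_mem h (zpow_mem (mem_zpowers a) (-j))
    have h4 : y * a ^ j * a ^ (-j) = y := by group
    rwa [h4] at h3
  have hconj : ∀ j : ℤ, (y * a ^ j) * a * (y * a ^ j)⁻¹ = a ^ r := by
    intro j
    rw [← hr]; group
  have hone : ∀ i : ℤ, (2 : ℤ) ^ (l + 2) ∣ i → a ^ i = 1 := by
    intro i hi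
    have : a ^ i = a ^ (0 : ℤ) := by
      rw [zpow_eq_iff_dvd, hoa', zero_sub, dvd_neg]; exact hi
    rw [this, zpow_zero]
  -- the case r ≡ -1
  have hneg : (2 : ℤ) ^ (l + 2) ∣ r + 1 → ∃ a b : G, orderOf a = 2 ^ (l + 2) ∧ b ∉ Subgroup.zpowers a ∧
      ((b ^ 2 = 1 ∧ b * a * b⁻¹ = a⁻¹) ∨ (b ^ 2 = a ^ (2 ^ (l + 1)) ∧ b * a * b⁻¹ = a⁻¹) ∨
      (4 ≤ l + 3 ∧ b ^ 2 = 1 ∧ b * a * b⁻¹ = a ^ (1 + 2 ^ (l + 1))) ∨
      (4 ≤ l + 3 ∧ b ^ 2 = 1 ∧ b * a * b⁻¹ = a ^ (2 ^ (l + 1) - 1))) := by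
    intro h
    have hinv : y * a * y⁻¹ = a⁻¹ := by
      rw [hr, ← zpow_neg_one, zpow_eq_iff_dvd, hoa']
      have : -1 - r = -(r + 1) := by ring
      rw [this, dvd_neg]; exact h
    have h2s : (2 : ℤ) ^ (l + 1) ∣ s := by
      have h3 : (2 : ℤ) ^ (l + 2) ∣ 2 * s := by
        have h4 : 2 * s = s * (r + 1) - s * (r - 1) := by ring
        rw [h4]
        exact dvd_sub (dvd_mul_of_dvd_right h _) hsr
      rw [hp2, mul_comm] at h3
      exact Int.dvd_of_mul_dvd_mul_left two_ne_zero h3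
    obtain ⟨w, hw⟩ := h2s
    refine ⟨a, y, hoa, hy, ?_⟩
    rcases Int.even_or_odd' w with ⟨v, hv | hv⟩
    · left
      refine ⟨?_, hinv⟩
      rw [hs]
      apply hone
      exact ⟨v, by rw [hw, hv, hp2]; ring⟩
    · right; left
      refine ⟨?_, hinv⟩
      rw [hs, hw, hv]
      have h4 : (2 : ℤ) ^ (l + 1) * (2 * v + 1) = 2 ^ (l + 2) * v + 2 ^ (l + 1) := by rw [hp2]; ring
      rw [h4, zpow_add, hone _ (Dvd.intro _ rfl), one_mul]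
      exact_mod_cast zpow_natCast a (2 ^ (l + 1))
  by_cases hm1 : (2 : ℤ) ^ (l + 2) ∣ r + 1
  · exact hneg hm1
  have hsq1 := sqrt_one (by omega) hr2
  rw [show l + 2 - 1 = l + 1 by omega] at hsq1
  -- l ≥ 1
  have hl : 1 ≤ l := by
    by_contra hl
    have hl0 : l = 0 := by omega
    subst hl0
    norm_num at hsq1 hm1 hr1
    rcases hsq1 with h | h <;> omega
  obtain ⟨l', rfl⟩ : ∃ l', l = l' + 1 := ⟨l - 1, by omega⟩
  have hp3 : (2 : ℤ) ^ (l' + 1 + 1) = 2 * 2 ^ (l' + 1) := by rw [pow_succ]; ring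
  have hp4 : (2 : ℤ) ^ (l' + 1) = 2 * 2 ^ l' := by rw [pow_succ]; ring
  rcases hsq1 with h | h
  · -- r ≡ 1 + 2^(m-1)
    obtain ⟨t, ht⟩ := h
    rcases Int.even_or_odd' t with ⟨v, hv | hv⟩
    · exfalso
      apply hr1
      exact ⟨v, by rw [ht, hv, hp2]; ring⟩
    have hr' : r = 1 + 2 ^ (l' + 1 + 1) + 2 ^ (l' + 1 + 2) * v := by
      have : r = (r - 1) + 1 := by ring
      rw [this, ht, hv, hp2]; ring
    have hs2 : (2 : ℤ) ∣ s := by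
      rw [ht, hv, hp2] at hsr
      have h3 : s * (2 ^ (l' + 1 + 1) * (2 * v + 1)) = 2 ^ (l' + 1 + 1) * (s * (2 * v + 1)) := by ring
      rw [h3] at hsr
      have h4 := Int.dvd_of_mul_dvd_mul_left hpos hsr
      rcases Int.prime_two.dvd_or_dvd h4 with h5 | h5
      · exact h5
      · exfalso; omega
    obtain ⟨s', hs'⟩ := hs2
    -- solve s' + w j ≡ 0 mod 2^(m-1)
    set w : ℤ := 1 + 2 ^ (l' + 1) * (1 + 2 * v) with hw
    have hrw : r + 1 = 2 * w := by rw [hr', hw, hp2, hp3]; ring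
    have hcop : IsCoprime w ((2 : ℤ) ^ (l' + 1 + 1)) := by
      apply IsCoprime.pow_right
      exact ⟨1, -(2 ^ l' * (1 + 2 * v)), by rw [hw, hp4]; ring⟩
    obtain ⟨u, u', hu⟩ := hcop
    refine ⟨a, y * a ^ (-(s' * u)), hoa, hnot _, Or.inr (Or.inr (Or.inl ⟨by omega, ?_, ?_⟩))⟩
    · rw [hsq]
      apply hone
      refine ⟨s' * u', ?_⟩
      rw [hs', hrw, hp2]
      have h5 : 2 * s' + 2 * w * -(s' * u) = 2 * s' * (1 - u * w) := by ring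
      rw [h5, ← hu]; ring
    · rw [hconj, hr', zpow_add]
      have h5 : a ^ ((2 : ℤ) ^ (l' + 1 + 2) * v) = 1 := hone _ (Dvd.intro _ rfl)
      rw [h5, mul_one]
      exact_mod_cast zpow_natCast a (1 + 2 ^ (l' + 1 + 1))
  · -- r ≡ -1 + 2^(m-1)
    obtain ⟨t, ht⟩ := h
    rcases Int.even_or_odd' t with ⟨v, hv | hv⟩
    · exfalso
      apply hm1
      exact ⟨v, by rw [ht, hv, hp2]; ring⟩
    have hr' : r = (2 ^ (l' + 1 + 1) - 1) + 2 ^ (l' + 1 + 2) * v := by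
      have : r = (r + 1) - 1 := by ring
      rw [this, ht, hv, hp2]; ring
    have hs2 : (2 : ℤ) ^ (l' + 1 + 1) ∣ s := by
      set w : ℤ := -1 + 2 ^ (l' + 1) * (1 + 2 * v) with hw
      have hrw : r - 1 = 2 * w := by rw [hr', hw, hp2, hp3]; ring
      have hcop : IsCoprime ((2 : ℤ) ^ (l' + 1 + 1)) w := by
        apply IsCoprime.pow_left
        exact ⟨(2 ^ l' * (1 + 2 * v)), -1, by rw [hw, hp4]; ring⟩
      rw [hrw, hp2] at hsr
      have h3 : s * (2 * w) = 2 * (s * w) := by ring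
      rw [h3, mul_comm _ (2 : ℤ)] at hsr
      exact hcop.dvd_of_dvd_mul_right (Int.dvd_of_mul_dvd_mul_left two_ne_zero hsr)
    obtain ⟨w, hw⟩ := hs2
    refine ⟨a, y * a ^ w, hoa, hnot _, Or.inr (Or.inr (Or.inr ⟨by omega, ?_, ?_⟩))⟩
    · rw [hsq]
      apply hone
      refine ⟨w * (1 + v), ?_⟩
      rw [ht, hv, hp2]; nth_rw 1 [hw]; ring
    · rw [hconj, hr', zpow_add]
      have h5 : a ^ ((2 : ℤ) ^ (l' + 1 + 2) * v) = 1 := hone _ (Dvd.intro _ rfl)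
      rw [h5, mul_one]
      have h6 : ((2 ^ (l' + 1 + 1) - 1 : ℕ) : ℤ) = (2 : ℤ) ^ (l' + 1 + 1) - 1 := by
        rw [Nat.cast_sub Nat.one_le_two_pow]; push_cast; rfl
      rw [← h6, zpow_natCast]

end H14.CycMax2
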