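import Mathlib.Algebra.Group.Subgroup.Finite
import Mathlib.Algebra.BigOperators.Group.Finset.Basic
import Mathlib.Algebra.Group.End
import Mathlib.GroupTheory.Index
import Mathlib.Tactic.Group

/-!
# Frobenius groups acting on abelian groups: the partition argument
-/

set_option autoImplicit false

namespace H14.FrobSum

open scoped Classical in
theorem pow_card_eq_one {F V : Type*} [Group F] [Finite F] [CommGroup V] (φ : F →* MulAut V)
    (N H : Subgroup F) (hNn : N.Normal) (hfpf : ∀ h ∈ H, h ≠ 1 → ∀ n ∈ N, n * h = h * n → n = 1)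
    (hN : ∀ v, (∀ n ∈ N, φ n v = v) → v = 1) (hH : ∀ v, (∀ h ∈ H, φ h v = v) → v = 1) (v : V) :
    v ^ Nat.card N = 1 := by
  letI : Fintype N := Fintype.ofFinite N
  letI : Fintype H := Fintype.ofFinite H
  -- for every `h`, the product over the coset `N h` is trivial
  have h1 : ∀ h : F, ∏ n : N, φ (n * h) v = 1 := by
    intro h
    apply hN
    intro y hy
    rw [map_prod]
    apply Fintype.prod_equiv (Equiv.mulLeft (⟨y, hy⟩ : N))
    intro n
    rw [← MulAut.mul_apply, ← map_mul, Equiv.coe_mulLeft, Subgroup.coe_mul, mul_assoc]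
  have h2 : ∀ h ∈ H, h ≠ 1 → ∏ n : N, φ (n * h * (n : F)⁻¹) v = 1 := by
    intro h hh hne
    rw [← h1 h]
    have hmem : ∀ n : N, (n : F) * h * (n : F)⁻¹ * h⁻¹ ∈ N := by
      intro n
      have := hNn.conj_mem _ (N.inv_mem n.2) h
      have h3 : (n : F) * h * (n : F)⁻¹ * h⁻¹ = n * (h * (n : F)⁻¹ * h⁻¹) := by group
      rw [h3]
      exact N.mul_mem n.2 this
    have hinj : Function.Injective (fun n : N => (⟨(n : F) * h * (n : F)⁻¹ * h⁻¹, hmem n⟩ : N)) := by
      intro a b hab
      have h3 : (a : F) * h * (a : F)⁻¹ * h⁻¹ = (b : F) * h * (b : F)⁻¹ * h⁻¹ := congrArg Subtype.val hab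
      have h4 : (a : F) * h * (a : F)⁻¹ = (b : F) * h * (b : F)⁻¹ := mul_right_cancel h3
      have h5 : (b : F)⁻¹ * a * h = h * ((b : F)⁻¹ * a) := by
        calc (b : F)⁻¹ * a * h = (b : F)⁻¹ * (a * h * (a : F)⁻¹) * a := by group
          _ = (b : F)⁻¹ * (b * h * (b : F)⁻¹) * a := by rw [h4]
          _ = h * ((b : F)⁻¹ * a) := by group
      have h6 := hfpf h hh hne _ (N.mul_mem (N.inv_mem b.2) a.2) h5
      exact Subtype.ext (inv_mul_eq_one.mp h6).symm
    apply Fintype.prod_equiv (Equiv.ofBijective _ (Finite.injective_iff_bijective.mp hinj))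
    intro n
    simp only [Equiv.ofBijective_apply]
    congr 2
    group
  have h3 : ∏ n : N, ∏ h ∈ (Finset.univ : Finset H).erase 1, φ (n * h * (n : F)⁻¹) v = 1 := by
    rw [Finset.prod_comm]
    apply Finset.prod_eq_one
    intro h hh
    apply h2 h h.2
    intro h1
    exact (Finset.mem_erase.mp hh).1 (Subtype.ext h1)
  have h4 : ∀ n : N, ∏ h : H, φ (n * h * (n : F)⁻¹) v = 1 := by
    intro n
    have h5 : ∏ h : H, φ h (φ (n : F)⁻¹ v) = 1 := by
      apply hH
      intro y hy
      rw [map_prod]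
      apply Fintype.prod_equiv (Equiv.mulLeft (⟨y, hy⟩ : H))
      intro n
      rw [← MulAut.mul_apply, ← map_mul, Equiv.coe_mulLeft, Subgroup.coe_mul]
    have h6 : φ n (∏ h : H, φ h (φ (n : F)⁻¹ v)) = 1 := by rw [h5, map_one]
    rw [map_prod] at h6
    rw [← h6]
    apply Finset.prod_congr rfl
    intro h _
    rw [map_mul, map_mul]
    rfl
  have h5 : ∀ n : N, ∏ h ∈ (Finset.univ : Finset H).erase 1, φ (n * h * (n : F)⁻¹) v = v⁻¹ := by
    intro n
    have h6 := h4 n
    rw [← Finset.mul_prod_erase _ _ (Finset.mem_univ (1 : H)), Subgroup.coe_one, mul_one, mul_inv_cancel,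
      map_one, MulAut.one_apply] at h6
    exact eq_inv_of_mul_eq_one_right h6
  rw [Finset.prod_congr rfl (fun n _ => h5 n), Finset.prod_const, Finset.card_univ, inv_pow, inv_eq_one] at h3
  rwa [Nat.card_eq_fintype_card]

end H14.FrobSum
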