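import Cfsg.Agent.Lib.H14.GF1
import Cfsg.Agent.Lib.H14.SFGrp
import Cfsg.Agent.Lib.H1.Coprime2

/-!
# Glauberman's 2-factorization: counting lemmas
-/

set_option autoImplicit false

universe u

namespace H14.GF

open Subgroup H14.SF

variable {G : Type u} [Group G]

theorem rel_ne_zero [Finite G] (H K : Subgroup G) : H.relIndex K ≠ 0 := by
  unfold Subgroup.relIndex
  exact Subgroup.index_ne_zero_of_finite

theorem io_pos [Finite G] (W A : Subgroup G) : 0 < io W A :=
  Nat.pos_of_ne_zero (rel_ne_zero _ _)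

theorem io_eq_one {W A : Subgroup G} : io W A = 1 ↔ W ≤ centralizer (A : Set G) :=
  Subgroup.relIndex_eq_one

theorem io_mono_left [Finite G] {V W : Subgroup G} (A : Subgroup G) (h : V ≤ W) : io V A ≤ io W A :=
  Subgroup.relIndex_le_of_le_right h (rel_ne_zero _ _)

theorem io_mono_right [Finite G] {A B : Subgroup G} (W : Subgroup G) (h : A ≤ B) : io W A ≤ io W B :=
  Subgroup.relIndex_le_of_le_left (centralizer_le h) (rel_ne_zero _ _)

theorem le_cent_comm {A B : Subgroup G} (h : A ≤ centralizer (B : Set G)) : B ≤ centralizer (A : Set G) := by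
  intro b hb
  rw [mem_centralizer_iff]
  intro a ha
  exact (mem_centralizer_iff.1 (h ha) b hb).symm

theorem cent_comm {A : Subgroup G} {x y : G} (hx : x ∈ centralizer (A : Set G)) (hy : y ∈ A) : x * y = y * x :=
  (mem_centralizer_iff.1 hx y hy).symm

theorem mem_cent {A : Subgroup G} {x : G} (h : ∀ y ∈ A, x * y = y * x) : x ∈ centralizer (A : Set G) := by
  rw [mem_centralizer_iff]
  intro y hy
  exact (h y hy).symm

/-! conjugation -/

theorem cj_centralizer (k : G) (A : Subgroup G) : cj k (centralizer (A : Set G)) = centralizer (cj k A : Set G) := by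
  ext x
  rw [mem_cj, mem_centralizer_iff, mem_centralizer_iff]
  constructor
  · intro h y hy
    have h1 := mem_cj.1 hy
    have h2 := h _ h1
    calc y * x = k * ((k⁻¹ * y * k) * (k⁻¹ * x * k)) * k⁻¹ := by group
      _ = k * ((k⁻¹ * x * k) * (k⁻¹ * y * k)) * k⁻¹ := by rw [h2]
      _ = x * y := by group
  · intro h y hy
    have h2 := h _ (conj_mem_cj (k := k) hy)
    calc y * (k⁻¹ * x * k) = k⁻¹ * ((k * y * k⁻¹) * x) * k := by group
      _ = k⁻¹ * (x * (k * y * k⁻¹)) * k := by rw [h2]
      _ = k⁻¹ * x * k * y := by group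

theorem relIndex_cj (k : G) (H K : Subgroup G) : (cj k H).relIndex (cj k K) = H.relIndex K :=
  Subgroup.relIndex_map_map_of_injective H K (MulAut.conj k).injective

theorem io_cj (k : G) (W A : Subgroup G) : io (cj k W) (cj k A) = io W A := by
  unfold io
  rw [← cj_centralizer, relIndex_cj]

theorem cj_comm (k : G) (A B : Subgroup G) : cj k ⁅A, B⁆ = ⁅cj k A, cj k B⁆ :=
  Subgroup.map_commutator A B _

theorem cj_of_mem_normalizer {k : G} {H : Subgroup G} (h : k ∈ normalizer (H : Set G)) : cj k H = H := by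
  ext x
  rw [mem_cj]
  have := (Subgroup.mem_normalizer_iff.1 (inv_mem h) x)
  rw [inv_inv] at this
  exact this.symm

theorem cj_le_cj_iff {k : G} {A B : Subgroup G} : cj k A ≤ cj k B ↔ A ≤ B := by
  constructor
  · intro h
    have := cj_mono (k := k⁻¹) h
    rwa [cj_inv_cj, cj_inv_cj] at this
  · exact cj_mono

theorem cj_normalizer (k : G) (A : Subgroup G) : cj k (normalizer (A : Set G)) = normalizer (cj k A : Set G) := by
  ext x
  rw [mem_cj, Subgroup.mem_normalizer_iff, Subgroup.mem_normalizer_iff]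
  constructor
  · intro h y
    rw [mem_cj, mem_cj]
    have := h (k⁻¹ * y * k)
    rw [this]
    have e : k⁻¹ * x * k * (k⁻¹ * y * k) * (k⁻¹ * x * k)⁻¹ = k⁻¹ * (x * y * x⁻¹) * k := by group
    rw [e]
  · intro h y
    have := h (k * y * k⁻¹)
    rw [mem_cj, mem_cj] at this
    have e1 : k⁻¹ * (k * y * k⁻¹) * k = y := by group
    have e2 : k⁻¹ * (x * (k * y * k⁻¹) * x⁻¹) * k = k⁻¹ * x * k * y * (k⁻¹ * x * k)⁻¹ := by group
    rw [e1, e2] at this
    exact this

theorem Strong.cj {T V : Subgroup G} (h : Strong T V) (k : G) : Strong (cj k T) (cj k V) := by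
  refine ⟨cj_mono h.le, ?_, ?_, ?_, ?_⟩
  · rw [← cj_normalizer]; exact cj_mono h.nrm
  · intro a ha b hb
    have h1 := h.comm _ (mem_cj.1 ha) _ (mem_cj.1 hb)
    calc a * b = k * ((k⁻¹ * a * k) * (k⁻¹ * b * k)) * k⁻¹ := by group
      _ = k * ((k⁻¹ * b * k) * (k⁻¹ * a * k)) * k⁻¹ := by rw [h1]
      _ = b * a := by group
  · intro a ha
    have h1 := h.sq _ (mem_cj.1 ha)
    calc a * a = k * ((k⁻¹ * a * k) * (k⁻¹ * a * k)) * k⁻¹ := by group
      _ = 1 := by rw [h1]; group
  · intro R hR h1 h2 h3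
    set R' := H14.SF.cj k⁻¹ R with hR'
    have hRR : R = H14.SF.cj k R' := by rw [hR', cj_cj_inv]
    have hRT : R' ≤ T := by
      have := cj_mono (k := k⁻¹) hR
      rwa [cj_inv_cj] at this
    have hm : ∀ x, x ∈ R' ↔ k * x * k⁻¹ ∈ R := by
      intro x; rw [hR', mem_cj, inv_inv]
    have hcz : ∀ x, k * x * k⁻¹ ∈ centralizer (H14.SF.cj k V : Set G) → x ∈ centralizer (V : Set G) := by
      intro x hx
      rw [← cj_centralizer, mem_cj] at hx
      have e : k⁻¹ * (k * x * k⁻¹) * k = x := by group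
      rwa [e] at hx
    have h4 := h.ineq R' hRT ?_ ?_ ?_
    · rw [hRR, io_cj, io_cj, ← cj_comm, card_cj]
      exact h4
    · intro a ha b hb
      apply hcz
      have := h1 _ ((hm a).1 ha) _ ((hm b).1 hb)
      have e : k * a * k⁻¹ * (k * b * k⁻¹) * (k * a * k⁻¹)⁻¹ * (k * b * k⁻¹)⁻¹ = k * (a * b * a⁻¹ * b⁻¹) * k⁻¹ := by
        group
      rwa [e] at this
    · intro a ha
      apply hcz
      have := h2 _ ((hm a).1 ha)
      have e : k * a * k⁻¹ * (k * a * k⁻¹) = k * (a * a) * k⁻¹ := by group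
      rwa [e] at this
    · intro h5
      apply h3
      rw [hRR, ← cj_centralizer]
      exact cj_mono h5

/-- two strong subgroups normalizing each other commute -/
theorem Strong.commute [Finite G] {T T' V U : Subgroup G} (h : Strong T V) (h' : Strong T' U)
    (h1 : U ≤ T) (h2 : V ≤ T') : U ≤ centralizer (V : Set G) := by
  by_contra hc
  have hc' : ¬ V ≤ centralizer (U : Set G) := fun hh => hc (le_cent_comm hh)
  have e1 := (h.ineq U h1 (by
      intro a ha b hb
      have : a * b * a⁻¹ * b⁻¹ = 1 := by rw [h'.comm a ha b hb]; group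
      rw [this]; exact one_mem _) (by
      intro a ha; rw [h'.sq a ha]; exact one_mem _) hc).1
  have e2 := (h'.ineq V h2 (by
      intro a ha b hb
      have : a * b * a⁻¹ * b⁻¹ = 1 := by rw [h.comm a ha b hb]; group
      rw [this]; exact one_mem _) (by
      intro a ha; rw [h.sq a ha]; exact one_mem _) hc').1
  have p1 := io_pos (G := G) U V
  have p2 := io_pos (G := G) V U
  set a := io U V
  set b := io V U
  have h3 : a ^ 3 * b ^ 3 < b ^ 2 * a ^ 2 := by
    calc a ^ 3 * b ^ 3 < b ^ 2 * b ^ 3 := by gcongr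
      _ ≤ b ^ 2 * a ^ 2 := by gcongr
  have h4 : b ^ 2 * a ^ 2 ≤ a ^ 3 * b ^ 3 := by
    calc b ^ 2 * a ^ 2 = (a ^ 2 * b ^ 2) * 1 := by ring
      _ ≤ (a ^ 2 * b ^ 2) * (a * b) := by gcongr; exact Nat.mul_pos p1 p2
      _ = a ^ 3 * b ^ 3 := by ring
  omega

/-- the chain argument -/
theorem chain_ineq [Finite G] {W : Subgroup G} (𝒱 : Set (Subgroup G)) (hW : W = sSup 𝒱) (n : ℕ) :
    ∀ R : Subgroup G, Nat.card R ≤ n →
      (∀ V ∈ 𝒱, ∀ R' : Subgroup G, R' ≤ R → ¬ R' ≤ centralizer (V : Set G) → io R' V ^ 3 < io V R' ^ 2) →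
      R ≤ centralizer (W : Set G) ∨ io R W ^ 3 < io W R ^ 2 := by
  classical
  induction n with
  | zero =>
    intro R hR
    exact absurd (Nat.card_pos (α := R)) (by omega)
  | succ n ih =>
    intro R hRn hR
    by_cases hc : R ≤ centralizer (W : Set G)
    · exact Or.inl hc
    right
    obtain ⟨V, hV, hVR⟩ : ∃ V ∈ 𝒱, ¬ R ≤ centralizer (V : Set G) := by
      by_contra hn
      push Not at hn
      apply hc
      apply le_cent_comm
      rw [hW]
      exact sSup_le fun V hV => le_cent_comm (hn V hV)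
    have hVW : V ≤ W := by rw [hW]; exact le_sSup hV
    set R' := R ⊓ centralizer (V : Set G) with hR'
    have hR'R : R' ≤ R := inf_le_left
    have hcard : Nat.card R' < Nat.card R := by
      by_contra hcc
      have : R' = R := Subgroup.eq_of_le_of_card_ge hR'R (not_lt.1 hcc)
      exact hVR (this ▸ inf_le_right)
    have h1 := hR V hV R le_rfl hVR
    have e1 : io R W = io R' W * io R V := by
      have h2 : (centralizer (W : Set G)).relIndex R' * (centralizer (V : Set G)).relIndex R =
          (centralizer (W : Set G) ⊓ centralizer (V : Set G)).relIndex R := by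
        rw [hR', inf_comm R]
        exact Subgroup.relIndex_inf_mul_relIndex _ _ _
      have h3 : centralizer (W : Set G) ⊓ centralizer (V : Set G) = centralizer (W : Set G) :=
        inf_eq_left.2 (centralizer_le hVW)
      rw [h3] at h2
      exact h2.symm
    have e2 : io W R' * io V R ≤ io W R := by
      have h2 : (centralizer (R : Set G)).relIndex (centralizer (R' : Set G) ⊓ W) *
          (centralizer (R' : Set G)).relIndex W =
          (centralizer (R : Set G) ⊓ centralizer (R' : Set G)).relIndex W :=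
        Subgroup.relIndex_inf_mul_relIndex _ _ _
      have h3 : centralizer (R : Set G) ⊓ centralizer (R' : Set G) = centralizer (R : Set G) :=
        inf_eq_left.2 (centralizer_le hR'R)
      rw [h3] at h2
      have h4 : V ≤ centralizer (R' : Set G) ⊓ W := le_inf (le_cent_comm inf_le_right) hVW
      have h5 : io V R ≤ (centralizer (R : Set G)).relIndex (centralizer (R' : Set G) ⊓ W) :=
        Subgroup.relIndex_le_of_le_right h4 (rel_ne_zero _ _)
      calc io W R' * io V R = io V R * (centralizer (R' : Set G)).relIndex W := by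
            rw [mul_comm]; rfl
        _ ≤ _ := Nat.mul_le_mul_right _ h5
        _ = io W R := h2
    have h6 := ih R' (by omega) (fun V hV R'' hR'' h => hR V hV R'' (hR''.trans hR'R) h)
    have h7 : io R' W ^ 3 ≤ io W R' ^ 2 := by
      rcases h6 with h6 | h6
      · rw [io_eq_one.2 h6, one_pow]
        exact Nat.one_le_pow _ _ (io_pos _ _)
      · exact h6.le
    calc io R W ^ 3 = io R' W ^ 3 * io R V ^ 3 := by rw [e1, mul_pow]
      _ < io R' W ^ 3 * io V R ^ 2 := by
          apply Nat.mul_lt_mul_of_pos_left h1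
          exact Nat.pow_pos (io_pos _ _)
      _ ≤ io W R' ^ 2 * io V R ^ 2 := Nat.mul_le_mul_right _ h7
      _ = (io W R' * io V R) ^ 2 := by ring
      _ ≤ io W R ^ 2 := Nat.pow_le_pow_left e2 2

/-- maximality of the order -/
theorem io_le_of_AA [Finite G] {S A W : Subgroup G} (hA : A ∈ AA S) (hW : W ≤ S)
    (hc : ∀ a ∈ W, ∀ b ∈ W, a * b = b * a) (hs : ∀ a ∈ W, a * a = 1) : io W A ≤ io A W := by
  classical
  obtain ⟨hAS, hAc, hAs, hmax⟩ := hA
  set C := A ⊓ centralizer (W : Set G) with hC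
  -- the product `W C`
  have hWC : ∀ w ∈ W, ∀ c ∈ C, w * c = c * w := fun w hw c hcc => (cent_comm (mem_inf.1 hcc).2 hw).symm
  let E : Subgroup G :=
    { carrier := {x | ∃ w ∈ W, ∃ c ∈ C, x = w * c}
      one_mem' := ⟨1, one_mem _, 1, one_mem _, by simp⟩
      mul_mem' := by
        rintro _ _ ⟨w, hw, c, hcc, rfl⟩ ⟨w', hw', c', hc', rfl⟩
        refine ⟨w * w', mul_mem hw hw', c * c', mul_mem hcc hc', ?_⟩
        have := hWC w' hw' c hcc
        calc w * c * (w' * c') = w * (c * w') * c' := by group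
          _ = w * (w' * c) * c' := by rw [this]
          _ = w * w' * (c * c') := by group
      inv_mem' := by
        rintro _ ⟨w, hw, c, hcc, rfl⟩
        refine ⟨w⁻¹, inv_mem hw, c⁻¹, inv_mem hcc, ?_⟩
        rw [mul_inv_rev]
        exact (hWC w⁻¹ (inv_mem hw) c⁻¹ (inv_mem hcc)).symm }
  have hWE : W ≤ E := fun w hw => ⟨w, hw, 1, one_mem _, by simp⟩
  have hCE : C ≤ E := fun c hcc => ⟨1, one_mem _, c, hcc, by simp⟩
  have hES : E ≤ S := by
    rintro _ ⟨w, hw, c, hcc, rfl⟩
    exact mul_mem (hW hw) (hAS (mem_inf.1 hcc).1)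
  have hEc : ∀ a ∈ E, ∀ b ∈ E, a * b = b * a := by
    rintro _ ⟨w, hw, c, hcc, rfl⟩ _ ⟨w', hw', c', hc', rfl⟩
    have h1 := hWC w' hw' c hcc
    have h2 := hWC w hw c' hc'
    have h3 := hc w hw w' hw'
    have h4 := hAc c (mem_inf.1 hcc).1 c' (mem_inf.1 hc').1
    calc w * c * (w' * c') = w * (c * w') * c' := by group
      _ = w * w' * (c * c') := by rw [← h1]; group
      _ = w' * w * (c' * c) := by rw [h3, h4]
      _ = w' * (w * c') * c := by group
      _ = w' * c' * (w * c) := by rw [h2]; group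
  have hEs : ∀ a ∈ E, a * a = 1 := by
    rintro _ ⟨w, hw, c, hcc, rfl⟩
    have h1 := hWC w hw c hcc
    calc w * c * (w * c) = w * (c * w) * c := by group
      _ = (w * w) * (c * c) := by rw [← h1]; group
      _ = 1 := by rw [hs w hw, hAs c (mem_inf.1 hcc).1, one_mul]
  have hEA := hmax E hES hEc hEs
  -- |E| = |C| * |E : C| and |E : C| ≥ |W : W ∩ C(A)|
  have h1 : C.relIndex E * Nat.card C = Nat.card E := by
    rw [mul_comm, ← Subgroup.card_mul_index (C.subgroupOf E),
      Nat.card_congr (Subgroup.subgroupOfEquivOfLe hCE).toEquiv]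
    rfl
  have h2 : C.relIndex A * Nat.card C = Nat.card A := by
    rw [mul_comm, ← Subgroup.card_mul_index (C.subgroupOf A),
      Nat.card_congr (Subgroup.subgroupOfEquivOfLe (inf_le_left : C ≤ A)).toEquiv]
    rfl
  have h3 : C.relIndex A = io A W := by
    rw [hC]; exact Subgroup.inf_relIndex_left A (centralizer (W : Set G))
  have h40 : C ≤ centralizer (A : Set G) := by
    intro c hcc
    exact mem_cent fun a ha => hAc c (mem_inf.1 hcc).1 a ha
  have h4 : io W A ≤ C.relIndex W := Subgroup.relIndex_le_of_le_left h40 (rel_ne_zero C W)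
  have h5 : C.relIndex W ≤ C.relIndex E := Subgroup.relIndex_le_of_le_right hWE (rel_ne_zero _ _)
  have h6 : C.relIndex E * Nat.card C ≤ C.relIndex A * Nat.card C := by rw [h1, h2]; exact hEA
  have h7 : C.relIndex E ≤ C.relIndex A := Nat.le_of_mul_le_mul_right h6 Nat.card_pos
  omega

end H14.GF
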