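import Cfsg.Agent.Lib.H14.GF2

/-!
# Glauberman's 2-factorization: the configuration `KT` and Claim 1, case `V ≤ X`
-/

set_option autoImplicit false

universe u

namespace H14.GF

open Subgroup H14.SF

variable {G : Type u} [Group G]

theorem rel_pos [Finite G] (H K : Subgroup G) : 0 < H.relIndex K := Nat.pos_of_ne_zero (rel_ne_zero _ _)

theorem rel_anti [Finite G] {H K : Subgroup G} (L : Subgroup G) (h : H ≤ K) : K.relIndex L ≤ H.relIndex L :=
  Subgroup.relIndex_le_of_le_left h (rel_ne_zero H L)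

theorem rel_mono [Finite G] (H : Subgroup G) {K L : Subgroup G} (h : K ≤ L) : H.relIndex K ≤ H.relIndex L :=
  Subgroup.relIndex_le_of_le_right h (rel_ne_zero H L)

theorem nconj {k x : G} {H : Subgroup G} (hk : k ∈ normalizer (H : Set G)) (hx : x ∈ H) : k * x * k⁻¹ ∈ H :=
  (Subgroup.mem_normalizer_iff.1 hk x).1 hx

theorem nconj' {k x : G} {H : Subgroup G} (hk : k ∈ normalizer (H : Set G)) (hx : x ∈ H) : k⁻¹ * x * k ∈ H := by
  have := nconj (inv_mem hk) hx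
  rwa [inv_inv] at this

/-- elements commuting with `A` modulo `N` -/
def secC (N A : Subgroup G) : Subgroup G where
  carrier := {w | w ∈ normalizer (N : Set G) ∧ ∀ a ∈ A, w * a * w⁻¹ * a⁻¹ ∈ N}
  one_mem' := ⟨one_mem _, fun a _ => by simp⟩
  mul_mem' := by
    rintro x y ⟨hx, hxa⟩ ⟨hy, hya⟩
    refine ⟨mul_mem hx hy, fun a ha => ?_⟩
    have h1 := nconj hx (hya a ha)
    have h2 := mul_mem h1 (hxa a ha)
    have e : x * (y * a * y⁻¹ * a⁻¹) * x⁻¹ * (x * a * x⁻¹ * a⁻¹) = x * y * a * (x * y)⁻¹ * a⁻¹ := by group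
    rwa [e] at h2
  inv_mem' := by
    rintro x ⟨hx, hxa⟩
    refine ⟨inv_mem hx, fun a ha => ?_⟩
    have h1 := nconj (inv_mem hx) (inv_mem (hxa a ha))
    have e : x⁻¹ * (x * a * x⁻¹ * a⁻¹)⁻¹ * x⁻¹⁻¹ = x⁻¹ * a * x⁻¹⁻¹ * a⁻¹ := by group
    rwa [e] at h1

theorem mem_secC {N A : Subgroup G} {w : G} :
    w ∈ secC N A ↔ w ∈ normalizer (N : Set G) ∧ ∀ a ∈ A, w * a * w⁻¹ * a⁻¹ ∈ N := Iff.rfl

theorem secC_conj {N A : Subgroup G} {k w : G} (hN : k ∈ normalizer (N : Set G))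
    (hA : k ∈ normalizer (A : Set G)) (hw : w ∈ secC N A) : k * w * k⁻¹ ∈ secC N A := by
  obtain ⟨h1, h2⟩ := hw
  refine ⟨mul_mem (mul_mem hN h1) (inv_mem hN), fun a ha => ?_⟩
  have h3 := nconj hN (h2 _ (nconj' hA ha))
  have e : k * (w * (k⁻¹ * a * k) * w⁻¹ * (k⁻¹ * a * k)⁻¹) * k⁻¹ = k * w * k⁻¹ * a * (k * w * k⁻¹)⁻¹ * a⁻¹ := by
    group
  rwa [e] at h3

theorem comm_symm {N : Subgroup G} {a b : G} (h : a * b * a⁻¹ * b⁻¹ ∈ N) : b * a * b⁻¹ * a⁻¹ ∈ N := by
  have := inv_mem h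
  have e : (a * b * a⁻¹ * b⁻¹)⁻¹ = b * a * b⁻¹ * a⁻¹ := by group
  rwa [e] at this

theorem le_normalizer_of_conj [Finite G] {K H : Subgroup G} (h : ∀ k ∈ K, ∀ x ∈ H, k * x * k⁻¹ ∈ H) :
    K ≤ normalizer (H : Set G) := by
  intro k hk
  rw [Subgroup.mem_normalizer_iff]
  intro x
  refine ⟨h k hk x, fun hx => ?_⟩
  have := h k⁻¹ (inv_mem hk) _ hx
  have e : k⁻¹ * (k * x * k⁻¹) * k⁻¹⁻¹ = x := by group
  rwa [e] at this

/-- an odd order element commuting with its commutator with `p`, the commutator being a 2-element -/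
theorem odd_comm {P : Subgroup G} (hP : IsPGroup 2 P) {x p n : G} (hx : Odd (orderOf x)) (hn : n ∈ P)
    (h : x * p * x⁻¹ * p⁻¹ = n) (hc : x * n = n * x) : n = 1 := by
  have h1 : ∀ k : ℕ, x ^ k * p * (x ^ k)⁻¹ = n ^ k * p := by
    intro k
    induction k with
    | zero => simp
    | succ k ih =>
      have hxp : x * p * x⁻¹ = n * p := by rw [← h]; group
      have hck : x * n ^ k = n ^ k * x := (Commute.pow_right (show Commute x n from hc) k)
      calc x ^ (k + 1) * p * (x ^ (k + 1))⁻¹ = x * (x ^ k * p * (x ^ k)⁻¹) * x⁻¹ := by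
            rw [pow_succ']; group
        _ = x * n ^ k * p * x⁻¹ := by rw [ih]; group
        _ = n ^ k * (x * p * x⁻¹) := by rw [hck]; group
        _ = n ^ (k + 1) * p := by rw [hxp, pow_succ]; group
  have h2 := h1 (orderOf x)
  rw [pow_orderOf_eq_one] at h2
  have h3 : n ^ orderOf x = 1 := by
    have : n ^ orderOf x * p = 1 * p := by rw [← h2]; group
    exact mul_right_cancel this
  have h4 : orderOf n ∣ orderOf x := orderOf_dvd_of_pow_eq_one h3
  obtain ⟨j, hj⟩ := (hP ⟨n, hn⟩)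
  have h5 : n ^ 2 ^ j = 1 := by
    have := congrArg Subtype.val hj
    simpa using this
  have h6 : orderOf n ∣ 2 ^ j := orderOf_dvd_of_pow_eq_one h5
  have h7 : Nat.Coprime (orderOf x) (2 ^ j) := Nat.Coprime.pow_right _ (Nat.coprime_two_right.2 hx)
  have h8 : orderOf n ∣ 1 := by
    rw [← Nat.Coprime.gcd_eq_one h7]
    exact Nat.dvd_gcd h4 h6
  exact orderOf_eq_one_iff.1 (Nat.dvd_one.1 h8)

/-- maximality -/
theorem AA_mem [Finite G] {S A : Subgroup G} (hA : A ∈ AA S) {v : G} (hv : v ∈ S) (hv2 : v * v = 1)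
    (hc : ∀ a ∈ A, a * v = v * a) : v ∈ A := by
  classical
  obtain ⟨hAS, hAc, hAs, hmax⟩ := hA
  have hvi : v⁻¹ = v := inv_eq_of_mul_eq_one_left hv2
  have hcv : ∀ y, y * v ∈ A → y * v = v * y := by
    intro y hy
    have := hc _ hy
    calc y * v = (v * v) * (y * v) := by rw [hv2, one_mul]
      _ = v * (v * (y * v)) := by group
      _ = v * (y * v * v) := by rw [this]
      _ = v * (y * (v * v)) := by group
      _ = v * y := by rw [hv2, mul_one]
  let E : Subgroup G :=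
    { carrier := {x | x ∈ A ∨ x * v ∈ A}
      one_mem' := Or.inl (one_mem _)
      mul_mem' := by
        rintro x y (hx | hx) (hy | hy)
        · exact Or.inl (mul_mem hx hy)
        · right
          have := mul_mem hx hy
          rwa [← mul_assoc] at this
        · right
          have := mul_mem hx hy
          have e : x * v * y = x * y * v := by rw [mul_assoc, ← hc y hy, mul_assoc]
          rwa [e] at this
        · left
          have := mul_mem hx hy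
          have e : x * v * (y * v) = x * y := by
            rw [hcv y hy]
            calc x * v * (v * y) = x * (v * v) * y := by group
              _ = x * y := by rw [hv2, mul_one]
          rwa [e] at this
      inv_mem' := by
        rintro x (hx | hx)
        · exact Or.inl (inv_mem hx)
        · right
          have := inv_mem hx
          rw [mul_inv_rev, hvi] at this
          have h2 := hcv x hx
          have e : v * x⁻¹ = x⁻¹ * v := by
            have : v * x = x * v := h2.symm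
            calc v * x⁻¹ = x⁻¹ * (x * v) * x⁻¹ := by group
              _ = x⁻¹ * (v * x) * x⁻¹ := by rw [h2]
              _ = x⁻¹ * v := by group
          rwa [e] at this }
  have hEv : v ∈ E := Or.inr (by rw [hv2]; exact one_mem _)
  have hAE : A ≤ E := fun a ha => Or.inl ha
  have hES : E ≤ S := by
    rintro x (hx | hx)
    · exact hAS hx
    · have := mul_mem (hAS hx) hv
      rwa [mul_assoc, hv2, mul_one] at this
  have hdec : ∀ x ∈ E, ∃ a ∈ A, x = a ∨ x = a * v := by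
    rintro x (hx | hx)
    · exact ⟨x, hx, Or.inl rfl⟩
    · exact ⟨x * v, hx, Or.inr (by rw [mul_assoc, hv2, mul_one])⟩
  have hEc : ∀ a ∈ E, ∀ b ∈ E, a * b = b * a := by
    intro x hx y hy
    obtain ⟨a, ha, hxa⟩ := hdec x hx
    obtain ⟨b, hb, hyb⟩ := hdec y hy
    have h1 := hAc a ha b hb
    have h2 := hc a ha
    have h3 := hc b hb
    rcases hxa with rfl | rfl <;> rcases hyb with rfl | rfl
    · exact h1
    · rw [← mul_assoc, h1, mul_assoc, h2, mul_assoc]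
    · rw [mul_assoc, ← h3, ← mul_assoc, h1, mul_assoc]
    · calc a * v * (b * v) = a * (v * b) * v := by group
        _ = a * (b * v) * v := by rw [h3]
        _ = (a * b) * (v * v) := by group
        _ = (b * a) * (v * v) := by rw [h1]
        _ = b * (a * v) * v := by group
        _ = b * (v * a) * v := by rw [h2]
        _ = b * v * (a * v) := by group
  have hEs : ∀ a ∈ E, a * a = 1 := by
    intro x hx
    obtain ⟨a, ha, hxa⟩ := hdec x hx
    rcases hxa with rfl | rfl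
    · exact hAs _ ha
    · calc a * v * (a * v) = a * (v * a) * v := by group
        _ = a * (a * v) * v := by rw [hc a ha]
        _ = (a * a) * (v * v) := by group
        _ = 1 := by rw [hAs a ha, hv2, one_mul]
  have h1 := hmax E hES hEc hEs
  have h2 : A = E := Subgroup.eq_of_le_of_card_ge hAE h1
  rw [h2]; exact hEv

theorem le_sSup_AA {S A : Subgroup G} (hA : A ∈ AA S) : A ≤ JE S := le_sSup hA

/-- E1 -/
theorem Strong.le_A [Finite G] {S A T V : Subgroup G} (hA : A ∈ AA S) (AT : A ≤ T) (TS : T ≤ S)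
    (hV : Strong T V) : V ≤ A := by
  have hc : A ≤ centralizer (V : Set G) := by
    by_contra hc
    have h1 := (hV.ineq A AT (by
      intro a ha b hb
      rw [hA.2.1 a ha b hb]
      simp) (by intro a ha; rw [hA.2.2.1 a ha]; exact one_mem _) hc).1
    have h2 := io_le_of_AA hA (hV.le.trans TS) hV.comm hV.sq
    have p1 := io_pos (G := G) A V
    have h3 : io V A ^ 2 ≤ io A V ^ 2 := Nat.pow_le_pow_left h2 2
    have h4 : io A V ^ 2 ≤ io A V ^ 3 := Nat.pow_le_pow_right p1 (by norm_num)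
    omega
  intro v hv
  exact AA_mem hA (TS (hV.le hv)) (hV.sq v hv) fun a ha => cent_comm (hc ha) hv

/-- the configuration -/
structure KT (S A K L B X H : Subgroup G) (r : ℕ) : Prop where
  pS : IsPGroup 2 S
  hA : A ∈ AA S
  AK : A ≤ K
  LK : L ≤ K
  KL : K ≤ normalizer (L : Set G)
  gen : ∀ k ∈ K, ∃ l ∈ L, ∃ a ∈ A, k = l * a
  odd : ∀ Y : Subgroup G, (∀ x ∈ L, Odd (orderOf x) → x ∈ Y) → L ≤ Y
  XS : X ≤ S
  BA : B ≤ A
  BX : B ≤ X
  AX : A ⊓ X ≤ B
  KX : K ≤ normalizer (X : Set G)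
  min : ∀ Y : Subgroup G, B ≤ Y → (∀ k ∈ K, ∀ y ∈ Y, k * y * k⁻¹ ∈ Y) → X ≤ Y
  hr : r = B.relIndex A
  r2 : 2 ≤ r
  P2 : ∀ N M : Subgroup G, N ≤ M → M ≤ X → K ≤ normalizer (N : Set G) → K ≤ normalizer (M : Set G) →
    (∀ a ∈ M, ∀ b ∈ M, a * b = b * a) → (∀ a ∈ M, a * a = 1) →
    (∃ l ∈ L, ∃ m ∈ M, l * m * l⁻¹ * m⁻¹ ∉ N) →
    ∀ C ≤ M, (∀ c ∈ C, ∀ a ∈ A, c * a * c⁻¹ * a⁻¹ ∈ N) → r ^ 2 ≤ C.relIndex M
  P3 : ∀ V ≤ A, ¬ V ≤ B → ∃ v ∈ V, v ∉ B ∧ ∃ x ∈ K, Odd (orderOf x) ∧ v * x * v⁻¹ = x⁻¹ ∧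
    (∀ a ∈ A, a ∉ B → a * x ≠ x * a) ∧
    (∀ N ≤ K, K ≤ normalizer (N : Set G) → x ∈ N → L ≤ N) ∧
    ∀ X₁ X₂ D : Subgroup G, X₁ ≤ X → X₂ ≤ X₁ → D ≤ X₁ → v ∈ normalizer (X₁ : Set G) →
      v ∈ normalizer (X₂ : Set G) → x ∈ normalizer (X₁ : Set G) → x ∈ normalizer (X₂ : Set G) →
      (∀ a ∈ X₁, a * a ∈ X₂) → (∃ w ∈ X₁, x * w * x⁻¹ * w⁻¹ ∉ X₂) → (∀ w ∈ X₁, v * w * v⁻¹ * w⁻¹ ∈ D) →
      ((B ⊓ V).relIndex V) ^ 2 ≤ X₂.relIndex D
  P4 : ∀ N ≤ K, K ≤ normalizer (N : Set G) → ∀ z ∈ A, z ∉ B → z ∈ N → L ≤ N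
  HS : H ≤ S
  SH : S ≤ normalizer (H : Set G)
  KH : K ≤ normalizer (H : Set G)
  AH : A ⊓ H ≤ B
  cent : ∀ x ∈ L, Odd (orderOf x) → (∀ h ∈ H, x * h = h * x) → x = 1

/-- squares contain the commutators -/
theorem comm_of_sq {X₁ X₂ : Subgroup G} (h : ∀ a ∈ X₁, a * a ∈ X₂) {a b : G} (ha : a ∈ X₁) (hb : b ∈ X₁) :
    a * b * a⁻¹ * b⁻¹ ∈ X₂ := by
  have h1 := h a ha
  have h2 := h (a⁻¹ * b) (mul_mem (inv_mem ha) hb)
  have h3 := h b⁻¹ (inv_mem hb)
  have e : a * b * a⁻¹ * b⁻¹ = (a * a) * ((a⁻¹ * b) * (a⁻¹ * b)) * (b⁻¹ * b⁻¹) := by group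
  rw [e]
  exact mul_mem (mul_mem h1 h2) h3

namespace KT

variable {S A K L B X H : Subgroup G} {r : ℕ}

theorem BK (h : KT S A K L B X H r) : B ≤ K := h.BA.trans h.AK

theorem XK (h : KT S A K L B X H r) : X ≤ K :=
  h.min K h.BK fun k hk y hy => mul_mem (mul_mem hk hy) (inv_mem hk)

/-- a 2-group normalised by `K`, `[L,[L,W]] = 1` implies `[L,W] = 1` -/
theorem cent_of_cent2 (h : KT S A K L B X H r) {W N : Subgroup G} (hW : IsPGroup 2 N)
    (h1 : ∀ l ∈ L, ∀ w ∈ W, l * w * l⁻¹ * w⁻¹ ∈ N)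
    (h2 : L ≤ centralizer (N : Set G)) : L ≤ centralizer (W : Set G) := by
  apply h.odd
  intro x hx ho
  apply mem_cent
  intro w hw
  have h3 := h1 x hx w hw
  have h4 := odd_comm hW ho h3 rfl (cent_comm (h2 hx) h3)
  have : x * w = x * w * x⁻¹ * w⁻¹ * (w * x) := by group
  rw [this, h4, one_mul]

theorem centK (h : KT S A K L B X H r) {g : G} (h1 : ∀ l ∈ L, l * g = g * l) (h2 : ∀ a ∈ A, a * g = g * a) :
    g ∈ centralizer (K : Set G) := by
  apply mem_cent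
  intro k hk
  obtain ⟨l, hl, a, ha, rfl⟩ := h.gen k hk
  rw [← mul_assoc, ← h1 l hl, mul_assoc, ← h2 a ha, mul_assoc]

end KT

end H14.GF
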