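import Cfsg.Agent.Lib.H14.GF3

/-!
# Glauberman's 2-factorization: Claim 1, case `V ≤ X`
-/

set_option autoImplicit false

universe u

namespace H14.GF

open Subgroup H14.SF

variable {G : Type u} [Group G]

/-- elements commuting with `u` modulo `N` -/
def secE (N : Subgroup G) (u : G) : Subgroup G where
  carrier := {w | w ∈ normalizer (N : Set G) ∧ w * u * w⁻¹ * u⁻¹ ∈ N}
  one_mem' := ⟨one_mem _, by simp⟩
  mul_mem' := by
    rintro x y ⟨hx, hxa⟩ ⟨hy, hya⟩
    refine ⟨mul_mem hx hy, ?_⟩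
    have h1 := nconj hx hya
    have h2 := mul_mem h1 hxa
    have e : x * (y * u * y⁻¹ * u⁻¹) * x⁻¹ * (x * u * x⁻¹ * u⁻¹) = x * y * u * (x * y)⁻¹ * u⁻¹ := by group
    rwa [e] at h2
  inv_mem' := by
    rintro x ⟨hx, hxa⟩
    refine ⟨inv_mem hx, ?_⟩
    have h1 := nconj (inv_mem hx) (inv_mem hxa)
    have e : x⁻¹ * (x * u * x⁻¹ * u⁻¹)⁻¹ * x⁻¹⁻¹ = x⁻¹ * u * x⁻¹⁻¹ * u⁻¹ := by group
    rwa [e] at h1

theorem mem_secE {N : Subgroup G} {u w : G} :
    w ∈ secE N u ↔ w ∈ normalizer (N : Set G) ∧ w * u * w⁻¹ * u⁻¹ ∈ N := Iff.rfl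

/-- counting for pairings into a group of order two -/
theorem pairing_count [Finite G] {V X F : Subgroup G} (hV : V ≤ normalizer (F : Set G))
    (h2 : ∀ u ∈ X, ∀ w ∈ V, ∀ w' ∈ V, w * u * w⁻¹ * u⁻¹ ∉ F → w' * u * w'⁻¹ * u⁻¹ ∉ F →
      (w * w') * u * (w * w')⁻¹ * u⁻¹ ∈ F)
    (hm : ∀ w ∈ V, ∀ u ∈ X, ∀ u' ∈ X, w * u * w⁻¹ * u⁻¹ ∈ F → w * u' * w⁻¹ * u'⁻¹ ∈ F →
      w * (u * u') * w⁻¹ * (u * u')⁻¹ ∈ F)
    (hi : ∀ w ∈ V, ∀ u ∈ X, w * u * w⁻¹ * u⁻¹ ∈ F → w * u⁻¹ * w⁻¹ * u⁻¹⁻¹ ∈ F) :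
    (secC F X).relIndex V ≤ io X V := by
  classical
  set C := X ⊓ centralizer (V : Set G) with hC
  let 𝒴 : Set (Subgroup G) := {Y | C ≤ Y ∧ Y ≤ X ∧ (secC F Y).relIndex V ≤ C.relIndex Y}
  have hne : 𝒴.Nonempty := by
    refine ⟨C, le_rfl, inf_le_left, ?_⟩
    have : V ≤ secC F C := by
      intro v hv
      refine ⟨hV hv, fun a ha => ?_⟩
      have := cent_comm (mem_inf.1 ha).2 hv
      rw [← this]; simp
    rw [Subgroup.relIndex_eq_one.2 this]
    exact Nat.one_le_iff_ne_zero.2 (rel_ne_zero _ _)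
  obtain ⟨Y, hY⟩ := Set.Finite.exists_maximal (Set.toFinite 𝒴) hne
  obtain ⟨⟨hCY, hYX, hYi⟩, hmax⟩ := hY
  have hYeq : Y = X := by
    by_contra hYne
    have hlt : Y < X := lt_of_le_of_ne hYX hYne
    obtain ⟨u, huX, huY⟩ := SetLike.exists_of_lt hlt
    set Y₂ := Y ⊔ zpowers u with hY₂
    have hYY : Y ≤ Y₂ := le_sup_left
    have hu2 : u ∈ Y₂ := (le_sup_right : zpowers u ≤ Y₂) (mem_zpowers u)
    have h1 : V ⊓ (secC F Y ⊓ secE F u) ≤ secC F Y₂ := by
      intro w hw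
      obtain ⟨hwV, hw1, hw2⟩ := mem_inf.1 hw |>.imp_right mem_inf.1
      refine ⟨hV hwV, ?_⟩
      let P : Subgroup G :=
        { carrier := {y | y ∈ X ∧ w * y * w⁻¹ * y⁻¹ ∈ F}
          one_mem' := ⟨one_mem _, by simp⟩
          mul_mem' := fun {a b} ha hb => ⟨mul_mem ha.1 hb.1, hm w hwV a ha.1 b hb.1 ha.2 hb.2⟩
          inv_mem' := fun {a} ha => ⟨inv_mem ha.1, hi w hwV a ha.1 ha.2⟩ }
      have hP : Y₂ ≤ P := by
        refine sup_le (fun y hy => ⟨hYX hy, hw1.2 y hy⟩) ?_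
        rw [zpowers_le]
        exact ⟨huX, hw2.2⟩
      intro a ha
      exact (hP ha).2
    have h3 : (secE F u).relIndex V ≤ 2 := by
      apply Nat.le_of_dvd (by norm_num)
      rw [Subgroup.relIndex_dvd_two_iff]
      by_cases hex : ∃ a ∈ V, a * u * a⁻¹ * u⁻¹ ∉ F
      · obtain ⟨a, haV, ha⟩ := hex
        refine ⟨a, haV, fun b hb => ?_⟩
        by_cases hbu : b * u * b⁻¹ * u⁻¹ ∈ F
        · exact Or.inr ⟨hV hb, hbu⟩
        · exact Or.inl ⟨hV (mul_mem hb haV), h2 u huX b hb a haV hbu ha⟩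
      · push Not at hex
        exact ⟨1, one_mem _, fun b hb => Or.inr ⟨hV hb, hex b hb⟩⟩
    have h4 : (secC F Y₂).relIndex V ≤ (secC F Y).relIndex V * 2 := by
      calc (secC F Y₂).relIndex V ≤ (V ⊓ (secC F Y ⊓ secE F u)).relIndex V := rel_anti V h1
        _ = (secC F Y ⊓ secE F u).relIndex V := Subgroup.inf_relIndex_left _ _
        _ ≤ (secC F Y).relIndex V * (secE F u).relIndex V := Subgroup.relIndex_inf_le
        _ ≤ _ := Nat.mul_le_mul_left _ h3
    have h5 : 2 ≤ Y.relIndex Y₂ := by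
      have hne1 : Y.relIndex Y₂ ≠ 1 := by
        intro h
        rw [Subgroup.relIndex_eq_one] at h
        exact huY (h hu2)
      have := rel_pos (G := G) Y Y₂
      omega
    have h6 : C.relIndex Y * Y.relIndex Y₂ = C.relIndex Y₂ := Subgroup.relIndex_mul_relIndex _ _ _ hCY hYY
    have hin : Y₂ ∈ 𝒴 := by
      refine ⟨hCY.trans hYY, sup_le hYX ((zpowers_le).2 huX), ?_⟩
      calc (secC F Y₂).relIndex V ≤ (secC F Y).relIndex V * 2 := h4
        _ ≤ C.relIndex Y * Y.relIndex Y₂ := Nat.mul_le_mul hYi h5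
        _ = _ := h6
    exact huY (hmax hin hYY hu2)
  rw [hYeq] at hYi
  refine hYi.trans (le_of_eq ?_)
  rw [hC]
  exact Subgroup.inf_relIndex_left _ _

namespace KT

variable {S A K L B X H : Subgroup G} {r : ℕ}

theorem claim1a [Finite G] (h : KT S A K L B X H r) {T V : Subgroup G} (AT : A ≤ T) (TS : T ≤ S) (XT : X ≤ T)
    (hV : Strong T V) (VX : V ≤ X) : X ≤ centralizer (V : Set G) := by
  classical
  haveI : Fact (Nat.Prime 2) := ⟨Nat.prime_two⟩
  by_contra hXV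
  have VA : V ≤ A := hV.le_A h.hA AT TS
  have hAc := h.hA.2.1
  have hAs := h.hA.2.2.1
  have hXK := h.XK
  have hX2 : IsPGroup 2 X := h.pS.to_le h.XS
  -- conjugates of V
  set 𝒱 : Set (Subgroup G) := {U | ∃ k ∈ K, U = cj k V} with h𝒱
  set W : Subgroup G := sSup 𝒱 with hW
  have hXcj : ∀ k ∈ K, cj k X = X := fun k hk => cj_of_mem_normalizer (h.KX hk)
  have hVX : ∀ k ∈ K, cj k V ≤ X := fun k hk => by
    have := cj_mono (k := k) VX
    rwa [hXcj k hk] at this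
  have hXT : ∀ k ∈ K, X ≤ cj k T := fun k hk => by
    have := cj_mono (k := k) XT
    rwa [hXcj k hk] at this
  have hcomm : ∀ k ∈ K, ∀ l ∈ K, cj k V ≤ centralizer (cj l V : Set G) := fun k hk l hl =>
    Strong.commute (hV.cj l) (hV.cj k) ((hVX k hk).trans (hXT l hl)) ((hVX l hl).trans (hXT k hk))
  have hWc' : W ≤ centralizer (W : Set G) := by
    apply sSup_le
    rintro _ ⟨k, hk, rfl⟩
    apply le_cent_comm
    apply sSup_le
    rintro _ ⟨l, hl, rfl⟩
    exact hcomm l hl k hk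
  have hWc : ∀ a ∈ W, ∀ b ∈ W, a * b = b * a := fun a ha b hb => cent_comm (hWc' ha) hb
  have hWs : ∀ a ∈ W, a * a = 1 := by
    let P : Subgroup G :=
      { carrier := {w | w ∈ W ∧ w * w = 1}
        one_mem' := ⟨one_mem _, by simp⟩
        mul_mem' := by
          rintro a b ⟨ha, ha2⟩ ⟨hb, hb2⟩
          refine ⟨mul_mem ha hb, ?_⟩
          calc a * b * (a * b) = a * (b * a) * b := by group
            _ = a * (a * b) * b := by rw [hWc a ha b hb]
            _ = (a * a) * (b * b) := by group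
            _ = 1 := by rw [ha2, hb2, one_mul]
        inv_mem' := by
          rintro a ⟨ha, ha2⟩
          refine ⟨inv_mem ha, ?_⟩
          rw [← mul_inv_rev, ha2, inv_one] }
    have hWP : W ≤ P := by
      apply sSup_le
      rintro _ ⟨k, hk, rfl⟩
      intro x hx
      refine ⟨(le_sSup (s := 𝒱) ⟨k, hk, rfl⟩) hx, ?_⟩
      have h1 := hV.sq _ (mem_cj.1 hx)
      calc x * x = k * ((k⁻¹ * x * k) * (k⁻¹ * x * k)) * k⁻¹ := by group
        _ = 1 := by rw [h1]; group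
    exact fun a ha => (hWP ha).2
  have hVW : ∀ k ∈ K, cj k V ≤ W := fun k hk => le_sSup (s := 𝒱) ⟨k, hk, rfl⟩
  have hVW1 : V ≤ W := by
    have := hVW 1 (one_mem _)
    have e : cj 1 V = V := by ext x; rw [mem_cj]; simp
    rwa [e] at this
  have hWX : W ≤ X := by
    apply sSup_le
    rintro _ ⟨k, hk, rfl⟩
    exact hVX k hk
  have hWS : W ≤ S := hWX.trans h.XS
  have hWK : ∀ k ∈ K, ∀ w ∈ W, k * w * k⁻¹ ∈ W := by
    intro k hk
    have : W ≤ cj k⁻¹ W := by
      apply sSup_le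
      rintro _ ⟨l, hl, rfl⟩
      have h1 := hVW (k * l) (mul_mem hk hl)
      intro x hx
      rw [mem_cj, inv_inv]
      apply h1
      rw [mem_cj] at hx ⊢
      have e : (k * l)⁻¹ * (k * x * k⁻¹) * (k * l) = l⁻¹ * x * l := by group
      rwa [e]
    intro w hw
    have := mem_cj.1 (this hw)
    rwa [inv_inv] at this
  have hKW : K ≤ normalizer (W : Set G) := le_normalizer_of_conj hWK
  have hW2 : IsPGroup 2 W := h.pS.to_le hWS
  -- W normalizes its subgroups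
  have hWN : ∀ M ≤ W, W ≤ normalizer (M : Set G) := by
    intro M hM
    apply le_normalizer_of_conj
    intro w hw m hm
    rw [hWc w hw m (hM hm)]
    simpa using hm
  -- the numbers
  set f := io W A with hf
  set y := io B W with hy
  have hf1 : f ≤ io A W := io_le_of_AA h.hA hWS hWc hWs
  have hf2 : io A W ≤ y * r := by
    have e1 : (centralizer (W : Set G)).relIndex (B ⊓ A) * B.relIndex A =
        (centralizer (W : Set G) ⊓ B).relIndex A := Subgroup.relIndex_inf_mul_relIndex _ _ _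
    have e2 : B ⊓ A = B := inf_eq_left.2 h.BA
    rw [e2, ← h.hr] at e1
    calc io A W ≤ (centralizer (W : Set G) ⊓ B).relIndex A := rel_anti A inf_le_left
      _ = y * r := e1.symm
  have hr2 := h.r2
  have hf3 : f < r ^ 3 := by
    have hfy : f ≤ y * r := hf1.trans hf2
    have hchain := chain_ineq 𝒱 hW (Nat.card B) B le_rfl (by
      rintro _ ⟨k, hk, rfl⟩ R' hR' hn
      refine ((hV.cj k).ineq R' (hR'.trans (h.BX.trans (hXT k hk))) ?_ ?_ hn).1
      · intro a ha b hb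
        rw [hAc a (h.BA (hR' ha)) b (h.BA (hR' hb))]
        simp
      · intro a ha
        rw [hAs a (h.BA (hR' ha))]; exact one_mem _)
    rcases hchain with hc | hc
    · have hy1 : y = 1 := io_eq_one.2 hc
      rw [hy1, one_mul] at hfy
      calc f ≤ r := hfy
        _ = r ^ 1 := (pow_one r).symm
        _ < r ^ 3 := Nat.pow_lt_pow_right hr2 (by norm_num)
    · have h1 : io W B ≤ f := io_mono_right W h.BA
      have h2 : y ^ 3 < (y * r) ^ 2 := lt_of_lt_of_le hc (Nat.pow_le_pow_left (h1.trans hfy) 2)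
      have hypos : 0 < y := io_pos _ _
      have h3 : y < r ^ 2 := by
        have : y ^ 2 * y < y ^ 2 * r ^ 2 := by
          calc y ^ 2 * y = y ^ 3 := by ring
            _ < (y * r) ^ 2 := h2
            _ = y ^ 2 * r ^ 2 := by ring
        exact Nat.lt_of_mul_lt_mul_left this
      calc f ≤ y * r := hfy
        _ < r ^ 2 * r := Nat.mul_lt_mul_of_pos_right h3 (by omega)
        _ = r ^ 3 := by ring
  -- the dichotomy
  have hdich : ∀ M ≤ W, K ≤ normalizer (M : Set G) → (∃ l ∈ L, ∃ m ∈ M, l * m * l⁻¹ * m⁻¹ ≠ 1) →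
      ∀ l ∈ L, ∀ w ∈ W, l * w * l⁻¹ * w⁻¹ ∈ M := by
    intro M hMW hKM hnc
    by_contra hcon
    push Not at hcon
    have hN1 : K ≤ normalizer ((⊥ : Subgroup G) : Set G) := by
      rw [Subgroup.normalizer_eq_top (⊥ : Subgroup G)]; exact le_top
    set C := W ⊓ centralizer (A : Set G) with hC
    have h1 : r ^ 2 ≤ (C ⊓ M).relIndex M := by
      refine h.P2 ⊥ M bot_le (hMW.trans hWX) hN1 hKM (fun a ha b hb => hWc a (hMW ha) b (hMW hb))
        (fun a ha => hWs a (hMW ha)) ?_ (C ⊓ M) inf_le_right ?_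
      · obtain ⟨l, hl, m, hm, hne⟩ := hnc
        exact ⟨l, hl, m, hm, fun hh => hne (mem_bot.1 hh)⟩
      · intro c hc a ha
        have := cent_comm (mem_inf.1 (mem_inf.1 hc).1).2 ha
        rw [mem_bot, this]; group
    set C' := W ⊓ secC M A with hC'
    have h2 : r ^ 2 ≤ C'.relIndex W := by
      refine h.P2 M W hMW hWX hKM hKW hWc hWs ?_ C' inf_le_left ?_
      · obtain ⟨l, hl, w, hw, hne⟩ := hcon
        exact ⟨l, hl, w, hw, hne⟩
      · intro c hc a ha
        exact (mem_inf.1 hc).2.2 a ha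
    have h3 : C ≤ C' := by
      refine le_inf inf_le_left fun c hc => ⟨hWN M hMW (mem_inf.1 hc).1, fun a ha => ?_⟩
      have := cent_comm (mem_inf.1 hc).2 ha
      rw [this]; simp
    have h4 : M ≤ C' := by
      refine le_inf hMW fun m hm => ⟨hWN M hMW (hMW hm), fun a ha => ?_⟩
      have h5 : a * m⁻¹ * a⁻¹ ∈ M := nconj (hKM (h.AK ha)) (inv_mem hm)
      have := mul_mem hm h5
      have e : m * (a * m⁻¹ * a⁻¹) = m * a * m⁻¹ * a⁻¹ := by group
      rwa [e] at this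
    have h5 : C.relIndex C' * C'.relIndex W = C.relIndex W := Subgroup.relIndex_mul_relIndex _ _ _ h3 inf_le_left
    have h6 : (C ⊓ M).relIndex M ≤ C.relIndex C' := by
      rw [Subgroup.inf_relIndex_right]
      exact rel_mono C h4
    have h7 : C.relIndex W = f := by
      rw [hC, Subgroup.inf_relIndex_left]; rfl
    have h8 : r ^ 2 * r ^ 2 ≤ f := by
      calc r ^ 2 * r ^ 2 ≤ C.relIndex C' * C'.relIndex W := Nat.mul_le_mul (h1.trans h6) h2
        _ = f := by rw [h5, h7]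
    have h9 : r ^ 3 ≤ r ^ 2 * r ^ 2 := by
      calc r ^ 3 ≤ r ^ 4 := Nat.pow_le_pow_right (by omega) (by norm_num)
        _ = _ := by ring
    omega
  -- L does not centralise W
  have hLW : ¬ L ≤ centralizer (W : Set G) := by
    intro hLW
    apply hXV
    have hKV : K ≤ centralizer (V : Set G) := by
      apply le_cent_comm
      intro v hv
      apply h.centK
      · intro l hl; exact cent_comm (hLW hl) (hVW1 hv)
      · intro a ha; exact hAc a ha v (VA hv)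
    exact hXK.trans hKV
  set W₁ : Subgroup G := ⁅L, W⁆ with hW₁
  have hW₁W : W₁ ≤ W := by
    rw [hW₁, Subgroup.commutator_le]
    intro l hl w hw
    exact mul_mem (hWK l (h.LK hl) w hw) (inv_mem hw)
  have hmemW₁ : ∀ l ∈ L, ∀ w ∈ W, l * w * l⁻¹ * w⁻¹ ∈ W₁ := fun l hl w hw => Subgroup.commutator_mem_commutator hl hw
  have hKW₁ : K ≤ normalizer (W₁ : Set G) := by
    apply le_normalizer_of_conj
    intro k hk x hx
    have h1 := conj_mem_cj (k := k) hx
    rw [hW₁, cj_comm, cj_of_mem_normalizer (h.KL hk), cj_of_mem_normalizer (hKW hk)] at h1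
    exact h1
  have hLW₁ : ¬ L ≤ centralizer (W₁ : Set G) := fun hh =>
    hLW (h.cent_of_cent2 (hW2.to_le hW₁W) hmemW₁ hh)
  have hW₁ne : W₁ ≠ ⊥ := by
    intro hb
    apply hLW₁
    rw [hb]
    intro x _
    apply mem_cent
    intro y hy
    rw [mem_bot.1 hy]; simp
  set M : Subgroup G := ⁅W₁, X⁆ with hM
  have hXW₁ : X ≤ normalizer (W₁ : Set G) := hXK.trans hKW₁
  have hMlt : M < W₁ := H1.Coprime2.commutator_lt_of_isPGroup hX2 (hW2.to_le hW₁W) hXW₁ hW₁ne
  have hMW : M ≤ W := hMlt.le.trans hW₁W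
  have hKM : K ≤ normalizer (M : Set G) := by
    apply le_normalizer_of_conj
    intro k hk x hx
    have h1 := conj_mem_cj (k := k) hx
    rw [hM, cj_comm, cj_of_mem_normalizer (hKW₁ hk), cj_of_mem_normalizer (h.KX hk)] at h1
    exact h1
  have hLM : ∀ l ∈ L, ∀ m ∈ M, l * m = m * l := by
    by_contra hcon
    push Not at hcon
    obtain ⟨l, hl, m, hm, hne⟩ := hcon
    have := hdich M hMW hKM ⟨l, hl, m, hm, fun hh => hne (by
      calc l * m = l * m * l⁻¹ * m⁻¹ * (m * l) := by group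
        _ = m * l := by rw [hh, one_mul])⟩
    have h2 : W₁ ≤ M := by
      rw [hW₁, Subgroup.commutator_le]
      exact this
    exact absurd hMlt (not_lt_of_ge h2)
  -- conjugates of elements of V
  have hVdec : ∀ k ∈ K, ∀ x ∈ cj k V, ∃ l ∈ L, ∃ v ∈ V, x = l * v * l⁻¹ := by
    intro k hk x hx
    obtain ⟨l, hl, a, ha, rfl⟩ := h.gen k hk
    refine ⟨l, hl, _, mem_cj.1 hx, ?_⟩
    set v := (l * a)⁻¹ * x * (l * a) with hv
    have hvV : v ∈ V := mem_cj.1 hx
    have h1 : a * v * a⁻¹ = v := by rw [hAc a ha v (VA hvV)]; group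
    have h2 : x = l * (a * v * a⁻¹) * l⁻¹ := by rw [hv]; group
    rw [h2, h1]
  -- X centralises W / M
  have hXWM : ∀ x ∈ X, ∀ w ∈ W, x * w * x⁻¹ * w⁻¹ ∈ M := by
    have hWsec : W ≤ secC M B := by
      apply sSup_le
      rintro _ ⟨k, hk, rfl⟩
      intro x hx
      obtain ⟨l, hl, v, hv, rfl⟩ := hVdec k hk x hx
      have e : l * v * l⁻¹ = (l * v * l⁻¹ * v⁻¹) * v := by group
      rw [e]
      refine mul_mem ?_ ?_
      · have h1 := hmemW₁ l hl v (hVW1 hv)
        refine ⟨hWN M hMW (hW₁W h1), fun b hb => ?_⟩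
        exact Subgroup.commutator_mem_commutator h1 (h.BX hb)
      · refine ⟨hWN M hMW (hVW1 hv), fun b hb => ?_⟩
        rw [hAc v (VA hv) b (h.BA hb)]; simp
    have hXsec : X ≤ secC M W := by
      apply h.min
      · intro b hb
        refine ⟨hKM (h.BK hb), fun w hw => comm_symm ((hWsec hw).2 b hb)⟩
      · intro k hk y hy
        exact secC_conj (hKM hk) (hKW hk) hy
    exact fun x hx w hw => (hXsec hx).2 w hw
  -- [V,X] is central in K
  set Zc : Subgroup G := W ⊓ centralizer (K : Set G) with hZc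
  have hVXc : ∀ v ∈ V, ∀ x ∈ X, v * x * v⁻¹ * x⁻¹ ∈ centralizer (K : Set G) := by
    intro v hv x hx
    have h1 : v * x * v⁻¹ * x⁻¹ ∈ M := comm_symm (hXWM x hx v (hVW1 hv))
    have h2 : v * x * v⁻¹ * x⁻¹ ∈ V := by
      have := mul_mem hv (nconj (hV.nrm (XT hx)) (inv_mem hv))
      have e : v * (x * v⁻¹ * x⁻¹) = v * x * v⁻¹ * x⁻¹ := by group
      rwa [e] at this
    exact h.centK (fun l hl => hLM l hl _ h1) (fun a ha => hAc a ha _ (VA h2))
  have hWXZ : ∀ w ∈ W, ∀ x ∈ X, w * x * w⁻¹ * x⁻¹ ∈ Zc := by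
    have hWsec : W ≤ secC Zc X := by
      apply sSup_le
      rintro _ ⟨k, hk, rfl⟩
      intro x hx
      refine ⟨hWN Zc inf_le_left (hVW k hk hx), fun u hu => ?_⟩
      refine mem_inf.2 ⟨?_, ?_⟩
      · have h1 := nconj (hKW (hXK hu)) (inv_mem (hVW k hk hx))
        have := mul_mem (hVW k hk hx) h1
        have e : x * (u * x⁻¹ * u⁻¹) = x * u * x⁻¹ * u⁻¹ := by group
        rwa [e] at this
      · have h1 := hVXc _ (mem_cj.1 hx) _ (nconj' (h.KX hk) hu)
        have h2 := cent_comm h1 hk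
        set z := k⁻¹ * x * k * (k⁻¹ * u * k) * (k⁻¹ * x * k)⁻¹ * (k⁻¹ * u * k)⁻¹ with hz
        have e : x * u * x⁻¹ * u⁻¹ = k * z * k⁻¹ := by rw [hz]; group
        rw [e, ← h2]
        simpa using h1
    exact fun w hw x hx => (hWsec hw).2 x hx
  have hXZ : ∀ z ∈ Zc, ∀ x ∈ X, z * x = x * z := fun z hz x hx => cent_comm (mem_inf.1 hz).2 (hXK hx)
  -- existence of a nontrivial commutator
  obtain ⟨w₁, hw₁, u₀, hu₀, hne⟩ : ∃ w₁ ∈ W₁, ∃ u₀ ∈ X, w₁ * u₀ * w₁⁻¹ * u₀⁻¹ ≠ 1 := by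
    by_contra hcon
    push Not at hcon
    apply hXV
    have hcon' : ∀ w ∈ W₁, ∀ x ∈ X, w * x = x * w := by
      intro w hw x hx
      calc w * x = w * x * w⁻¹ * x⁻¹ * (x * w) := by group
        _ = x * w := by rw [hcon w hw x hx, one_mul]
    have hXW : X ≤ centralizer (W : Set G) := by
      apply h.min
      · apply le_cent_comm
        apply sSup_le
        rintro _ ⟨k, hk, rfl⟩
        intro x hx
        obtain ⟨l, hl, v, hv, rfl⟩ := hVdec k hk x hx
        have e : l * v * l⁻¹ = (l * v * l⁻¹ * v⁻¹) * v := by group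
        rw [e]
        refine mul_mem ?_ ?_
        · exact mem_cent fun b hb => hcon' _ (hmemW₁ l hl v (hVW1 hv)) b (h.BX hb)
        · exact mem_cent fun b hb => hAc v (VA hv) b (h.BA hb)
      · intro k hk y hy
        have := conj_mem_cj (k := k) hy
        rwa [cj_centralizer, cj_of_mem_normalizer (hKW hk)] at this
    exact hXW.trans (centralizer_le hVW1)
  set t₀ := w₁ * u₀ * w₁⁻¹ * u₀⁻¹ with ht₀
  have ht₀Z : t₀ ∈ Zc := hWXZ w₁ (hW₁W hw₁) u₀ hu₀
  -- the hyperplane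
  obtain ⟨F, ⟨⟨hFZ, hFt⟩, hFmax⟩⟩ : ∃ F : Subgroup G, Maximal (fun F => F ≤ Zc ∧ t₀ ∉ F) F := by
    apply Set.Finite.exists_maximal (Set.toFinite {F : Subgroup G | F ≤ Zc ∧ t₀ ∉ F})
    exact ⟨⊥, bot_le, fun hh => hne (mem_bot.1 hh)⟩
  have hZW : Zc ≤ W := inf_le_left
  have hF2 : ∀ z ∈ Zc, z ∉ F → z * t₀ ∈ F := by
    intro z hz hzF
    by_contra hcon
    -- F' = F ∪ zF
    let F' : Subgroup G :=
      { carrier := {x | x ∈ Zc ∧ (x ∈ F ∨ x * z ∈ F)}
        one_mem' := ⟨one_mem _, Or.inl (one_mem _)⟩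
        mul_mem' := by
          rintro a b ⟨ha, ha'⟩ ⟨hb, hb'⟩
          refine ⟨mul_mem ha hb, ?_⟩
          have hzb : b * z = z * b := hWc b (hZW hb) z (hZW hz)
          rcases ha' with ha' | ha' <;> rcases hb' with hb' | hb'
          · exact Or.inl (mul_mem ha' hb')
          · right
            have := mul_mem ha' hb'
            rwa [← mul_assoc] at this
          · right
            have := mul_mem ha' hb'
            have e : a * z * b = a * b * z := by rw [mul_assoc, ← hzb, mul_assoc]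
            rwa [e] at this
          · left
            have := mul_mem ha' hb'
            have e : a * z * (b * z) = a * b := by
              rw [hzb]
              calc a * z * (z * b) = a * (z * z) * b := by group
                _ = a * b := by rw [hWs z (hZW hz), mul_one]
            rwa [e] at this
        inv_mem' := by
          rintro a ⟨ha, ha'⟩
          have e : a⁻¹ = a := inv_eq_of_mul_eq_one_left (hWs a (hZW ha))
          show a⁻¹ ∈ Zc ∧ (a⁻¹ ∈ F ∨ a⁻¹ * z ∈ F)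
          rw [e]; exact ⟨ha, ha'⟩ }
    have h1 : F ≤ F' := fun x hx => ⟨hFZ hx, Or.inl hx⟩
    have hzF' : z ∈ F' := ⟨hz, Or.inr (by rw [hWs z (hZW hz)]; exact one_mem _)⟩
    have h2 : t₀ ∉ F' := by
      rintro ⟨-, h3 | h3⟩
      · exact hFt h3
      · rw [hWc t₀ (hZW ht₀Z) z (hZW hz)] at h3
        exact hcon h3
    have h3 : F' ≤ Zc := fun x hx => hx.1
    exact hzF (hFmax (y := F') ⟨h3, h2⟩ h1 hzF')
  have hFF : ∀ z ∈ Zc, ∀ z' ∈ Zc, z ∉ F → z' ∉ F → z * z' ∈ F := by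
    intro z hz z' hz' h1 h2
    have h3 := mul_mem (hF2 z hz h1) (hF2 z' hz' h2)
    have e : z * t₀ * (z' * t₀) = z * z' := by
      rw [hWc z' (hZW hz') t₀ (hZW ht₀Z)]
      calc z * t₀ * (t₀ * z') = z * (t₀ * t₀) * z' := by group
        _ = z * z' := by rw [hWs t₀ (hZW ht₀Z), mul_one]
    rwa [e] at h3
  have hFK : K ≤ normalizer (F : Set G) := by
    apply le_normalizer_of_conj
    intro k hk x hx
    have := cent_comm (mem_inf.1 (hFZ hx)).2 hk
    rw [← this]; simpa using hx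
  have hWF : W ≤ normalizer (F : Set G) := hWN F (hFZ.trans hZW)
  -- commutator formulas
  have hbil1 : ∀ w ∈ W, ∀ w' ∈ W, ∀ u ∈ X, (w * w') * u * (w * w')⁻¹ * u⁻¹ =
      (w' * u * w'⁻¹ * u⁻¹) * (w * u * w⁻¹ * u⁻¹) := by
    intro w hw w' hw' u hu
    have h1 := hWXZ w' hw' u hu
    have h2 : w * (w' * u * w'⁻¹ * u⁻¹) = (w' * u * w'⁻¹ * u⁻¹) * w := hWc w hw _ (hZW h1)
    calc (w * w') * u * (w * w')⁻¹ * u⁻¹ = w * (w' * u * w'⁻¹ * u⁻¹) * (u * w⁻¹ * u⁻¹) := by group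
      _ = (w' * u * w'⁻¹ * u⁻¹) * w * (u * w⁻¹ * u⁻¹) := by rw [h2]
      _ = _ := by group
  have hbil2 : ∀ w ∈ W, ∀ u ∈ X, ∀ u' ∈ X, w * (u * u') * w⁻¹ * (u * u')⁻¹ =
      (w * u * w⁻¹ * u⁻¹) * (w * u' * w⁻¹ * u'⁻¹) := by
    intro w hw u hu u' hu'
    have h1 := hXZ _ (hWXZ w hw u' hu') u hu
    calc w * (u * u') * w⁻¹ * (u * u')⁻¹ = (w * u * w⁻¹ * u⁻¹) * (u * (w * u' * w⁻¹ * u'⁻¹)) * u⁻¹ := by group
      _ = (w * u * w⁻¹ * u⁻¹) * ((w * u' * w⁻¹ * u'⁻¹) * u) * u⁻¹ := by rw [h1]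
      _ = _ := by group
  -- W^F
  set WF : Subgroup G := W ⊓ secC F X with hWFd
  have hKWF : K ≤ normalizer (WF : Set G) := by
    apply le_normalizer_of_conj
    intro k hk x hx
    exact mem_inf.2 ⟨hWK k hk x (mem_inf.1 hx).1, secC_conj (hFK hk) (h.KX hk) (mem_inf.1 hx).2⟩
  have hLWF : ∀ l ∈ L, ∀ m ∈ WF, l * m = m * l := by
    by_contra hcon
    push Not at hcon
    obtain ⟨l, hl, m, hm, hne'⟩ := hcon
    have := hdich WF inf_le_left hKWF ⟨l, hl, m, hm, fun hh => hne' (by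
      calc l * m = l * m * l⁻¹ * m⁻¹ * (m * l) := by group
        _ = m * l := by rw [hh, one_mul])⟩
    have h2 : W₁ ≤ WF := by
      rw [hW₁, Subgroup.commutator_le]
      exact this
    exact hFt ((mem_inf.1 (h2 hw₁)).2.2 u₀ hu₀)
  have hVWF : V ⊓ secC F X ≤ centralizer (X : Set G) := by
    intro v hv
    have h1 : v ∈ centralizer (K : Set G) := h.centK (fun l hl => hLWF l hl v
      (mem_inf.2 ⟨hVW1 (mem_inf.1 hv).1, (mem_inf.1 hv).2⟩)) (fun a ha => hAc a ha v (VA (mem_inf.1 hv).1))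
    exact centralizer_le hXK h1
  have hcount : (secC F X).relIndex V ≤ io X V := by
    apply pairing_count (hVW1.trans hWF)
    · intro u hu w hw w' hw' h1 h2
      rw [hbil1 w (hVW1 hw) w' (hVW1 hw') u hu]
      exact hFF _ (hWXZ w' (hVW1 hw') u hu) _ (hWXZ w (hVW1 hw) u hu) h2 h1
    · intro w hw u hu u' hu' h1 h2
      rw [hbil2 w (hVW1 hw) u hu u' hu']
      exact mul_mem h1 h2
    · intro w hw u hu h1
      have h2 := hbil2 w (hVW1 hw) u hu u⁻¹ (inv_mem hu)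
      have e : w * (u * u⁻¹) * w⁻¹ * (u * u⁻¹)⁻¹ = 1 := by group
      rw [e] at h2
      have h3 : w * u⁻¹ * w⁻¹ * u⁻¹⁻¹ = (w * u * w⁻¹ * u⁻¹)⁻¹ := (inv_eq_of_mul_eq_one_right h2.symm).symm
      rw [h3]; exact inv_mem h1
  have hfin : io V X ≤ io X V := by
    calc io V X ≤ (V ⊓ secC F X).relIndex V := rel_anti V hVWF
      _ = (secC F X).relIndex V := Subgroup.inf_relIndex_left _ _
      _ ≤ _ := hcount
  have hstr := (hV.ineq X XT (by
    intro a ha b hb
    apply mem_cent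
    intro v hv
    -- conclude for the commutator of a, b: use inverse elements
    have h7 : ∀ c ∈ X, ∀ d ∈ X, v * (c⁻¹ * d⁻¹ * c * d) = (c⁻¹ * d⁻¹ * c * d) * v := by
      intro c hc d hd
      have g1 := hbil2 v (hVW1 hv) c hc d hd
      have g2 := hbil2 v (hVW1 hv) d hd c hc
      have g3 := hWc _ (hZW (hWXZ v (hVW1 hv) c hc)) _ (hZW (hWXZ v (hVW1 hv) d hd))
      have g4 : v * (c * d) * v⁻¹ * (c * d)⁻¹ = v * (d * c) * v⁻¹ * (d * c)⁻¹ := by rw [g1, g2, g3]
      have g6 : (c * d) * v⁻¹ * (c * d)⁻¹ = (d * c) * v⁻¹ * (d * c)⁻¹ := by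
        have : v * ((c * d) * v⁻¹ * (c * d)⁻¹) = v * ((d * c) * v⁻¹ * (d * c)⁻¹) := by
          simpa [mul_assoc] using g4
        exact mul_left_cancel this
      have g7 : (d * c)⁻¹ * (c * d) * v⁻¹ = v⁻¹ * ((d * c)⁻¹ * (c * d)) := by
        calc (d * c)⁻¹ * (c * d) * v⁻¹ = (d * c)⁻¹ * ((c * d) * v⁻¹ * (c * d)⁻¹) * (c * d) := by group
          _ = (d * c)⁻¹ * ((d * c) * v⁻¹ * (d * c)⁻¹) * (c * d) := by rw [g6]
          _ = v⁻¹ * ((d * c)⁻¹ * (c * d)) := by group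
      have e : c⁻¹ * d⁻¹ * c * d = (d * c)⁻¹ * (c * d) := by group
      rw [e]
      have g8 : v * ((d * c)⁻¹ * (c * d) * v⁻¹) * v = v * (v⁻¹ * ((d * c)⁻¹ * (c * d))) * v := by rw [g7]
      calc v * ((d * c)⁻¹ * (c * d)) = v * ((d * c)⁻¹ * (c * d) * v⁻¹) * v := by group
        _ = v * (v⁻¹ * ((d * c)⁻¹ * (c * d))) * v := g8
        _ = (d * c)⁻¹ * (c * d) * v := by group
    have := h7 a⁻¹ (inv_mem ha) b⁻¹ (inv_mem hb)
    simp only [inv_inv] at this
    exact this.symm) (by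
    intro a ha
    apply mem_cent
    intro v hv
    have h1 := hbil2 v (hVW1 hv) a ha a ha
    have h2 := hWs _ (hZW (hWXZ v (hVW1 hv) a ha))
    rw [h2] at h1
    obtain ⟨c, hc⟩ : ∃ c, c = a * a := ⟨_, rfl⟩
    rw [← hc] at h1 ⊢
    calc c * v = (v * c * v⁻¹ * c⁻¹)⁻¹ * v * c := by group
      _ = v * c := by rw [h1, inv_one, one_mul]) hXV).1
  have p1 := io_pos (G := G) X V
  have h3 : io V X ^ 2 ≤ io X V ^ 2 := Nat.pow_le_pow_left hfin 2
  have h4 : io X V ^ 2 ≤ io X V ^ 3 := Nat.pow_le_pow_right p1 (by norm_num)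
  omega

end KT

end H14.GF
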