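import Cfsg.Agent.Lib.H14.GF3

/-!
# Glauberman's 2-factorization: Claim 1, case `V` not in `X`
-/

set_option autoImplicit false

universe u

namespace H14.GF

open Subgroup H14.SF

variable {G : Type u} [Group G]

theorem rel_card {C E : Subgroup G} (h : C ≤ E) : C.relIndex E * Nat.card C = Nat.card E := by
  rw [mul_comm, ← Subgroup.card_mul_index (C.subgroupOf E),
    Nat.card_congr (Subgroup.subgroupOfEquivOfLe h).toEquiv]
  rfl

theorem sq_proper [Finite G] {P : Subgroup G} (hP : IsPGroup 2 P) (hne : P ≠ ⊥) :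
    ∃ M : Subgroup G, M < P ∧ ∀ a ∈ P, a * a ∈ M := by
  haveI : Fact (Nat.Prime 2) := ⟨Nat.prime_two⟩
  obtain ⟨n, hn⟩ := IsPGroup.iff_card.1 hP
  have hn0 : n ≠ 0 := by
    rintro rfl
    apply hne
    rw [pow_zero] at hn
    exact Subgroup.card_eq_one.1 hn
  obtain ⟨m, rfl⟩ := Nat.exists_eq_succ_of_ne_zero hn0
  obtain ⟨K, hK⟩ := Sylow.exists_subgroup_card_pow_prime (G := P) 2 (n := m)
    (by rw [hn]; exact pow_dvd_pow 2 (Nat.le_succ m))
  have hidx : K.index = 2 := by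
    have h1 := K.card_mul_index
    rw [hK, hn, Nat.succ_eq_add_one, pow_succ] at h1
    exact Nat.eq_of_mul_eq_mul_left (Nat.pow_pos (by norm_num)) h1
  refine ⟨K.map P.subtype, lt_of_le_of_ne (Subgroup.map_subtype_le K) ?_, ?_⟩
  · intro he
    have h1 : Nat.card (K.map P.subtype) = Nat.card K :=
      Nat.card_congr (K.equivMapOfInjective _ P.subtype_injective).symm.toEquiv
    rw [he, hn, hK] at h1
    have : 2 ^ m < 2 ^ m.succ := Nat.pow_lt_pow_right (by norm_num) (Nat.lt_succ_self m)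
    omega
  · intro a ha
    have h1 := Subgroup.sq_mem_of_index_two hidx (⟨a, ha⟩ : P)
    refine ⟨_, h1, ?_⟩
    simp [sq]

/-- an element commuting with `v` and `v^x` commutes with `x`, if `v` inverts `x` of odd order -/
theorem comm_of_inv {g v x : G} (hxo : Odd (orderOf x)) (hvx : v * x * v⁻¹ = x⁻¹) (h1 : g * v = v * g)
    (h2 : g * (x * v * x⁻¹) = (x * v * x⁻¹) * g) : g * x = x * g := by
  have c1 : Commute g v := h1
  have c2 : Commute g (x * v * x⁻¹) := h2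
  have e : v⁻¹ * (x * v * x⁻¹) = (x * x)⁻¹ := by
    have : v⁻¹ * x * v = x⁻¹ := by
      have h3 : (v * x * v⁻¹)⁻¹ = x := by rw [hvx, inv_inv]
      calc v⁻¹ * x * v = v⁻¹ * (v * x * v⁻¹)⁻¹ * v := by rw [h3]
        _ = x⁻¹ := by group
    calc v⁻¹ * (x * v * x⁻¹) = (v⁻¹ * x * v) * x⁻¹ := by group
      _ = x⁻¹ * x⁻¹ := by rw [this]
      _ = (x * x)⁻¹ := by rw [mul_inv_rev]
  have c3 : Commute g (x * x)⁻¹ := by
    rw [← e]; exact (c1.inv_right).mul_right c2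
  have c4 : Commute g (x * x) := by simpa using c3.inv_right
  obtain ⟨m, hm⟩ := hxo
  have e2 : (x * x) ^ (m + 1) = x := by
    rw [← sq, ← pow_mul]
    have : 2 * (m + 1) = orderOf x + 1 := by omega
    rw [this, pow_succ, pow_orderOf_eq_one, one_mul]
  have c5 := c4.pow_right (m + 1)
  rw [e2] at c5
  exact c5

namespace KT

variable {S A K L B X H : Subgroup G} {r : ℕ}

/-- if `L` centralises `X`, then `X = B` -/
theorem X_le_B [Finite G] (h : KT S A K L B X H r) (hL : ∀ l ∈ L, ∀ y ∈ X, l * y = y * l) : X ≤ B := by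
  apply h.min B le_rfl
  intro k hk b hb
  obtain ⟨l, hl, a, ha, rfl⟩ := h.gen k hk
  have h1 : a * b * a⁻¹ = b := by rw [h.hA.2.1 a ha b (h.BA hb)]; group
  have h2 : l * b * l⁻¹ = b := by rw [hL l hl b (h.BX hb)]; group
  have e : l * a * b * (l * a)⁻¹ = l * (a * b * a⁻¹) * l⁻¹ := by group
  rw [e, h1, h2]; exact hb

theorem claim1b [Finite G] (h : KT S A K L B X H r) {T V : Subgroup G} (AT : A ≤ T) (TS : T ≤ S) (XT : X ≤ T)
    (hV : Strong T V) (VX : ¬ V ≤ X) : X ≤ centralizer (V : Set G) := by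
  classical
  haveI : Fact (Nat.Prime 2) := ⟨Nat.prime_two⟩
  by_contra hXV
  have VA : V ≤ A := hV.le_A h.hA AT TS
  have hAc := h.hA.2.1
  have hXK := h.XK
  have hX2 : IsPGroup 2 X := h.pS.to_le h.XS
  have hVB : ¬ V ≤ B := fun hh => VX (hh.trans h.BX)
  obtain ⟨v, hvV, hvB, x, hxK, hxo, hvx, hnc, hxL, hsec⟩ := h.P3 V VA hVB
  set V0 := V ⊓ X with hV0
  have V0B : V0 ≤ B := fun y hy => h.AX (mem_inf.2 ⟨VA (mem_inf.1 hy).1, (mem_inf.1 hy).2⟩)
  have hBV : B ⊓ V = V0 := le_antisymm (le_inf inf_le_right (inf_le_left.trans h.BX)) (le_inf V0B inf_le_left)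
  rw [hBV] at hsec
  set s := V0.relIndex V with hs
  have hs2 : 2 ≤ s := by
    have h1 : s ≠ 1 := by
      rw [hs, Ne, Subgroup.relIndex_eq_one]
      exact fun hh => VX (hh.trans inf_le_right)
    have := rel_pos (G := G) V0 V
    omega
  have hxX : ¬ ∀ y ∈ X, x * y = y * x := by
    intro hc
    set N : Subgroup G := K ⊓ centralizer (X : Set G) with hN
    have hKN : K ≤ normalizer (N : Set G) := by
      apply le_normalizer_of_conj
      intro k hk y hy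
      refine mem_inf.2 ⟨mul_mem (mul_mem hk (mem_inf.1 hy).1) (inv_mem hk), ?_⟩
      have := conj_mem_cj (k := k) (mem_inf.1 hy).2
      rwa [cj_centralizer, cj_of_mem_normalizer (h.KX hk)] at this
    have hLN := hxL N inf_le_left hKN (mem_inf.2 ⟨hxK, mem_cent hc⟩)
    have hXB := h.X_le_B (fun l hl y hy => cent_comm (mem_inf.1 (hLN hl)).2 hy)
    apply hXV
    intro y hy
    exact mem_cent fun w hw => hAc y (h.BA (hXB hy)) w (VA hw)
  set V0' := cj x V0 with hV0'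
  have hV0'X : V0' ≤ X := by
    have := cj_mono (k := x) (inf_le_right : V0 ≤ X)
    rwa [cj_of_mem_normalizer (h.KX hxK)] at this
  set Z1 := V0 ⊓ V0' with hZ1
  have hVc := hV.comm
  have hV0'c : ∀ b ∈ V0', ∀ w ∈ cj x V, b * w = w * b := by
    intro b hb w hw
    have h1 := hVc _ (mem_inf.1 (mem_cj.1 hb)).1 _ (mem_cj.1 hw)
    calc b * w = x * ((x⁻¹ * b * x) * (x⁻¹ * w * x)) * x⁻¹ := by group
      _ = x * ((x⁻¹ * w * x) * (x⁻¹ * b * x)) * x⁻¹ := by rw [h1]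
      _ = w * b := by group
  have hRC : V0' ⊓ centralizer (V : Set G) ≤ Z1 := by
    intro b hb
    obtain ⟨hb1, hb2⟩ := mem_inf.1 hb
    have h1 : b * v = v * b := cent_comm hb2 hvV
    have h2 : b * (x * v * x⁻¹) = (x * v * x⁻¹) * b := hV0'c b hb1 _ (conj_mem_cj hvV)
    have h3 := comm_of_inv hxo hvx h1 h2
    have h4 : x⁻¹ * b * x = b := by rw [mul_assoc, h3]; group
    have h5 := mem_cj.1 hb1
    rw [h4] at h5
    exact mem_inf.2 ⟨h5, hb1⟩
  have hcard : Nat.card V0' = Nat.card V0 := card_cj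
  have hβ : Z1.relIndex V0 = Z1.relIndex V0' := by
    have h1 := rel_card (inf_le_left : Z1 ≤ V0)
    have h2 := rel_card (inf_le_right : Z1 ≤ V0')
    rw [hcard, ← h1] at h2
    exact (Nat.eq_of_mul_eq_mul_right Nat.card_pos h2).symm
  set β := Z1.relIndex V0 with hβd
  have h1 : β ≤ io V0' V := by
    rw [hβ]
    calc Z1.relIndex V0' ≤ (V0' ⊓ centralizer (V : Set G)).relIndex V0' := rel_anti V0' hRC
      _ = io V0' V := Subgroup.inf_relIndex_left _ _
  have h2 : io V V0' ≤ β * s := by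
    have h3 : Z1 ≤ centralizer (V0' : Set G) := by
      intro z hz
      exact mem_cent fun w hw => hV0'c z (mem_inf.1 hz).2 w (cj_mono inf_le_left hw)
    calc io V V0' ≤ Z1.relIndex V := rel_anti V h3
      _ = β * s := (Subgroup.relIndex_mul_relIndex _ _ _ inf_le_left inf_le_left).symm
  have hβpos : 0 < β := rel_pos _ _
  have hlt : β < s ^ 2 := by
    by_cases hc : V0' ≤ centralizer (V : Set G)
    · have h3 : V0' ≤ Z1 := fun y hy => hRC (mem_inf.2 ⟨hy, hc hy⟩)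
      have h4 : β = 1 := by rw [hβ, Subgroup.relIndex_eq_one]; exact h3
      rw [h4]
      calc 1 < 2 ^ 2 := by norm_num
        _ ≤ s ^ 2 := Nat.pow_le_pow_left hs2 2
    · have h3 := (hV.ineq V0' (hV0'X.trans XT) (by
        intro a ha b hb
        rw [hV0'c a ha b (cj_mono inf_le_left hb)]; simp) (by
        intro a ha
        have h4 := hV.sq _ (mem_inf.1 (mem_cj.1 ha)).1
        have : a * a = 1 := by
          calc a * a = x * ((x⁻¹ * a * x) * (x⁻¹ * a * x)) * x⁻¹ := by group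
            _ = 1 := by rw [h4]; group
        rw [this]; exact one_mem _) hc).1
      have h4 : β ^ 2 * β < β ^ 2 * s ^ 2 := by
        calc β ^ 2 * β = β ^ 3 := by ring
          _ ≤ io V0' V ^ 3 := Nat.pow_le_pow_left h1 3
          _ < io V V0' ^ 2 := h3
          _ ≤ (β * s) ^ 2 := Nat.pow_le_pow_left h2 2
          _ = β ^ 2 * s ^ 2 := by ring
      exact Nat.lt_of_mul_lt_mul_left h4
  -- the minimal subgroup
  set Kx := V ⊔ zpowers x with hKx
  have hxKx : x ∈ Kx := (le_sup_right : zpowers x ≤ Kx) (mem_zpowers x)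
  have hVKx : V ≤ Kx := le_sup_left
  have hKxK : Kx ≤ K := sup_le (VA.trans h.AK) ((zpowers_le).2 hxK)
  obtain ⟨X₁, ⟨hX₁X, hKX₁, hxX₁⟩, hmin⟩ : ∃ Y : Subgroup G, Minimal (fun Y => Y ≤ X ∧ Kx ≤ normalizer (Y : Set G) ∧
      ¬ ∀ y ∈ Y, x * y = y * x) Y := by
    apply Set.Finite.exists_minimal (Set.toFinite {Y : Subgroup G | Y ≤ X ∧ Kx ≤ normalizer (Y : Set G) ∧
      ¬ ∀ y ∈ Y, x * y = y * x})
    exact ⟨X, le_rfl, hKxK.trans h.KX, hxX⟩
  set Cx : Set G := {g | ∃ k ∈ Kx, g = k * x * k⁻¹} with hCx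
  set X₂ : Subgroup G := X₁ ⊓ centralizer Cx with hX₂
  have hmemX₂ : ∀ y ∈ X₁, (∀ k ∈ Kx, y * (k * x * k⁻¹) = (k * x * k⁻¹) * y) → y ∈ X₂ := by
    intro y hy hc
    refine mem_inf.2 ⟨hy, ?_⟩
    rw [mem_centralizer_iff]
    rintro _ ⟨k, hk, rfl⟩
    exact (hc k hk).symm
  have hX₂c : ∀ y ∈ X₂, ∀ k ∈ Kx, y * (k * x * k⁻¹) = (k * x * k⁻¹) * y := by
    intro y hy k hk
    exact ((mem_centralizer_iff.1 (mem_inf.1 hy).2) _ ⟨k, hk, rfl⟩).symm
  have hKX₂ : Kx ≤ normalizer (X₂ : Set G) := by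
    apply le_normalizer_of_conj
    intro k hk y hy
    apply hmemX₂ _ (nconj (hKX₁ hk) (mem_inf.1 hy).1)
    intro l hl
    have h3 := hX₂c y hy (k⁻¹ * l) (mul_mem (inv_mem hk) hl)
    calc k * y * k⁻¹ * (l * x * l⁻¹) = k * (y * (k⁻¹ * l * x * (k⁻¹ * l)⁻¹)) * k⁻¹ := by group
      _ = k * (k⁻¹ * l * x * (k⁻¹ * l)⁻¹ * y) * k⁻¹ := by rw [h3]
      _ = l * x * l⁻¹ * (k * y * k⁻¹) := by group
  have hsub : ∀ Y ≤ X₁, Kx ≤ normalizer (Y : Set G) → Y ≠ X₁ → Y ≤ X₂ := by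
    intro Y hY hKY hne y hy
    have h3 : ∀ y ∈ Y, x * y = y * x := by
      by_contra hcon
      exact hne (le_antisymm hY (hmin ⟨hY.trans hX₁X, hKY, hcon⟩ hY))
    apply hmemX₂ y (hY hy)
    intro k hk
    have h4 := h3 _ (nconj' (hKY hk) hy)
    calc y * (k * x * k⁻¹) = k * ((k⁻¹ * y * k) * x) * k⁻¹ := by group
      _ = k * (x * (k⁻¹ * y * k)) * k⁻¹ := by rw [h4]
      _ = k * x * k⁻¹ * y := by group
  have hX₁ne : X₁ ≠ ⊥ := by
    rintro rfl
    apply hxX₁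
    intro y hy
    rw [mem_bot.1 hy]; simp
  have hX₁2 : IsPGroup 2 X₁ := hX2.to_le hX₁X
  obtain ⟨M, hMlt, hMsq⟩ := sq_proper hX₁2 hX₁ne
  have hsqX₂ : ∀ a ∈ X₁, a * a ∈ X₂ := by
    set Y : Subgroup G := closure {g | ∃ a ∈ X₁, g = a * a} with hY
    have hYX₁ : Y ≤ X₁ := by
      rw [hY, closure_le]
      rintro _ ⟨a, ha, rfl⟩
      exact mul_mem ha ha
    have hYM : Y ≤ M := by
      rw [hY, closure_le]
      rintro _ ⟨a, ha, rfl⟩
      exact hMsq a ha
    have hYne : Y ≠ X₁ := fun he => absurd hMlt (not_lt_of_ge (he ▸ hYM))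
    have hKY : Kx ≤ normalizer (Y : Set G) := by
      apply le_normalizer_of_conj
      intro k hk y hy
      have h3 : Y ≤ cj k⁻¹ Y := by
        conv_lhs => rw [hY]
        rw [closure_le]
        rintro _ ⟨a, ha, rfl⟩
        show a * a ∈ cj k⁻¹ Y
        rw [mem_cj, inv_inv]
        have e : k * (a * a) * k⁻¹ = (k * a * k⁻¹) * (k * a * k⁻¹) := by group
        rw [e]
        exact subset_closure ⟨_, nconj (hKX₁ hk) ha, rfl⟩
      have h4 := mem_cj.1 (h3 hy)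
      rwa [inv_inv] at h4
    intro a ha
    exact hsub Y hYX₁ hKY hYne (subset_closure ⟨a, ha, rfl⟩)
  have hnt : ∃ w ∈ X₁, x * w * x⁻¹ * w⁻¹ ∉ X₂ := by
    by_contra hcon
    push Not at hcon
    apply hxX₁
    intro w hw
    have h3 := hcon w hw
    have h4 := hX₂c _ h3 1 (one_mem _)
    rw [one_mul, inv_one, mul_one] at h4
    have h5 := odd_comm (hX₁2.to_le (inf_le_left : X₂ ≤ X₁)) hxo h3 rfl h4.symm
    calc x * w = x * w * x⁻¹ * w⁻¹ * (w * x) := by group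
      _ = w * x := by rw [h5, one_mul]
  have hfin := hsec X₁ X₂ (X₁ ⊓ V0) hX₁X inf_le_left inf_le_left (hKX₁ (hVKx hvV)) (hKX₂ (hVKx hvV))
    (hKX₁ hxKx) (hKX₂ hxKx) hsqX₂ hnt (by
      intro w hw
      have h3 : v * w * v⁻¹ * w⁻¹ ∈ X₁ := mul_mem (nconj (hKX₁ (hVKx hvV)) hw) (inv_mem hw)
      refine mem_inf.2 ⟨h3, mem_inf.2 ⟨?_, hX₁X h3⟩⟩
      have h4 := mul_mem hvV (nconj (hV.nrm (XT (hX₁X hw))) (inv_mem hvV))
      have e : v * (w * v⁻¹ * w⁻¹) = v * w * v⁻¹ * w⁻¹ := by group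
      rwa [e] at h4)
  have hle : X₂.relIndex (X₁ ⊓ V0) ≤ β := by
    have h3 : (X₁ ⊓ V0) ⊓ Z1 ≤ X₂ := by
      intro z hz
      obtain ⟨hz1, hz2⟩ := mem_inf.1 hz
      apply hmemX₂ z (mem_inf.1 hz1).1
      have h4 : Kx ≤ centralizer ({z} : Set G) := by
        refine sup_le ?_ ?_
        · intro w hw
          rw [mem_centralizer_iff]
          rintro y rfl
          exact hVc _ (mem_inf.1 (mem_inf.1 hz1).2).1 w hw
        · rw [zpowers_le, mem_centralizer_iff]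
          rintro y rfl
          exact comm_of_inv hxo hvx (hVc _ (mem_inf.1 (mem_inf.1 hz1).2).1 v hvV)
            (hV0'c _ (mem_inf.1 hz2).2 _ (conj_mem_cj hvV))
      intro k hk
      have h5 : k * x * k⁻¹ ∈ centralizer ({z} : Set G) :=
        mul_mem (mul_mem (h4 hk) (h4 hxKx)) (inv_mem (h4 hk))
      exact (mem_centralizer_iff.1 h5) z rfl
    calc X₂.relIndex (X₁ ⊓ V0) ≤ ((X₁ ⊓ V0) ⊓ Z1).relIndex (X₁ ⊓ V0) := rel_anti _ h3
      _ = Z1.relIndex (X₁ ⊓ V0) := Subgroup.inf_relIndex_left _ _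
      _ ≤ β := rel_mono Z1 inf_le_right
  omega

end KT

end H14.GF
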