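import Cfsg.Agent.Lib.H14.GF4
import Cfsg.Agent.Lib.H14.GF5
import Cfsg.Agent.Lib.H59.CopAct

/-!
# Glauberman's 2-factorization: Claim 2 and the main theorem for a configuration
-/

set_option autoImplicit false

universe u

namespace H14.GF

open Subgroup H14.SF Cfsg

variable {G : Type u} [Group G]

namespace KT

variable {S A K L B X H : Subgroup G} {r : ℕ}

theorem claim1 [Finite G] (h : KT S A K L B X H r) {T V : Subgroup G} (JT : JE S ≤ T) (TS : T ≤ S) (XT : X ≤ T)
    (hV : Strong T V) : X ≤ centralizer (V : Set G) := by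
  have AT : A ≤ T := (le_sSup_AA h.hA).trans JT
  by_cases VX : V ≤ X
  · exact h.claim1a AT TS XT hV VX
  · exact h.claim1b AT TS XT hV VX

theorem claim2 [Finite G] (h : KT S A K L B X H r) {Z : Subgroup G} (ZA : Z ≤ A)
    (hSZ : S ≤ normalizer (Z : Set G)) (hZX : Z ≤ centralizer (X : Set G)) : L ≤ centralizer (Z : Set G) := by
  classical
  haveI : Fact (Nat.Prime 2) := ⟨Nat.prime_two⟩
  have hAc := h.hA.2.1
  have hAs := h.hA.2.2.1
  have hXK := h.XK
  by_cases ZX : Z ≤ X
  · set 𝒱 : Set (Subgroup G) := {U | ∃ k ∈ K, U = cj k Z} with h𝒱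
    set W : Subgroup G := sSup 𝒱 with hW
    have hXcj : ∀ k ∈ K, cj k X = X := fun k hk => cj_of_mem_normalizer (h.KX hk)
    have hWX : W ≤ X := by
      apply sSup_le
      rintro _ ⟨k, hk, rfl⟩
      have := cj_mono (k := k) ZX
      rwa [hXcj k hk] at this
    have hWCX : W ≤ centralizer (X : Set G) := by
      apply sSup_le
      rintro _ ⟨k, hk, rfl⟩
      have := cj_mono (k := k) hZX
      rwa [cj_centralizer, hXcj k hk] at this
    have hWc : ∀ a ∈ W, ∀ b ∈ W, a * b = b * a := fun a ha b hb => cent_comm (hWCX ha) (hWX hb)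
    have hZW : ∀ k ∈ K, cj k Z ≤ W := fun k hk => le_sSup (s := 𝒱) ⟨k, hk, rfl⟩
    have hZW1 : Z ≤ W := by
      have := hZW 1 (one_mem _)
      have e : cj 1 Z = Z := by ext x; rw [mem_cj]; simp
      rwa [e] at this
    have hWs : ∀ a ∈ W, a * a = 1 := by
      let P : Subgroup G :=
        { carrier := {w | w ∈ W ∧ w * w = 1}
          one_mem' := ⟨one_mem _, by simp⟩
          mul_mem' := by
            rintro a b ⟨ha, ha2⟩ ⟨hb, hb2⟩
            refine ⟨mul_mem ha hb, ?_⟩
            calc a * b * (a * b) = a * (b * a) * b := by group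
              _ = a * (a * b) * b := by rw [hWc a ha b hb]
              _ = (a * a) * (b * b) := by group
              _ = 1 := by rw [ha2, hb2, one_mul]
          inv_mem' := by
            rintro a ⟨ha, ha2⟩
            refine ⟨inv_mem ha, ?_⟩
            rw [← mul_inv_rev, ha2, inv_one] }
      have hWP : W ≤ P := by
        apply sSup_le
        rintro _ ⟨k, hk, rfl⟩
        intro x hx
        refine ⟨(hZW k hk) hx, ?_⟩
        have h1 := hAs _ (ZA (mem_cj.1 hx))
        calc x * x = k * ((k⁻¹ * x * k) * (k⁻¹ * x * k)) * k⁻¹ := by group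
          _ = 1 := by rw [h1]; group
      exact fun a ha => (hWP ha).2
    have hWK : ∀ k ∈ K, ∀ w ∈ W, k * w * k⁻¹ ∈ W := by
      intro k hk
      have : W ≤ cj k⁻¹ W := by
        apply sSup_le
        rintro _ ⟨l, hl, rfl⟩
        have h1 := hZW (k * l) (mul_mem hk hl)
        intro x hx
        rw [mem_cj, inv_inv]
        apply h1
        rw [mem_cj] at hx ⊢
        have e : (k * l)⁻¹ * (k * x * k⁻¹) * (k * l) = l⁻¹ * x * l := by group
        rwa [e]
      intro w hw
      have := mem_cj.1 (this hw)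
      rwa [inv_inv] at this
    have hKW : K ≤ normalizer (W : Set G) := le_normalizer_of_conj hWK
    have hf : io W A ≤ r := by
      have h1 := io_le_of_AA h.hA (hWX.trans h.XS) hWc hWs
      have h2 : B ≤ centralizer (W : Set G) := le_cent_comm (hWCX.trans (centralizer_le h.BX))
      calc io W A ≤ io A W := h1
        _ ≤ B.relIndex A := rel_anti A h2
        _ = r := h.hr.symm
    by_contra hcon
    have hnc : ∃ l ∈ L, ∃ m ∈ W, l * m * l⁻¹ * m⁻¹ ∉ (⊥ : Subgroup G) := by
      by_contra hn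
      push Not at hn
      apply hcon
      intro l hl
      apply mem_cent
      intro z hz
      have := mem_bot.1 (hn l hl z (hZW1 hz))
      calc l * z = l * z * l⁻¹ * z⁻¹ * (z * l) := by group
        _ = z * l := by rw [this, one_mul]
    have hN1 : K ≤ normalizer ((⊥ : Subgroup G) : Set G) := by
      rw [Subgroup.normalizer_eq_top (⊥ : Subgroup G)]; exact le_top
    have h1 := h.P2 ⊥ W bot_le hWX hN1 hKW hWc hWs hnc (W ⊓ centralizer (A : Set G)) inf_le_left (by
      intro c hc a ha
      have := cent_comm (mem_inf.1 hc).2 ha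
      rw [mem_bot, this]; group)
    rw [Subgroup.inf_relIndex_left] at h1
    have h2 : r ^ 2 ≤ r := h1.trans hf
    have := h.r2
    nlinarith
  · obtain ⟨z, hz, hzX⟩ : ∃ z ∈ Z, z ∉ X := by
      by_contra hn
      push Not at hn
      exact ZX hn
    have hzB : z ∉ B := fun hh => hzX (h.BX hh)
    set N : Subgroup G := K ⊓ centralizer (X : Set G) with hN
    have hKN : K ≤ normalizer (N : Set G) := by
      apply le_normalizer_of_conj
      intro k hk y hy
      refine mem_inf.2 ⟨mul_mem (mul_mem hk (mem_inf.1 hy).1) (inv_mem hk), ?_⟩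
      have := conj_mem_cj (k := k) (mem_inf.1 hy).2
      rwa [cj_centralizer, cj_of_mem_normalizer (h.KX hk)] at this
    have hLN := h.P4 N inf_le_left hKN z (ZA hz) hzB (mem_inf.2 ⟨h.AK (ZA hz), hZX hz⟩)
    have hLX : ∀ l ∈ L, ∀ y ∈ X, l * y = y * l := fun l hl y hy => cent_comm (mem_inf.1 (hLN hl)).2 hy
    have hXB : X = B := le_antisymm (h.X_le_B hLX) h.BX
    have hKB : K ≤ normalizer (B : Set G) := hXB ▸ h.KX
    set Y : Subgroup G := H ⊓ centralizer (B : Set G) with hY
    have hKY : K ≤ normalizer (Y : Set G) := by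
      apply le_normalizer_of_conj
      intro k hk y hy
      refine mem_inf.2 ⟨nconj (h.KH hk) (mem_inf.1 hy).1, ?_⟩
      have := conj_mem_cj (k := k) (mem_inf.1 hy).2
      rwa [cj_centralizer, cj_of_mem_normalizer (hKB hk)] at this
    set N' : Subgroup G := K ⊓ secC B Y with hN'
    have hKN' : K ≤ normalizer (N' : Set G) := by
      apply le_normalizer_of_conj
      intro k hk y hy
      exact mem_inf.2 ⟨mul_mem (mul_mem hk (mem_inf.1 hy).1) (inv_mem hk),
        secC_conj (hKB hk) (hKY hk) (mem_inf.1 hy).2⟩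
    have hzN' : z ∈ N' := by
      refine mem_inf.2 ⟨h.AK (ZA hz), hKB (h.AK (ZA hz)), ?_⟩
      intro y hy
      have hyH := (mem_inf.1 hy).1
      apply h.AH
      refine mem_inf.2 ⟨ZA ?_, ?_⟩
      · have := mul_mem hz (nconj (hSZ (h.HS hyH)) (inv_mem hz))
        have e : z * (y * z⁻¹ * y⁻¹) = z * y * z⁻¹ * y⁻¹ := by group
        rwa [e] at this
      · exact mul_mem (nconj (h.KH (h.AK (ZA hz))) hyH) (inv_mem hyH)
    have hLN' := h.P4 N' inf_le_left hKN' z (ZA hz) hzB hzN'
    have hB2 : IsPGroup 2 B := (h.pS.to_le h.XS).to_le h.BX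
    have hL1 : L ≤ (⊥ : Subgroup G) := by
      apply h.odd
      intro x hx ho
      rw [mem_bot]
      apply h.cent x hx ho
      have h1 : ∀ b ∈ B, b * x = x * b := fun b hb => (hLX x hx b (h.BX hb)).symm
      refine H59.CopAct.AxB (p := 2) B hB2 x (Nat.coprime_two_right.2 ho) h1 (Nat.card H) H le_rfl
        (h.pS.to_le h.HS) (h.BK.trans h.KH) (h.KH (h.LK hx)) ?_
      intro y hy hyB
      have hyY : y ∈ Y := mem_inf.2 ⟨hy, mem_cent fun b hb => (hyB b hb).symm⟩
      have h2 := (mem_inf.1 (hLN' hx)).2.2 y hyY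
      have h3 := odd_comm hB2 ho h2 rfl (h1 _ h2).symm
      calc x * y = x * y * x⁻¹ * y⁻¹ * (y * x) := by group
        _ = y * x := by rw [h3, one_mul]
    intro l hl
    rw [mem_bot.1 (hL1 hl)]
    exact one_mem _

theorem Z1_le_cent (S : Subgroup G) : Z1 S ≤ centralizer (JH S : Set G) := by
  unfold Z1 Cfsg.omegaOne
  rw [closure_le]
  rintro x ⟨hx, -⟩
  exact (mem_inf.1 hx).2

/-- the main theorem on configurations -/
theorem main [Finite G] (h : KT S A K L B X H r)
    (hind : (∀ T : Subgroup G, JE S ≤ T → T ≤ S → X ≤ T → ∀ V : Subgroup G, Strong T V →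
      X ≤ centralizer (V : Set G)) → X ≤ JH S)
    (ZA : Z1 S ≤ A) (hSZ : S ≤ normalizer (Z1 S : Set G)) : L ≤ centralizer (Z1 S : Set G) := by
  have hXE : X ≤ JH S := hind fun T h1 h2 h3 V hV => h.claim1 h1 h2 h3 hV
  exact h.claim2 ZA hSZ ((Z1_le_cent S).trans (centralizer_le hXE))

end KT

end H14.GF
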