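import Mathlib.GroupTheory.GroupAction.MultipleTransitivity
import Mathlib.GroupTheory.Perm.Basic
import Mathlib.GroupTheory.PGroup
import Mathlib.GroupTheory.OrderOfElement
import Mathlib.GroupTheory.Perm.Cycle.Type
import Cfsg.Prelude.Def_Perm

set_option autoImplicit false

namespace H14.NearFieldBasic

open Cfsg

variable {F : Type*} [NearField F]

theorem nf_zero_mul (a : F) : 0 * a = 0 := by
  have h := NearField.right_distrib 0 0 a
  rw [add_zero] at h
  simpa using h

theorem nf_neg_mul (a b : F) : -a * b = -(a * b) := by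
  have h := NearField.right_distrib (-a) a b
  rw [neg_add_cancel, nf_zero_mul] at h
  exact eq_neg_of_add_eq_zero_left h.symm

theorem nf_mul_eq_zero {a b : F} (h : a * b = 0) : a = 0 ∨ b = 0 := by
  by_cases hb : b = 0
  · exact Or.inr hb
  · left
    obtain ⟨c, hc, _⟩ := NearField.exists_inv b hb
    calc a = a * (b * c) := by rw [hc, mul_one]
      _ = (a * b) * c := (mul_assoc _ _ _).symm
      _ = 0 := by rw [h, nf_zero_mul]

theorem nf_mul_ne_zero {a b : F} (ha : a ≠ 0) (hb : b ≠ 0) : a * b ≠ 0 :=
  fun h => (nf_mul_eq_zero h).elim ha hb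

theorem nf_sub_mul (a b c : F) : (a - b) * c = a * c - b * c := by
  rw [sub_eq_add_neg, NearField.right_distrib, nf_neg_mul, sub_eq_add_neg]

theorem nf_mul_left_cancel {a b c : F} (hc : c ≠ 0) (h : a * c = b * c) : a = b := by
  have : (a - b) * c = 0 := by rw [nf_sub_mul, h, sub_self]
  rcases nf_mul_eq_zero this with h | h
  · exact sub_eq_zero.mp h
  · exact absurd h hc

/-- For nonzero `x` and any `y` there is a unique `a` with `x * a = y`. -/
theorem nf_exists_mul_eq {x : F} (hx : x ≠ 0) (y : F) : ∃ a, x * a = y := by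
  obtain ⟨c, hc, _⟩ := NearField.exists_inv x hx
  exact ⟨c * y, by rw [← mul_assoc, hc, one_mul]⟩

theorem nf_mul_right_inj {x : F} (hx : x ≠ 0) {a b : F} (h : x * a = x * b) : a = b := by
  obtain ⟨c, _, hc⟩ := NearField.exists_inv x hx
  calc a = c * x * a := by rw [hc, one_mul]
    _ = c * x * b := by rw [mul_assoc, h, ← mul_assoc]
    _ = b := by rw [hc, one_mul]

end H14.NearFieldBasic
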