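import Cfsg.Agent.Lib.H14.PrimeDegree3
import Mathlib.GroupTheory.SpecificGroups.Cyclic
import Mathlib.RingTheory.IntegralDomain

set_option autoImplicit false

namespace H14.PrimeDegree4

open Cfsg H14.PrimeDegree H14.PrimeDegree2 H14.PrimeDegree3
open scoped Pointwise

variable {α : Type*} [Fintype α] [DecidableEq α] {p : ℕ} [Fact p.Prime]

theorem stab_of_fixed (hα : Fintype.card α = p) (G : Subgroup (Equiv.Perm α)) [MulAction.IsPretransitive G α]
    (H : Subgroup G) (hH : H.index = p) (a : α) (hfix : ∀ h ∈ H, h • a = a) :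
    H = MulAction.stabilizer G a := by
  have h1 : H ≤ MulAction.stabilizer G a := hfix
  have h2 : (MulAction.stabilizer G a).index = p := by
    rw [MulAction.index_stabilizer_of_transitive, Nat.card_eq_fintype_card, hα]
  apply Subgroup.eq_of_le_of_card_ge h1
  have h3 := Subgroup.card_mul_index H
  have h4 := Subgroup.card_mul_index (MulAction.stabilizer G a)
  rw [hH] at h3
  rw [h2, ← h3] at h4
  exact (Nat.eq_of_mul_eq_mul_right (Fact.out : p.Prime).pos h4).le

/-- In coordinates where `G` is affine, a subgroup of index `p` fixes a point. -/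
theorem affine_case (hα : Fintype.card α = p) (G : Subgroup (Equiv.Perm α)) [MulAction.IsPretransitive G α]
    (e : ZMod p ≃ α) (haff : ∀ g ∈ G, ∃ a b : ZMod p, ∀ j, g (e j) = e (a * j + b))
    (H : Subgroup G) (hH : H.index = p) : ∃ a : α, H = MulAction.stabilizer G a := by
  have hp : p.Prime := Fact.out
  have hpH : ¬ p ∣ Nat.card H := by
    intro h
    apply not_sq_dvd_card hα G
    rw [← Subgroup.card_mul_index H, hH, pow_two]
    exact Nat.mul_dvd_mul_right h p
  have hmul : ∀ g ∈ G, ∀ j, e.symm (g (e j)) = (e.symm (g (e 1)) - e.symm (g (e 0))) * j + e.symm (g (e 0)) := by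
    intro g hg j
    obtain ⟨a, b, hab⟩ := haff g hg
    rw [hab, hab, hab]
    simp
  let m : H →* ZMod p :=
    { toFun := fun g => e.symm (((g : G) : Equiv.Perm α) (e 1)) - e.symm (((g : G) : Equiv.Perm α) (e 0))
      map_one' := by simp
      map_mul' := by
        rintro ⟨⟨g, hg⟩, hg'⟩ ⟨⟨k, hk⟩, hk'⟩
        simp only [Subgroup.coe_mul, Equiv.Perm.mul_apply]
        have h1 := hmul g hg (e.symm (k (e 1)))
        have h2 := hmul g hg (e.symm (k (e 0)))
        rw [Equiv.apply_symm_apply] at h1 h2
        rw [h1, h2]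
        ring }
  have hm : ∀ g : H, m g = e.symm (((g : G) : Equiv.Perm α) (e 1)) - e.symm (((g : G) : Equiv.Perm α) (e 0)) :=
    fun g => rfl
  have hone : ∀ g : H, m g = 1 → g = 1 := by
    intro g hg
    rw [hm] at hg
    set t := e.symm (((g : G) : Equiv.Perm α) (e 0)) with ht
    have h1 : ∀ j, ((g : G) : Equiv.Perm α) (e j) = e (j + t) := by
      intro j
      have := hmul _ (g : G).2 j
      rw [hg, one_mul] at this
      rw [← this, Equiv.apply_symm_apply]
    have h2 : ∀ (n : ℕ) j, (((g : G) : Equiv.Perm α) ^ n) (e j) = e (j + n * t) := by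
      intro n
      induction n with
      | zero => intro j; simp
      | succ n ih =>
        intro j
        rw [pow_succ', Equiv.Perm.mul_apply, ih, h1]
        congr 1; push_cast; ring
    have h3 : g ^ p = 1 := by
      apply Subtype.ext
      apply Subtype.ext
      apply Equiv.ext
      intro x
      obtain ⟨j, rfl⟩ := e.surjective x
      have := h2 p j
      rw [CharP.cast_eq_zero, zero_mul, add_zero] at this
      exact this
    have h4 : orderOf g ∣ p := orderOf_dvd_of_pow_eq_one h3
    rcases (Nat.dvd_prime hp).mp h4 with h5 | h5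
    · exact orderOf_eq_one_iff.mp h5
    · exact absurd (h5 ▸ orderOf_dvd_natCard g) hpH
  have hinj : Function.Injective m := by
    intro g k hgk
    have h1 : m (g * k⁻¹) = 1 := by
      rw [map_mul, hgk, ← map_mul, mul_inv_cancel, map_one]
    exact mul_inv_eq_one.mp (hone _ h1)
  haveI : IsCyclic H := isCyclic_of_subgroup_isDomain m hinj
  obtain ⟨g, hg⟩ := IsCyclic.exists_generator (α := H)
  -- a fixed point of the generator
  obtain ⟨x, hx⟩ : ∃ x : α, ((g : G) : Equiv.Perm α) x = x := by
    by_cases h1 : m g = 1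
    · rw [hone g h1]
      exact ⟨e 0, rfl⟩
    · rw [hm] at h1
      set a := e.symm (((g : G) : Equiv.Perm α) (e 1)) - e.symm (((g : G) : Equiv.Perm α) (e 0)) with ha
      set t := e.symm (((g : G) : Equiv.Perm α) (e 0)) with ht
      have ha1 : 1 - a ≠ 0 := fun h => h1 (sub_eq_zero.mp h).symm
      refine ⟨e (t / (1 - a)), ?_⟩
      have := hmul _ (g : G).2 (t / (1 - a))
      rw [← ha, ← ht] at this
      rw [← Equiv.symm_apply_eq, this]
      field_simp
      ring
  refine ⟨x, stab_of_fixed hα G H hH x fun h hh => ?_⟩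
  obtain ⟨k, hk⟩ := Subgroup.mem_zpowers_iff.mp (hg ⟨h, hh⟩)
  have h1 : (g : G) ∈ MulAction.stabilizer G x := hx
  have h2 : h = (g : G) ^ k := by
    have h3 := congrArg Subtype.val hk
    exact h3.symm
  rw [h2]
  exact Subgroup.zpow_mem _ h1 k

/-- the difference set argument -/
theorem diff_set (hp2 : p ≠ 2) (D : Finset (ZMod p)) (hneg : ∀ x, -x ∈ D ↔ x ∈ D)
    (hcard : ∀ d d' : ZMod p, d ≠ 0 → d' ≠ 0 →
      (D.filter fun x => x + d ∈ D).card = (D.filter fun x => x + d' ∈ D).card) :
    (∀ x ∈ D, x = 0) ∨ ∀ x, x ≠ 0 → x ∈ D := by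
  classical
  have hp : p.Prime := Fact.out
  have h2ne : (2 : ZMod p) ≠ 0 := by
    intro h
    have h1 : ((2 : ℕ) : ZMod p) = 0 := by exact_mod_cast h
    rw [ZMod.natCast_eq_zero_iff] at h1
    exact hp2 ((Nat.prime_dvd_prime_iff_eq hp Nat.prime_two).mp h1)
  have hpar : ∀ d : ZMod p, ((D.filter fun x => x + d ∈ D).card : ZMod 2) = if d / 2 ∈ D then 1 else 0 := by
    intro d
    have hd2 : -(d / 2) + d = d / 2 := by field_simp; ring
    -- remove the fixed point -d/2, the rest is paired
    have h1 : ∑ x ∈ (D.filter fun x => x + d ∈ D).filter (fun x => x ≠ -(d / 2)), (1 : ZMod 2) = 0 := by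
      refine Finset.sum_involution (fun x _ => -x - d) ?_ ?_ ?_ ?_
      · intro a _; decide
      · intro a ha _ h
        rw [Finset.mem_filter] at ha
        apply ha.2
        have : a = -(d / 2) := by
          field_simp
          linear_combination -h
        exact this
      · intro a ha
        rw [Finset.mem_filter, Finset.mem_filter] at ha ⊢
        obtain ⟨⟨ha1, ha2⟩, ha3⟩ := ha
        refine ⟨⟨?_, ?_⟩, ?_⟩
        · have : -a - d = -(a + d) := by ring
          rw [this, hneg]; exact ha2
        · have : -a - d + d = -a := by ring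
          rw [this, hneg]; exact ha1
        · intro h
          apply ha3
          have : a = -(-a - d) - d := by ring
          rw [this, h]
          field_simp
          ring
      · intro a _; ring
    have h2 : ((D.filter fun x => x + d ∈ D).card : ZMod 2) = ∑ x ∈ (D.filter fun x => x + d ∈ D), (1 : ZMod 2) := by
      simp
    rw [h2, ← Finset.sum_filter_add_sum_filter_not _ (fun x => x ≠ -(d / 2)), h1, zero_add]
    by_cases h3 : d / 2 ∈ D
    · rw [if_pos h3]
      have h4 : (D.filter fun x => x + d ∈ D).filter (fun x => ¬ x ≠ -(d / 2)) = {-(d / 2)} := by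
        ext x
        rw [Finset.mem_filter, Finset.mem_filter, Finset.mem_singleton, not_not]
        constructor
        · exact fun h => h.2
        · rintro rfl
          refine ⟨⟨(hneg _).mpr h3, ?_⟩, rfl⟩
          rw [hd2]; exact h3
      rw [h4, Finset.sum_singleton]
    · rw [if_neg h3]
      have h4 : (D.filter fun x => x + d ∈ D).filter (fun x => ¬ x ≠ -(d / 2)) = ∅ := by
        rw [Finset.filter_eq_empty_iff]
        intro x hx h5
        rw [not_not] at h5
        subst h5
        rw [Finset.mem_filter, hneg] at hx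
        exact h3 hx.1
      rw [h4, Finset.sum_empty]
  have hiff : ∀ x y : ZMod p, x ≠ 0 → y ≠ 0 → x ∈ D → y ∈ D := by
    intro x y hx hy hxD
    have h1 := hpar (2 * x)
    have h2 := hpar (2 * y)
    rw [hcard (2 * x) (2 * y) (mul_ne_zero h2ne hx) (mul_ne_zero h2ne hy)] at h1
    rw [h1, mul_div_cancel_left₀ _ h2ne, mul_div_cancel_left₀ _ h2ne, if_pos hxD] at h2
    by_contra h
    rw [if_neg h] at h2
    exact one_ne_zero h2
  by_cases h : ∃ x ∈ D, x ≠ 0
  · obtain ⟨x, hxD, hx⟩ := h
    exact Or.inr fun y hy => hiff x y hx hy hxD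
  · push Not at h
    exact Or.inl h

theorem main_odd (hα : Fintype.card α = p) (hp2 : p ≠ 2) (G : Subgroup (Equiv.Perm α)) [MulAction.IsPretransitive G α] (P : Sylow p G) (heven : Even (Nat.card (Subgroup.normalizer ((P : Subgroup G) : Set G)))) (H : Subgroup G) (hH : H.index = p) : ∃ a : α, H = MulAction.stabilizer G a := by
  classical
  have hp : p.Prime := Fact.out
  obtain ⟨c, hc, τ, hτ, hco, hτo, hinv, e, he, hτe⟩ := exists_inverting hα hp2 G P heven
  rcases affine_or_two_transitive hα G hc e he with haff | h2t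
  · exact affine_case hα G e haff H hH
  have h2ne : (2 : ZMod p) ≠ 0 := by
    intro h
    have h1 : ((2 : ℕ) : ZMod p) = 0 := by exact_mod_cast h
    rw [ZMod.natCast_eq_zero_iff] at h1
    exact hp2 ((Nat.prime_dvd_prime_iff_eq hp Nat.prime_two).mp h1)
  have hpH : ¬ p ∣ Nat.card H := by
    intro h
    apply not_sq_dvd_card hα G
    rw [← Subgroup.card_mul_index H, hH, pow_two]
    exact Nat.mul_dvd_mul_right h p
  -- powers of c as elements of G
  let C : ZMod p → G := fun i => (⟨c, hc⟩ : G) ^ i.val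
  have hC : ∀ i j, (C i : Equiv.Perm α) (e j) = e (j + i) := by
    intro i j
    have hcpow : ∀ (n : ℕ) j, (c ^ n) (e j) = e (j + n) := by
      intro n
      induction n with
      | zero => intro j; simp
      | succ n ih =>
        intro j
        rw [pow_succ', Equiv.Perm.mul_apply, ih, he]
        congr 1; push_cast; ring
    have := hcpow i.val j
    rw [ZMod.natCast_zmod_val] at this
    exact this
  have hCadd : ∀ i j, C (i + j) = C i * C j := by
    intro i j
    apply Subtype.ext
    apply Equiv.ext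
    intro x
    obtain ⟨k, rfl⟩ := e.surjective x
    rw [Subgroup.coe_mul, Equiv.Perm.mul_apply, hC, hC, hC]
    congr 1; ring
  have hC0 : C 0 = 1 := by simp [C]
  -- C i ∈ H only for i = 0
  have hCH : ∀ i, C i ∈ H → i = 0 := by
    intro i hi
    by_contra hne
    have h1 : orderOf (C i) = p := by
      have h2 : (C i) ^ p = 1 := by
        change ((⟨c, hc⟩ : G) ^ i.val) ^ p = 1
        rw [← pow_mul, mul_comm, pow_mul]
        have : (⟨c, hc⟩ : G) ^ p = 1 := by
          rw [← orderOf_dvd_iff_pow_eq_one, Subgroup.orderOf_mk, hco]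
        rw [this, one_pow]
      rcases (Nat.dvd_prime hp).mp (orderOf_dvd_of_pow_eq_one h2) with h3 | h3
      · exfalso
        apply hne
        have h4 := orderOf_eq_one_iff.mp h3
        have h5 := hC i 0
        rw [h4] at h5
        have h6 : e 0 = e (0 + i) := h5
        have := e.injective h6
        rw [zero_add] at this
        exact this.symm
      · exact h3
    have h2 := orderOf_dvd_natCard (⟨C i, hi⟩ : H)
    rw [Subgroup.orderOf_mk, h1] at h2
    exact hpH h2
  -- G = C H
  have hCHG : ∀ g : G, ∃ i, ∃ h ∈ H, g = C i * h := by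
    have hinj : Function.Injective (fun i : ZMod p => (QuotientGroup.mk (C i) : G ⧸ H)) := by
      intro i j hij
      have h1 : (C i)⁻¹ * C j ∈ H := QuotientGroup.eq.mp hij
      have h2 : (C i)⁻¹ * C j = C (j - i) := by
        rw [inv_mul_eq_iff_eq_mul, ← hCadd]
        congr 1; ring
      rw [h2] at h1
      exact (sub_eq_zero.mp (hCH _ h1)).symm
    haveI : Finite (G ⧸ H) := inferInstance
    haveI := Fintype.ofFinite (G ⧸ H)
    have hbij : Function.Bijective (fun i : ZMod p => (QuotientGroup.mk (C i) : G ⧸ H)) := by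
      rw [Fintype.bijective_iff_injective_and_card]
      refine ⟨hinj, ?_⟩
      rw [ZMod.card, ← Nat.card_eq_fintype_card, ← Subgroup.index_eq_card, hH]
    intro g
    obtain ⟨i, hi⟩ := hbij.2 (QuotientGroup.mk g)
    exact ⟨i, (C i)⁻¹ * g, QuotientGroup.eq.mp hi, by group⟩
  -- H-orbit
  let D0 : Set α := MulAction.orbit H (e 0)
  have hD0H : ∀ h ∈ H, h • D0 = D0 := by
    intro h hh
    have : (⟨h, hh⟩ : H) • D0 = D0 := MulAction.smul_orbit _ _
    exact this
  have hD0ne : ∃ x, x ∉ D0 := by
    by_contra hcon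
    push Not at hcon
    have h1 : D0 = Set.univ := Set.eq_univ_of_forall hcon
    have h2 := MulAction.index_stabilizer H (e 0)
    rw [show MulAction.orbit H (e 0) = D0 from rfl, h1, Set.ncard_univ, Nat.card_eq_fintype_card, hα] at h2
    apply hpH
    rw [← h2]
    exact Subgroup.index_dvd_card _
  -- coordinates : D
  let D : Set (ZMod p) := {j | e j ∈ D0}
  have hDmem : ∀ j, j ∈ D ↔ e j ∈ D0 := fun j => Iff.rfl
  have hsmul : ∀ (g : G) (X : Set α) x, x ∈ g • X ↔ (g⁻¹ • x) ∈ X := fun g X x =>
    Set.mem_smul_set_iff_inv_smul_mem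
  have hCinv : ∀ i j, (C i)⁻¹ • e j = e (j - i) := by
    intro i j
    rw [inv_smul_eq_iff]
    change e j = (C i : Equiv.Perm α) (e (j - i))
    rw [hC, sub_add_cancel]
  -- every translate
  have htrans : ∀ g : G, ∃ i, g • D0 = C i • D0 := by
    intro g
    obtain ⟨i, h, hh, rfl⟩ := hCHG g
    exact ⟨i, by rw [mul_smul, hD0H h hh]⟩
  -- C i • D0 = C j • D0 implies i = j
  have hstabH : ∀ g : G, g • D0 = D0 → g ∈ H := by
    intro g hg
    -- the set stabilizer contains H
    set S : Subgroup G := MulAction.stabilizer G D0 with hS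
    have h1 : H ≤ S := fun h hh => hD0H h hh
    have h2 : S ≠ ⊤ := by
      intro h
      obtain ⟨x, hx⟩ := hD0ne
      obtain ⟨k, hk⟩ := MulAction.exists_smul_eq G (e 0) x
      apply hx
      have h3 : k ∈ S := by rw [h]; exact Subgroup.mem_top k
      have h4 : k • D0 = D0 := h3
      rw [← hk, ← h4]
      exact Set.smul_mem_smul_set (MulAction.mem_orbit_self _)
    have h3 : H = S := by
      by_contra hne
      have h4 := Subgroup.relIndex_mul_index h1
      rw [hH] at h4
      rcases (Nat.dvd_prime hp).mp (Dvd.intro_left _ h4) with h5 | h5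
      · exact h2 (Subgroup.index_eq_one.mp h5)
      · rw [h5] at h4
        have h6 : H.relIndex S = 1 := Nat.eq_of_mul_eq_mul_right hp.pos (by rw [h4, one_mul])
        exact hne (le_antisymm h1 (Subgroup.relIndex_eq_one.mp h6))
    rw [h3]; exact hg
  have hCinj : ∀ i j, C i • D0 = C j • D0 → i = j := by
    intro i j hij
    have h1 : C (i - j) • D0 = D0 := by
      have h2 : C i = C j * C (i - j) := by rw [← hCadd]; congr 1; ring
      rw [h2, mul_smul] at hij
      exact smul_left_cancel _ hij
    exact sub_eq_zero.mp (hCH _ (hstabH _ h1))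
  -- symmetric translate
  obtain ⟨k, hk⟩ := htrans ⟨τ, hτ⟩
  have hτinv : (⟨τ, hτ⟩ : G)⁻¹ = ⟨τ, hτ⟩ := by
    apply inv_eq_of_mul_eq_one_left
    rw [← pow_two]
    have : orderOf (⟨τ, hτ⟩ : G) = 2 := by rw [Subgroup.orderOf_mk, hτo]
    rw [← this, pow_orderOf_eq_one]
  let D1 : Set α := C (k / 2) • D0
  have hD1mem : ∀ j, e j ∈ D1 ↔ e (j - k / 2) ∈ D0 := by
    intro j
    rw [hsmul, hCinv]
  have hD1neg : ∀ j, e (-j) ∈ D1 ↔ e j ∈ D1 := by
    intro j
    have h1 : ∀ j, e (-j) ∈ D0 ↔ e (j - k) ∈ D0 := by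
      intro j
      have h3 : e j ∈ (⟨τ, hτ⟩ : G) • D0 ↔ e j ∈ C k • D0 := by rw [hk]
      rw [hsmul, hsmul, hCinv, hτinv] at h3
      have h4 : (⟨τ, hτ⟩ : G) • e j = e (-j) := hτe j
      rw [h4] at h3
      exact h3
    rw [hD1mem, hD1mem]
    have h5 := h1 (j + k / 2)
    have h6 : -(j + k / 2) = -j - k / 2 := by ring
    have h7 : j + k / 2 - k = j - k / 2 := by field_simp; ring
    rw [h6, h7] at h5
    exact h5
  have htrans1 : ∀ g : G, ∃ i, g • D1 = C i • D1 := by
    intro g
    obtain ⟨i, hi⟩ := htrans (g * C (k / 2))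
    refine ⟨i - k / 2, ?_⟩
    change g • C (k / 2) • D0 = C (i - k / 2) • C (k / 2) • D0
    rw [smul_smul, hi, smul_smul, ← hCadd, sub_add_cancel]
  have hCinj1 : ∀ i j, C i • D1 = C j • D1 → i = j := by
    intro i j hij
    change C i • C (k / 2) • D0 = C j • C (k / 2) • D0 at hij
    rw [smul_smul, smul_smul, ← hCadd, ← hCadd] at hij
    exact add_right_cancel (hCinj _ _ hij)
  let DF : Finset (ZMod p) := Finset.univ.filter fun j => e j ∈ D1
  have hDF : ∀ j, j ∈ DF ↔ e j ∈ D1 := fun j => by simp [DF]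
  have hcard_le : ∀ d d' : ZMod p, d ≠ 0 → d' ≠ 0 →
      (DF.filter fun x => x + d ∈ DF).card ≤ (DF.filter fun x => x + d' ∈ DF).card := by
    intro d d' hd hd'
    have h2t' : ∀ {a b c d : α}, a ≠ b → c ≠ d → ∃ g : G, g • a = c ∧ g • b = d :=
      fun hab hcd => MulAction.is_two_pretransitive_iff.mp h2t hab hcd
    obtain ⟨g, hg0, hgd⟩ := h2t' (show e 0 ≠ e d from fun h => hd (e.injective h).symm)
      (show e 0 ≠ e d' from fun h => hd' (e.injective h).symm)
    -- x ↦ x' with g • (C (-x) • D1) = C (-x') • D1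
    have hx : ∀ x, ∃ x', g • C (-x) • D1 = C (-x') • D1 := by
      intro x
      obtain ⟨i, hi⟩ := htrans1 (g * C (-x))
      exact ⟨-i, by rw [neg_neg, smul_smul, hi]⟩
    choose φ hφ using hx
    have hblock : ∀ x j, e j ∈ C (-x) • D1 ↔ x + j ∈ DF := by
      intro x j
      rw [hsmul, hCinv, hDF, sub_neg_eq_add, add_comm]
    apply Finset.card_le_card_of_injOn φ
    · intro x hx
      rw [Finset.mem_coe, Finset.mem_filter] at hx ⊢
      have h0 : e 0 ∈ C (-x) • D1 := by rw [hblock, add_zero]; exact hx.1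
      have h1 : e d ∈ C (-x) • D1 := by rw [hblock]; exact hx.2
      have h0' : g • e 0 ∈ g • C (-x) • D1 := Set.smul_mem_smul_set h0
      have h1' : g • e d ∈ g • C (-x) • D1 := Set.smul_mem_smul_set h1
      rw [hg0, hφ, hblock, add_zero] at h0'
      rw [hgd, hφ, hblock] at h1'
      exact ⟨h0', h1'⟩
    · intro x _ y _ hxy
      have h1 : g • C (-x) • D1 = g • C (-y) • D1 := by rw [hφ, hφ, hxy]
      have h2 := hCinj1 _ _ (smul_left_cancel _ h1)
      exact neg_injective h2
  have hdiff := diff_set hp2 DF (fun x => by rw [hDF, hDF]; exact hD1neg x)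
    (fun d d' hd hd' => le_antisymm (hcard_le d d' hd hd') (hcard_le d' d hd' hd))
  -- a special point
  have hD1H : ∀ h ∈ H, (C (k / 2) * h * (C (k / 2))⁻¹) • D1 = D1 := by
    intro h hh
    change (C (k / 2) * h * (C (k / 2))⁻¹) • C (k / 2) • D0 = C (k / 2) • D0
    rw [smul_smul, inv_mul_cancel_right, mul_smul, hD0H h hh]
  have hfix0 : ∀ g : G, g • D1 = D1 → g • e 0 = e 0 := by
    intro g hg
    rcases hdiff with h | h
    · -- D1 = {e 0}
      have h1 : e 0 ∈ D1 := by
        have h2 : e 0 ∈ D0 := MulAction.mem_orbit_self _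
        have h3 : e (k / 2) ∈ D1 := by rw [hD1mem, sub_self]; exact h2
        have h4 := h _ ((hDF _).mpr h3)
        rw [h4] at h3; exact h3
      have h2 : g • e 0 ∈ D1 := by
        have h5 := Set.smul_mem_smul_set (a := g) h1
        rwa [hg] at h5
      obtain ⟨j, hj⟩ := e.surjective (g • e 0)
      rw [← hj] at h2 ⊢
      rw [h j ((hDF j).mpr h2)]
    · have h1 : e 0 ∉ D1 := by
        intro h0
        obtain ⟨x, hx⟩ := hD0ne
        obtain ⟨j, rfl⟩ := e.surjective x
        apply hx
        have h2 : e (j + k / 2) ∈ D1 := by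
          by_cases hj : j + k / 2 = 0
          · rw [hj]; exact h0
          · exact (hDF _).mp (h _ hj)
        rw [hD1mem, add_sub_cancel_right] at h2
        exact h2
      by_contra hne
      apply h1
      have h2 : g • e 0 ∈ D1 := by
        obtain ⟨j, hj⟩ := e.surjective (g • e 0)
        rw [← hj]
        refine (hDF j).mp (h j fun hj0 => hne ?_)
        rw [← hj, hj0]
      rw [← hg] at h2
      exact (Set.smul_mem_smul_set_iff).mp h2
  refine ⟨(C (k / 2))⁻¹ • e 0, stab_of_fixed hα G H hH _ fun h hh => ?_⟩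
  have h1 := hfix0 _ (hD1H h hh)
  rw [mul_smul, mul_smul] at h1
  rw [eq_inv_smul_iff]
  exact h1

theorem main (hα : Fintype.card α = p) (G : Subgroup (Equiv.Perm α)) [MulAction.IsPretransitive G α] (P : Sylow p G) (heven : Even (Nat.card (Subgroup.normalizer ((P : Subgroup G) : Set G)))) (H : Subgroup G) (hH : H.index = p) : ∃ a : α, H = MulAction.stabilizer G a := by
  by_cases hp2 : p = 2
  · obtain ⟨c, hc, hco, e, he⟩ := exists_coord hα G
    rcases affine_or_five_le e with h | h
    · exact affine_case hα G e (fun g _ => h g) H hH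
    · omega
  · exact main_odd hα hp2 G P heven H hH

end H14.PrimeDegree4
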