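import Cfsg.Agent.Lib.H14.SharpTwo
import Cfsg.Prelude.Def_Perm

/-!
# Near-fields from sharply 2-transitive groups
-/

set_option autoImplicit false

namespace H14.SharpNF

open MulAction Subgroup H14.SharpTwo Cfsg

/-- construct the near-field from the data of translations and multiplications -/
theorem construct {α : Type*} (H : Subgroup (Equiv.Perm α)) (z o : α) (hzo : z ≠ o)
    (k g : α → Equiv.Perm α) (hkH : ∀ x, k x ∈ H) (hkz : ∀ x, k x z = x) (hk0 : k z = 1)
    (hkm : ∀ x y, k (k y x) = k y * k x)
    (hgH : ∀ a, a ≠ z → g a ∈ H) (hgz : ∀ a, a ≠ z → g a z = z) (hgo : ∀ a, a ≠ z → g a o = a)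
    (hg1 : g o = 1) (hgm : ∀ a b, a ≠ z → b ≠ z → g (g b a) = g b * g a)
    (hgk : ∀ b c, c ≠ z → g c * k b = k (g c b) * g c)
    (hall : ∀ σ ∈ H, ∃ a b, a ≠ z ∧ σ = k b * g a) :
    ∃ _ : NearField α, ∀ σ : Equiv.Perm α, σ ∈ H ↔ ∃ a b : α, a ≠ 0 ∧ ∀ x : α, σ x = x * a + b := by
  classical
  have hgne : ∀ a b, a ≠ z → b ≠ z → g b a ≠ z := by
    intro a b ha hb h
    have h1 : g b a = g b z := by rw [h, hgz b hb]
    exact ha ((g b).injective h1)
  let nf : NearField α :=
    { add := fun x y => k y x
      add_assoc := fun x y w => by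
        change k w (k y x) = k (k w y) x
        rw [hkm]; rfl
      zero := z
      zero_add := fun x => hkz x
      add_zero := fun x => by
        change k z x = x
        rw [hk0]; rfl
      nsmul := @nsmulRec α ⟨z⟩ ⟨fun x y => k y x⟩
      neg := fun x => (k x).symm z
      zsmul := @zsmulRec α ⟨z⟩ ⟨fun x y => k y x⟩ ⟨fun x => (k x).symm z⟩ (@nsmulRec α ⟨z⟩ ⟨fun x y => k y x⟩)
      neg_add_cancel := fun x => by
        change k x ((k x).symm z) = z
        rw [Equiv.apply_symm_apply]
      mul := fun x a => if a = z then z else g a x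
      mul_assoc := fun x a b => by
        change (if b = z then z else g b (if a = z then z else g a x)) =
          if (if b = z then z else g b a) = z then z else g (if b = z then z else g b a) x
        by_cases hb : b = z
        · simp [hb]
        · by_cases ha : a = z
          · simp [hb, ha, hgz b hb]
          · rw [if_neg hb, if_neg ha, if_neg hb, if_neg (hgne a b ha hb), hgm a b ha hb]
            rfl
      one := o
      one_mul := fun a => by
        change (if a = z then z else g a o) = a
        by_cases ha : a = z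
        · simp [ha]
        · rw [if_neg ha, hgo a ha]
      mul_one := fun a => by
        change (if o = z then z else g o a) = a
        rw [if_neg hzo.symm, hg1]; rfl
      npow := @npowRec α ⟨o⟩ ⟨fun x a => if a = z then z else g a x⟩
      right_distrib := fun a b c => by
        change (if c = z then z else g c (k b a)) =
          k (if c = z then z else g c b) (if c = z then z else g c a)
        by_cases hc : c = z
        · simp [hc, hk0]
        · rw [if_neg hc, if_neg hc, if_neg hc]
          have := congrArg (fun σ : Equiv.Perm α => σ a) (hgk b c hc)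
          exact this
      mul_zero := fun a => by
        change (if z = z then z else g z a) = z
        rw [if_pos rfl]
      zero_ne_one := hzo
      exists_inv := fun a ha => by
        have ha' : a ≠ z := ha
        have hb : (g a).symm o ≠ z := by
          intro h
          have h1 : g a ((g a).symm o) = g a z := by rw [h]
          rw [Equiv.apply_symm_apply, hgz a ha'] at h1
          exact hzo h1.symm
        have h1 : g a ((g a).symm o) = o := Equiv.apply_symm_apply _ _
        have h2 : g a * g ((g a).symm o) = 1 := by rw [← hgm _ _ hb ha', h1, hg1]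
        have h3 : g ((g a).symm o) * g a = 1 := mul_eq_one_comm.mp h2
        refine ⟨(g a).symm o, ?_, ?_⟩
        · change (if (g a).symm o = z then z else g ((g a).symm o) a) = o
          rw [if_neg hb]
          have h4 := congrArg (fun σ : Equiv.Perm α => σ o) h3
          simp only [Equiv.Perm.coe_mul, Function.comp_apply, Equiv.Perm.coe_one, id_eq] at h4
          rwa [hgo a ha'] at h4
        · change (if a = z then z else g a ((g a).symm o)) = o
          rw [if_neg ha', h1] }
  refine ⟨nf, fun σ => ⟨fun hσ => ?_, ?_⟩⟩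
  · obtain ⟨a, b, ha, rfl⟩ := hall σ hσ
    refine ⟨a, b, ha, fun x => ?_⟩
    change k b (g a x) = k b (if a = z then z else g a x)
    rw [if_neg ha]
  · rintro ⟨a, b, ha, hσ⟩
    have ha' : a ≠ z := ha
    have : σ = k b * g a := by
      ext x
      rw [hσ x]
      change k b (if a = z then z else g a x) = k b (g a x)
      rw [if_neg ha']
    rw [this]
    exact mul_mem (hkH b) (hgH a ha')

theorem main {α : Type*} [Fintype α] [DecidableEq α] (H : Subgroup (Equiv.Perm α))
    [IsMultiplyPretransitive H α 2] (hsharp : ∀ x : Fin 2 ↪ α, stabilizer H x = ⊥)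
    (h2 : 2 ≤ Fintype.card α) :
    ∃ _ : NearField α, ∀ σ : Equiv.Perm α, σ ∈ H ↔ ∃ a b : α, a ≠ 0 ∧ ∀ x : α, σ x = x * a + b := by
  classical
  haveI : Fintype H := Fintype.ofFinite H
  have hS := sharp_of hsharp
  have hc := card_group hsharp h2
  obtain ⟨K, p, hp, hKn, hK, hKc, hKp, hKcard, hKt⟩ := exists_kernel hS h2 hc
  haveI : Nontrivial α := Fintype.one_lt_card_iff_nontrivial.mp h2
  obtain ⟨z, o, hzo⟩ := exists_pair_ne α
  -- uniqueness in K
  have huK : ∀ x ∈ K, ∀ y ∈ K, ∀ a : α, x • a = y • a → x = y := by
    intro x hx y hy a hxy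
    have h1 : (y⁻¹ * x) • a = a := by rw [mul_smul, hxy, inv_smul_smul]
    rcases (hK _).mp (mul_mem (inv_mem hy) hx) with h3 | h3
    · exact (inv_mul_eq_one.mp h3).symm
    · exact absurd h1 (h3 a)
  choose k hkK hk using fun x : α => hKt z x
  have hg' : ∀ a : α, ∃ g : H, a ≠ z → g • z = z ∧ g • o = a := by
    intro a
    by_cases ha : a = z
    · exact ⟨1, fun h => absurd ha h⟩
    · obtain ⟨g, h1, h3⟩ := hS.trans z o z a hzo (Ne.symm ha)
      exact ⟨g, fun _ => ⟨h1, h3⟩⟩
  choose g hg using hg'
  have huG : ∀ x y : H, x • z = z → y • z = z → x • o = y • o → x = y := by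
    intro x y hx hy hxy
    have h1 : y⁻¹ * x = 1 := by
      apply hS.sharp z o _ hzo
      · rw [mul_smul, hx, inv_smul_eq_iff, hy]
      · rw [mul_smul, hxy, inv_smul_smul]
    exact (inv_mul_eq_one.mp h1).symm
  apply construct H z o hzo (fun x => (k x : Equiv.Perm α)) (fun a => (g a : Equiv.Perm α))
    (fun x => (k x).2) (fun x => hk x)
  · have : k z = 1 := huK _ (hkK z) _ (one_mem K) z (by rw [hk, one_smul])
    rw [this]; rfl
  · intro x y
    have : k ((k y) • x) = k y * k x := huK _ (hkK _) _ (mul_mem (hkK y) (hkK x)) z (by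
      rw [hk, mul_smul, hk])
    exact congrArg Subtype.val this
  · exact fun a _ => (g a).2
  · exact fun a ha => (hg a ha).1
  · exact fun a ha => (hg a ha).2
  · have : g o = 1 := huG _ _ (hg o hzo.symm).1 (one_smul _ _) (by rw [(hg o hzo.symm).2, one_smul])
    rw [this]; rfl
  · intro a b ha hb
    have hne : (g b) • a ≠ z := by
      intro h
      rw [← (hg b hb).1] at h
      exact ha (smul_left_cancel _ h)
    have : g ((g b) • a) = g b * g a := huG _ _ (hg _ hne).1 (by
      rw [mul_smul, (hg a ha).1, (hg b hb).1]) (by rw [(hg _ hne).2, mul_smul, (hg a ha).2])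
    exact congrArg Subtype.val this
  · intro b c hc
    have h1 : g c * k b * (g c)⁻¹ = k ((g c) • b) := huK _ (hKn.conj_mem _ (hkK b) _) _ (hkK _) z (by
      have h3 : (g c)⁻¹ • z = z := by rw [inv_smul_eq_iff, (hg c hc).1]
      rw [mul_smul, mul_smul, h3, hk, hk])
    have h3 : g c * k b = k ((g c) • b) * g c := by rw [← h1]; group
    exact congrArg Subtype.val h3
  · intro σ hσ
    set s : H := ⟨σ, hσ⟩ with hs
    set b := s • z with hb
    set t := (k b)⁻¹ * s with ht
    have htz : t • z = z := by
      rw [ht, mul_smul, ← hb, inv_smul_eq_iff, hk]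
    have hto : t • o ≠ z := by
      intro h
      rw [← htz] at h
      exact hzo (smul_left_cancel _ h).symm
    refine ⟨t • o, b, hto, ?_⟩
    have h1 : g (t • o) = t := huG _ _ (hg _ hto).1 htz (hg _ hto).2
    have h3 : s = k b * g (t • o) := by rw [h1, ht]; group
    exact congrArg Subtype.val h3

end H14.SharpNF
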