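import Mathlib

/-!
Orthogonal 3 x 3 matrices over the field with five elements: monomial, or (signs) (I+J) (signs, permutation).
-/

set_option autoImplicit false

namespace H14.U35B

def pm (c : ZMod 5) : ZMod 5 := if c = 1 ∨ c = 2 then 1 else -1

def prm : Fin 6 → Fin 3 → Fin 3 := ![![0,1,2], ![0,2,1], ![1,0,2], ![1,2,0], ![2,0,1], ![2,1,0]]

def Mon (C : Fin 3 → Fin 3 → ZMod 5) (k : Fin 6) : Prop :=
  ∀ i j, C i j = if j = prm k i then pm (C i j) else 0

def Dbl (C : Fin 3 → Fin 3 → ZMod 5) (k : Fin 6) : Prop :=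
  ∀ i j, C i j = pm (C i 0) * (pm (C 0 j) * pm (C 0 0)) * (if j = prm k i then 2 else 1)

instance instMon (C : Fin 3 → Fin 3 → ZMod 5) (k : Fin 6) : Decidable (Mon C k) := by unfold Mon; infer_instance
instance instDbl (C : Fin 3 → Fin 3 → ZMod 5) (k : Fin 6) : Decidable (Dbl C k) := by unfold Dbl; infer_instance

/-- last step -/
def P3 (a b c d e f : ZMod 5) : Prop := ∀ g h i : ZMod 5, a * g + b * h + c * i = 0 → d * g + e * h + f * i = 0 →
    g * g + h * h + i * i = 1 → ∃ k, Mon ![![a, d, g], ![b, e, h], ![c, f, i]] k ∨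
      Dbl ![![a, d, g], ![b, e, h], ![c, f, i]] k

instance instP3 (a b c d e f : ZMod 5) : Decidable (P3 a b c d e f) := by unfold P3; infer_instance

def P2 (a b c : ZMod 5) : Prop := ∀ d e f : ZMod 5, a * d + b * e + c * f = 0 →
    d * d + e * e + f * f = 1 → P3 a b c d e f

instance instP2 (a b c : ZMod 5) : Decidable (P2 a b c) := by unfold P2; infer_instance

set_option maxRecDepth 100000 in
theorem cls0 : ∀ a b c : ZMod 5, a * a + b * b + c * c = 1 → P2 a b c := by
  decide +kernel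

theorem cls {a b c d e f g h i : ZMod 5} (h1 : a * a + b * b + c * c = 1) (h2 : a * d + b * e + c * f = 0)
    (h3 : d * d + e * e + f * f = 1) (h4 : a * g + b * h + c * i = 0) (h5 : d * g + e * h + f * i = 0)
    (h6 : g * g + h * h + i * i = 1) : ∃ k, Mon ![![a, d, g], ![b, e, h], ![c, f, i]] k ∨
      Dbl ![![a, d, g], ![b, e, h], ![c, f, i]] k :=
  cls0 a b c h1 d e f h2 h3 g h i h4 h5 h6

lemma pm_sq (c : ZMod 5) : pm c * pm c = 1 := by
  revert c; decide

end H14.U35B
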