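import Mathlib
import Cfsg.Agent.Lib.H14.U35Ba
import Cfsg.Agent.Lib.H17.U35F

/-!
The 105-point configuration of the three-dimensional unitary group over the field with 25 elements is preserved by the
orthogonal matrices over the prime field.
-/

set_option autoImplicit false

namespace H14.U35B

/-- the configuration -/
def Om3 {F : Type*} [Field F] (a b c : F) : Prop :=
  a ^ 6 + b ^ 6 + c ^ 6 ≠ 0 ∧ (a ^ 6 = b ^ 6 ∨ a ^ 6 = c ^ 6 ∨ b ^ 6 = c ^ 6) ∧ (a * b * c) ^ 9 = a * b * c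

section

variable {F : Type*} [Field F]

lemma Om3.sign {a b c : F} (h : Om3 a b c) {e0 e1 e2 : F} (h0 : e0 * e0 = 1) (h1 : e1 * e1 = 1) (h2 : e2 * e2 = 1) :
    Om3 (e0 * a) (e1 * b) (e2 * c) := by
  have k : ∀ e x : F, e * e = 1 → (e * x) ^ 6 = x ^ 6 := by
    intro e x he
    have : (e * x) ^ 6 = (e * e) ^ 3 * x ^ 6 := by ring
    rw [this, he, one_pow, one_mul]
  refine ⟨?_, ?_, ?_⟩
  · rw [k _ _ h0, k _ _ h1, k _ _ h2]; exact h.1
  · rw [k _ _ h0, k _ _ h1, k _ _ h2]; exact h.2.1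
  · have k9 : ∀ e : F, e * e = 1 → e ^ 9 = e := by
      intro e he
      have : e ^ 9 = (e * e) ^ 4 * e := by ring
      rw [this, he, one_pow, one_mul]
    have h3 : (e0 * a * (e1 * b) * (e2 * c)) ^ 9 = e0 ^ 9 * e1 ^ 9 * e2 ^ 9 * (a * b * c) ^ 9 := by ring
    rw [h3, h.2.2, k9 _ h0, k9 _ h1, k9 _ h2]
    ring

lemma Om3.swap01 {a b c : F} (h : Om3 a b c) : Om3 b a c := by
  refine ⟨?_, ?_, ?_⟩
  · rw [add_comm (b ^ 6)]; exact h.1
  · rcases h.2.1 with h | h | h
    · exact Or.inl h.symm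
    · exact Or.inr (Or.inr h)
    · exact Or.inr (Or.inl h)
  · rw [mul_comm b a]; exact h.2.2

lemma Om3.swap12 {a b c : F} (h : Om3 a b c) : Om3 a c b := by
  refine ⟨?_, ?_, ?_⟩
  · rw [add_right_comm]; exact h.1
  · rcases h.2.1 with h | h | h
    · exact Or.inr (Or.inl h)
    · exact Or.inl h
    · exact Or.inr (Or.inr h.symm)
  · rw [mul_right_comm]; exact h.2.2

lemma Om3.perm {x : Fin 3 → F} (h : Om3 (x 0) (x 1) (x 2)) (k : Fin 6) :
    Om3 (x (prm k 0)) (x (prm k 1)) (x (prm k 2)) := by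
  fin_cases k
  · exact h
  · exact h.swap12
  · exact h.swap01
  · exact h.swap01.swap12
  · exact h.swap12.swap01
  · exact h.swap01.swap12.swap01

theorem orth (φ : ZMod 5 →+* F) (hh : ∀ a b c : F, Om3 a b c → Om3 (2 * a + b + c) (a + 2 * b + c) (a + b + 2 * c))
    (A : Matrix (Fin 3) (Fin 3) (ZMod 5)) (hA : A.transpose * A = 1) (x : Fin 3 → F) (hx : Om3 (x 0) (x 1) (x 2)) :
    Om3 (∑ j, φ (A 0 j) * x j) (∑ j, φ (A 1 j) * x j) (∑ j, φ (A 2 j) * x j) := by
  have e : ∀ i j, A 0 i * A 0 j + A 1 i * A 1 j + A 2 i * A 2 j = if i = j then 1 else 0 := by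
    intro i j
    have := congrFun (congrFun hA i) j
    rw [Matrix.mul_apply, Fin.sum_univ_three, Matrix.one_apply] at this
    exact this
  have hA2 : (![![A 0 0, A 0 1, A 0 2], ![A 1 0, A 1 1, A 1 2], ![A 2 0, A 2 1, A 2 2]] :
      Fin 3 → Fin 3 → ZMod 5) = A := by
    funext i j
    fin_cases i <;> fin_cases j <;> rfl
  obtain ⟨k, hk⟩ := cls (e 0 0) (e 0 1) (e 1 1) (e 0 2) (e 1 2) (e 2 2)
  rw [hA2] at hk
  have hsq : ∀ c : ZMod 5, φ (pm c) * φ (pm c) = 1 := by
    intro c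
    rw [← map_mul, pm_sq, map_one]
  rcases hk with hk | hk
  · have key : ∀ i, ∑ j, φ (A i j) * x j = φ (pm (A i (prm k i))) * x (prm k i) := by
      intro i
      rw [Finset.sum_eq_single (prm k i)]
      · have h8 := hk i (prm k i)
        rw [if_pos rfl] at h8
        exact congrArg (fun t => φ t * x (prm k i)) h8
      · intro j _ hj
        rw [hk i j, if_neg hj, map_zero, zero_mul]
      · intro h; exact absurd (Finset.mem_univ _) h
    rw [key, key, key]
    exact (hx.perm k).sign (hsq _) (hsq _) (hsq _)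
  · set y : Fin 3 → F := fun j => φ (pm (A 0 j) * pm (A 0 0)) * x j with hy
    have hy' : Om3 (y 0) (y 1) (y 2) := by
      have hq : ∀ j, φ (pm (A 0 j) * pm (A 0 0)) * φ (pm (A 0 j) * pm (A 0 0)) = 1 := by
        intro j
        rw [map_mul]
        calc _ = (φ (pm (A 0 j)) * φ (pm (A 0 j))) * (φ (pm (A 0 0)) * φ (pm (A 0 0))) := by ring
          _ = 1 := by rw [hsq, hsq, one_mul]
      exact hx.sign (hq 0) (hq 1) (hq 2)
    let z : Fin 3 → F := fun i => y i + (y 0 + y 1 + y 2)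
    have hz : Om3 (z 0) (z 1) (z 2) := by
      have h1 := hh _ _ _ hy'
      have e0 : z 0 = 2 * y 0 + y 1 + y 2 := by simp only [z]; ring
      have e1 : z 1 = y 0 + 2 * y 1 + y 2 := by simp only [z]; ring
      have e2 : z 2 = y 0 + y 1 + 2 * y 2 := by simp only [z]; ring
      rw [e0, e1, e2]
      exact h1
    have key : ∀ i, ∑ j, φ (A i j) * x j = φ (pm (A i 0)) * z (prm k i) := by
      intro i
      have h1 : ∀ j, φ (A i j) * x j = φ (pm (A i 0)) * (y j + if j = prm k i then y j else 0) := by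
        intro j
        rw [hk i j, map_mul, map_mul]
        by_cases hj : j = prm k i
        · rw [if_pos hj, if_pos hj, hy]
          have : φ 2 = 2 := map_ofNat φ 2
          rw [this]
          have h5 : φ (pm (A i 0)) = φ (pm (A i 0)) := rfl
          ring
        · rw [if_neg hj, if_neg hj, map_one, add_zero, mul_one, mul_assoc]
      rw [Finset.sum_congr rfl (fun j _ => h1 j), ← Finset.mul_sum, Finset.sum_add_distrib, Finset.sum_ite_eq',
        if_pos (Finset.mem_univ _), Fin.sum_univ_three, add_comm]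
    rw [key, key, key]
    exact (hz.perm k).sign (hsq _) (hsq _) (hsq _)

lemma om_iff (x : Fin 3 → F) : H17.U35.Om x ↔ Om3 (x 0) (x 1) (x 2) := by
  constructor
  · intro h; exact ⟨h.1.1, h.1.2, h.2⟩
  · intro h; exact ⟨⟨h.1, h.2.1⟩, h.2.2⟩

theorem orth' [Fintype F] (hF : Fintype.card F = 25) (φ : ZMod 5 →+* F)
    (A : Matrix (Fin 3) (Fin 3) (ZMod 5)) (hA : A.transpose * A = 1) {x : Fin 3 → F} (hx : H17.U35.Om x) :
    H17.U35.Om (fun i => ∑ j, φ (A i j) * x j) := by
  rw [om_iff] at hx ⊢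
  refine orth φ (fun a b c h => ?_) A hA x hx
  have h1 : H17.U35.Om ![a, b, c] := (om_iff _).mpr h
  have h2 := (om_iff _).mp (H17.U35.Om_h hF h1)
  have e0 : 2 * a + b + c = a + (a + b + c) := by ring
  have e1 : a + 2 * b + c = b + (a + b + c) := by ring
  have e2 : a + b + 2 * c = c + (a + b + c) := by ring
  rw [e0, e1, e2]
  exact h2

end

end H14.U35B
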