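import Cfsg.Agent.Lib.H14.PBasic
import Mathlib.GroupTheory.Nilpotent
import Mathlib.GroupTheory.Index

set_option autoImplicit false

namespace H14.Uniserial

open Cfsg Subgroup
open scoped commutatorElement

/-- Between a subgroup and an overgroup of prime index there is nothing. -/
theorem eq_of_lt_of_le_of_card {G : Type*} [Group G] [Finite G] {p : ℕ} (hp : p.Prime)
    {K X M : Subgroup G} (h1 : K < X) (h2 : X ≤ M) (hc : Nat.card M = p * Nat.card K) : X = M := by
  have hK : 0 < Nat.card K := Nat.card_pos
  obtain ⟨k, hk⟩ := Subgroup.card_dvd_of_le h1.le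
  obtain ⟨l, hl⟩ := Subgroup.card_dvd_of_le h2
  have h3 : k * l = p := by
    rw [hl, hk] at hc
    have : Nat.card K * (k * l) = Nat.card K * p := by rw [← mul_assoc, hc, mul_comm]
    exact Nat.eq_of_mul_eq_mul_left hK this
  have hk1 : k ≠ 1 := by
    rintro rfl
    rw [mul_one] at hk
    exact h1.ne (Subgroup.eq_of_le_of_card_ge h1.le hk.le)
  have hkp : k = p := ((Nat.dvd_prime hp).mp ⟨l, h3.symm⟩).resolve_left hk1
  apply Subgroup.eq_of_le_of_card_ge h2
  rw [hc, hk, hkp, mul_comm]

theorem card_mul_relIndex {G : Type*} [Group G] {K M : Subgroup G} (h : K ≤ M) :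
    Nat.card K * K.relIndex M = Nat.card M := by
  have h1 := Subgroup.card_mul_index (K.subgroupOf M)
  rw [Nat.card_congr (Subgroup.subgroupOfEquivOfLe h).toEquiv] at h1
  exact h1

theorem card_mul_dvd_of_lt {G : Type*} [Group G] [Finite G] {p : ℕ} [Fact p.Prime]
    {K M : Subgroup G} (hM : IsPGroup p M) (h : K < M) : Nat.card K * p ∣ Nat.card M := by
  rw [← card_mul_relIndex h.le]
  refine Nat.mul_dvd_mul_left _ ?_
  have h1 : (K.subgroupOf M).index ≠ 1 := by
    rw [Ne, index_eq_one, subgroupOf_eq_top]
    exact not_le_of_gt h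
  obtain ⟨n, hn⟩ := hM.index (K.subgroupOf M)
  have h2 : K.relIndex M = p ^ n := hn
  rw [h2]
  rw [hn] at h1
  rcases Nat.eq_zero_or_pos n with h0 | h0
  · rw [h0, pow_zero] at h1; exact absurd rfl h1
  · exact dvd_pow_self p h0.ne'

/-- In a `p`-group (`H ⊔ G`), `[H, G] = H` forces `H = 1`. -/
theorem commutator_lt_of_pgroup {L : Type*} [Group L] [Finite L] {p : ℕ} [Fact p.Prime]
    {H G : Subgroup L} (hP : IsPGroup p (H ⊔ G : Subgroup L)) (hn : G ≤ normalizer (H : Set L))
    (hH : H ≠ ⊥) : ⁅H, G⁆ < H := by
  refine lt_of_le_of_ne (le_normalizer_iff_commutator_le_left.mp hn) fun he => hH ?_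
  haveI : Group.IsNilpotent (H ⊔ G : Subgroup L) := hP.isNilpotent
  obtain ⟨m, hm⟩ := (isNilpotent_iff_lowerCentralSeries (H ⊔ G)).mp inferInstance
  have h1 : ∀ i, H ≤ (H ⊔ G).lowerCentralSeries i := by
    intro i
    induction i with
    | zero => exact le_sup_left
    | succ i ih =>
      rw [Subgroup.lowerCentralSeries_succ]
      calc H = ⁅H, G⁆ := he.symm
        _ ≤ _ := commutator_mono ih le_sup_right
  rw [eq_bot_iff, ← hm]
  exact h1 m

section chain

variable {L : Type*} [Group L] (N G : Subgroup L)

theorem iter_succ (i : ℕ) : iterCommutator N G (i + 1) = ⁅iterCommutator N G i, G⁆ := rfl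

theorem le_normalizer_iter (h : G ≤ normalizer (N : Set L)) (i : ℕ) :
    G ≤ normalizer (iterCommutator N G i : Set L) := by
  cases i with
  | zero => exact h
  | succ i => exact normalizer_commutator_ge_right _ _

theorem iter_succ_le (h : G ≤ normalizer (N : Set L)) (i : ℕ) :
    iterCommutator N G (i + 1) ≤ iterCommutator N G i :=
  le_normalizer_iff_commutator_le_left.mp (le_normalizer_iter N G h i)

theorem iter_le (h : G ≤ normalizer (N : Set L)) (i : ℕ) : iterCommutator N G i ≤ N := by
  induction i with
  | zero => exact le_rfl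
  | succ i ih => exact (iter_succ_le N G h i).trans ih

theorem iter_antitone (h : G ≤ normalizer (N : Set L)) : Antitone (iterCommutator N G) :=
  antitone_nat_of_succ_le (iter_succ_le N G h)

variable {N G} [Finite L] {p : ℕ} [Fact p.Prime]

theorem sup_isPGroup (hN : IsPGroup p N) (hG : IsPGroup p G) (h : G ≤ normalizer (N : Set L)) :
    IsPGroup p (N ⊔ G : Subgroup L) := by
  exact hN.to_sup_of_normal_left' hG h

theorem card_iter (hN : IsPGroup p N) (hG : IsPGroup p G) (h : G ≤ normalizer (N : Set L)) {n : ℕ}
    (hn : Nat.card N = p ^ n) (hne : iterCommutator N G (n - 1) ≠ ⊥ ∨ n = 0) :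
    ∀ i ≤ n, Nat.card (iterCommutator N G i) = p ^ (n - i) := by
  have hp : p.Prime := Fact.out
  have hlt : ∀ i < n, iterCommutator N G (i + 1) < iterCommutator N G i := by
    intro i hi
    have h1 : iterCommutator N G i ≠ ⊥ := by
      intro hb
      have h2 : iterCommutator N G (n - 1) ≤ iterCommutator N G i := iter_antitone N G h (by omega)
      rw [hb, le_bot_iff] at h2
      rcases hne with h3 | h3
      · exact h3 h2
      · omega
    refine commutator_lt_of_pgroup (p := p) ?_ (le_normalizer_iter N G h i) h1
    exact (sup_isPGroup hN hG h).to_le (sup_le_sup_right (iter_le N G h i) G)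
  have hdvd : ∀ i < n, Nat.card (iterCommutator N G (i + 1)) * p ∣ Nat.card (iterCommutator N G i) :=
    fun i hi => card_mul_dvd_of_lt (hN.to_le (iter_le N G h i)) (hlt i hi)
  have hup : ∀ i ≤ n, Nat.card (iterCommutator N G i) ∣ p ^ (n - i) := by
    intro i
    induction i with
    | zero => intro _; rw [Nat.sub_zero, ← hn]; exact dvd_rfl
    | succ i ih =>
      intro hi
      have h1 := (hdvd i (by omega)).trans (ih (by omega))
      have h2 : n - i = (n - (i + 1)) + 1 := by omega
      rw [h2, pow_succ] at h1
      exact Nat.dvd_of_mul_dvd_mul_right hp.pos h1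
  have hlow : ∀ j ≤ n, p ^ j ∣ Nat.card (iterCommutator N G (n - j)) := by
    intro j
    induction j with
    | zero => intro _; rw [pow_zero]; exact one_dvd _
    | succ j ih =>
      intro hj
      have h1 := hdvd (n - (j + 1)) (by omega)
      have h2 : n - (j + 1) + 1 = n - j := by omega
      rw [h2] at h1
      rw [pow_succ]
      exact (Nat.mul_dvd_mul_right (ih (by omega)) p).trans h1
  intro i hi
  have h1 := hlow (n - i) (by omega)
  have h2 : n - (n - i) = i := by omega
  rw [h2] at h1
  exact Nat.dvd_antisymm (hup i hi) h1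

theorem le_normalizer_iter' (hN : IsPGroup p N) (hG : IsPGroup p G) (h : G ≤ normalizer (N : Set L))
    {n : ℕ} (hcard : ∀ i ≤ n, Nat.card (iterCommutator N G i) = p ^ (n - i)) :
    ∀ i ≤ n, N ⊔ G ≤ normalizer (iterCommutator N G i : Set L) := by
  have hp : p.Prime := Fact.out
  intro i
  induction i with
  | zero => intro _; exact sup_le le_normalizer h
  | succ i ih =>
    intro hi
    have ih' := ih (by omega)
    have hne : iterCommutator N G i ≠ ⊥ := by
      intro hb
      have h1 := hcard i (by omega)
      rw [hb, card_bot] at h1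
      have h2 : 1 < p ^ (n - i) := Nat.one_lt_pow (by omega) hp.one_lt
      omega
    have h1 : ⁅iterCommutator N G i, N ⊔ G⁆ < iterCommutator N G i := by
      refine commutator_lt_of_pgroup (p := p) ?_ ih' hne
      have : iterCommutator N G i ⊔ (N ⊔ G) ≤ N ⊔ G :=
        sup_le ((iter_le N G h i).trans le_sup_left) le_rfl
      exact (sup_isPGroup hN hG h).to_le this
    have h2 : iterCommutator N G (i + 1) ≤ ⁅iterCommutator N G i, N ⊔ G⁆ :=
      commutator_mono le_rfl le_sup_right
    have h3 : iterCommutator N G (i + 1) = ⁅iterCommutator N G i, N ⊔ G⁆ := by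
      rcases eq_or_lt_of_le h2 with h4 | h4
      · exact h4
      · exfalso
        refine h1.ne (eq_of_lt_of_le_of_card hp h4 h1.le ?_)
        rw [hcard i (by omega), hcard (i + 1) hi, ← pow_succ']
        congr 1; omega
    rw [h3]
    exact normalizer_commutator_ge_right _ _

theorem exists_eq_iter (hN : IsPGroup p N) (hG : IsPGroup p G) (h : G ≤ normalizer (N : Set L))
    {n : ℕ} (hcard : ∀ i ≤ n, Nat.card (iterCommutator N G i) = p ^ (n - i))
    {H : Subgroup L} (hHN : H ≤ N) (hGH : G ≤ normalizer (H : Set L)) :
    ∃ i ≤ n, H = iterCommutator N G i := by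
  classical
  have hp : p.Prime := Fact.out
  have hbot : iterCommutator N G n = ⊥ := by
    rw [← Subgroup.card_eq_one, hcard n le_rfl, Nat.sub_self, pow_zero]
  by_cases hHb : H = ⊥
  · exact ⟨n, le_rfl, by rw [hHb, hbot]⟩
  -- the largest `i` with `H ≤ C i`
  obtain ⟨i, hi1, hi2⟩ : ∃ i, H ≤ iterCommutator N G i ∧ ¬ H ≤ iterCommutator N G (i + 1) := by
    by_contra hcon
    push Not at hcon
    have : ∀ i, H ≤ iterCommutator N G i := by
      intro i
      induction i with
      | zero => exact hHN
      | succ i ih => exact hcon i ih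
    have h1 := this n
    rw [hbot, le_bot_iff] at h1
    exact hHb h1
  have hin : i < n := by
    by_contra hcon
    push Not at hcon
    have h1 := hi1.trans (iter_antitone N G h hcon)
    rw [hbot, le_bot_iff] at h1
    exact hHb h1
  have hstep : ∀ j, i ≤ j → j < n → ∃ x ∈ H, x ∈ iterCommutator N G j ∧ x ∉ iterCommutator N G (j + 1) := by
    intro j hij
    induction j, hij using Nat.le_induction with
    | base =>
      intro _
      obtain ⟨x, hx1, hx2⟩ := SetLike.not_le_iff_exists.mp hi2
      exact ⟨x, hx1, hi1 hx1, hx2⟩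
    | succ j hij ih =>
      intro hj
      obtain ⟨x, hxH, hx1, hx2⟩ := ih (by omega)
      by_contra hcon
      push Not at hcon
      have hnorm2 : N ⊔ G ≤ normalizer (iterCommutator N G (j + 2) : Set L) := by
        rcases Nat.lt_or_ge n (j + 2) with hlt | hge
        · have h1 : iterCommutator N G (j + 2) = ⊥ := by
            rw [eq_bot_iff, ← hbot]; exact iter_antitone N G h hlt.le
          rw [h1, normalizer_eq_top]
          exact le_top
        · exact le_normalizer_iter' hN hG h hcard (j + 2) hge
      have hcomm : ∀ g ∈ G, ⁅x, g⁆ ∈ iterCommutator N G (j + 2) := by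
        intro g hg
        apply hcon
        · exact le_normalizer_iff_commutator_le_left.mp hGH (commutator_mem_commutator hxH hg)
        · exact commutator_mem_commutator hx1 hg
      let X : Subgroup L :=
        { carrier := {y | y ∈ iterCommutator N G j ∧ ∀ g ∈ G, ⁅y, g⁆ ∈ iterCommutator N G (j + 2)}
          one_mem' := ⟨one_mem _, fun g _ => by rw [commutatorElement_one_left]; exact one_mem _⟩
          mul_mem' := by
            rintro a b ⟨ha, ha'⟩ ⟨hb, hb'⟩
            refine ⟨mul_mem ha hb, fun g hg => ?_⟩
            rw [commutatorElement_mul_left_eq_conj_mul]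
            refine mul_mem ?_ (ha' g hg)
            exact (mem_normalizer_iff.mp (hnorm2 (mem_sup_left (iter_le N G h j ha))) _).mp (hb' g hg)
          inv_mem' := by
            rintro a ⟨ha, ha'⟩
            refine ⟨inv_mem ha, fun g hg => ?_⟩
            rw [commutatorElement_inv_left, ← commutatorElement_inv]
            have h1 := (mem_normalizer_iff.mp (hnorm2 (mem_sup_left (iter_le N G h j (inv_mem ha)))) _).mp
              (inv_mem (ha' g hg))
            rwa [inv_inv] at h1 }
      have hX1 : iterCommutator N G (j + 1) ≤ X := fun y hy =>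
        ⟨iter_succ_le N G h j hy, fun g hg => commutator_mem_commutator hy hg⟩
      have hX2 : X ≤ iterCommutator N G j := fun y hy => hy.1
      have hX3 : iterCommutator N G (j + 1) < X :=
        lt_of_le_of_ne hX1 fun he => hx2 (by rw [he]; exact ⟨hx1, hcomm⟩)
      have hX4 : X = iterCommutator N G j := eq_of_lt_of_le_of_card hp hX3 hX2 (by
        rw [hcard j (by omega), hcard (j + 1) (by omega), ← pow_succ']
        congr 1; omega)
      have h5 : iterCommutator N G (j + 1) ≤ iterCommutator N G (j + 2) := by
        rw [iter_succ N G j, commutator_le]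
        intro y hy g hg
        rw [← hX4] at hy
        exact hy.2 g hg
      have h6 := Subgroup.card_le_of_le h5
      rw [hcard (j + 1) (by omega)] at h6
      have h7 : Nat.card (iterCommutator N G (j + 2)) ≤ p ^ (n - (j + 1) - 1) := by
        rcases Nat.lt_or_ge n (j + 2) with hlt | hge
        · omega
        · rw [hcard (j + 2) hge]
          exact Nat.pow_le_pow_right hp.pos (by omega)
      have h8 : p ^ (n - (j + 1) - 1) < p ^ (n - (j + 1)) := Nat.pow_lt_pow_right hp.one_lt (by omega)
      omega
  -- descend
  have hdesc : ∀ k ≤ n - i, iterCommutator N G (n - k) ≤ H := by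
    intro k
    induction k with
    | zero => intro _; rw [Nat.sub_zero, hbot]; exact bot_le
    | succ k ih =>
      intro hk
      have h1 := ih (by omega)
      have h2 : n - k = n - (k + 1) + 1 := by omega
      rw [h2] at h1
      obtain ⟨x, hxH, hx1, hx2⟩ := hstep (n - (k + 1)) (by omega) (by omega)
      have h3 : H ⊓ iterCommutator N G (n - (k + 1)) = iterCommutator N G (n - (k + 1)) := by
        refine eq_of_lt_of_le_of_card hp (K := iterCommutator N G (n - (k + 1) + 1)) ?_ inf_le_right ?_
        · refine lt_of_le_of_ne (le_inf h1 (iter_succ_le N G h _)) fun he => hx2 ?_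
          rw [he]; exact ⟨hxH, hx1⟩
        · rw [hcard _ (by omega), hcard (n - (k + 1) + 1) (by omega), ← pow_succ']
          congr 1; omega
      exact inf_eq_right.mp h3
  refine ⟨i, hin.le, le_antisymm hi1 ?_⟩
  have := hdesc (n - i) le_rfl
  rwa [show n - (n - i) = i by omega] at this

end chain

end H14.Uniserial
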